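import Mathlib
import Cfsg.Prelude.Def_GeometricClasses

/-! S5630 (Aschbacher's theorem for SL_n, n ≥ 3): foundation definitions (helper71). -/

set_option autoImplicit false

namespace Cfsg.Agent.Lib.Helper71.Asch

open Matrix Cfsg.Geo
open scoped Kronecker

variable {n : ℕ} {F : Type*} [Field F]

/-- `H` normalises `L` (both subgroups of `GL (Fin n) F`). -/
def Nrm (H L : Subgroup (GL (Fin n) F)) : Prop := ∀ h ∈ H, ∀ x ∈ L, h * x * h⁻¹ ∈ L

/-- `H` lies in a member of one of the eight geometric classes (linear case). -/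
def InCls [Fintype F] (H : Subgroup (GL (Fin n) F)) : Prop :=
  ∃ M : Subgroup (GL (Fin n) F), InLinearClass n F M ∧ H ≤ M

/-- `L` is minimal among the non-scalar subgroups of `H` normalised by `H`. -/
structure IsMinNS (H L : Subgroup (GL (Fin n) F)) : Prop where
  le : L ≤ H
  nrm : Nrm H L
  ns : ¬ L ≤ scalars (Fin n) F
  min : ∀ L' : Subgroup (GL (Fin n) F), L' ≤ L → Nrm H L' → L' ≤ scalars (Fin n) F ∨ L' = L

theorem Nrm.commutator {H L : Subgroup (GL (Fin n) F)} (h : Nrm H L) : Nrm H ⁅L, L⁆ := by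
  intro g hg x hx
  have h1 : L.map (MulAut.conj g).toMonoidHom ≤ L := by
    rintro _ ⟨a, ha, rfl⟩
    exact h g hg a ha
  have h2 : (⁅L, L⁆).map (MulAut.conj g).toMonoidHom ≤ ⁅L, L⁆ := by
    rw [Subgroup.map_commutator]
    exact Subgroup.commutator_mono h1 h1
  have h3 : (MulAut.conj g).toMonoidHom x ∈ ⁅L, L⁆ := h2 (Subgroup.mem_map_of_mem _ hx)
  simpa [MulAut.conj_apply] using h3

theorem commutator_le_self (L : Subgroup (GL (Fin n) F)) : ⁅L, L⁆ ≤ L := by
  rw [Subgroup.commutator_le]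
  intro a ha b hb
  rw [commutatorElement_def]
  exact L.mul_mem (L.mul_mem (L.mul_mem ha hb) (L.inv_mem ha)) (L.inv_mem hb)

/-- The matrix `P (a ⊗ b) P⁻¹` on `Fin n`, where `a ⊗ b` is transported along `e`. -/
def tmat {d k : ℕ} (e : Fin n ≃ Fin d × Fin k) (P : GL (Fin n) F) (a : Matrix (Fin d) (Fin d) F)
    (b : Matrix (Fin k) (Fin k) F) : Matrix (Fin n) (Fin n) F :=
  P.1 * Matrix.reindex e.symm e.symm (a ⊗ₖ b) * (P⁻¹ : GL (Fin n) F).1

theorem mem_tensorProductSubgroup_iff {d k : ℕ} (e : Fin n ≃ Fin d × Fin k) (P : GL (Fin n) F)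
    (g : GL (Fin n) F) :
    g ∈ tensorProductSubgroup d k e P ↔
      ∃ (a : GL (Fin d) F) (b : GL (Fin k) F), g.1 = tmat e P a.1 b.1 := by
  unfold tensorProductSubgroup
  constructor
  · rintro ⟨_, ⟨x, ⟨a, b, hx⟩, rfl⟩, rfl⟩
    refine ⟨a, b, ?_⟩
    have h2 : ((glReindex e.symm x : GL (Fin n) F) : Matrix (Fin n) (Fin n) F) =
        Matrix.reindexAlgEquiv F F e.symm (x : Matrix (Fin d × Fin k) (Fin d × Fin k) F) := rfl
    show (P * glReindex e.symm x * P⁻¹ : GL (Fin n) F).1 = _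
    rw [Units.val_mul, Units.val_mul, h2, hx]
    rfl
  · rintro ⟨a, b, hg⟩
    have hx : ∃ x : GL (Fin d × Fin k) F, x.1 = a.1 ⊗ₖ b.1 := by
      refine ⟨⟨a.1 ⊗ₖ b.1, (a⁻¹ : GL (Fin d) F).1 ⊗ₖ (b⁻¹ : GL (Fin k) F).1, ?_, ?_⟩, rfl⟩
      · rw [← Matrix.mul_kronecker_mul, ← Units.val_mul, ← Units.val_mul, mul_inv_cancel,
          mul_inv_cancel, Units.val_one, Units.val_one, Matrix.one_kronecker_one]
      · rw [← Matrix.mul_kronecker_mul, ← Units.val_mul, ← Units.val_mul, inv_mul_cancel,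
          inv_mul_cancel, Units.val_one, Units.val_one, Matrix.one_kronecker_one]
    obtain ⟨x, hx⟩ := hx
    refine ⟨glReindex e.symm x, ⟨x, ⟨a, b, hx⟩, rfl⟩, ?_⟩
    apply Units.ext
    have h2 : ((glReindex e.symm x : GL (Fin n) F) : Matrix (Fin n) (Fin n) F) =
        Matrix.reindexAlgEquiv F F e.symm (x : Matrix (Fin d × Fin k) (Fin d × Fin k) F) := rfl
    show (P * glReindex e.symm x * P⁻¹ : GL (Fin n) F).1 = _
    rw [Units.val_mul, Units.val_mul, h2, hx, hg]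
    rfl

end Cfsg.Agent.Lib.Helper71.Asch
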