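import Mathlib
import Cfsg.Prelude.Def_GeometricClasses
import Cfsg.Agent.Lib.Helper71.Asch0

/-! S5630, tensor-induced branch B8: definitions and basic API (helper71). -/

set_option autoImplicit false

namespace Cfsg.Agent.Lib.Helper71.Asch

open Matrix Cfsg.Geo

variable {n : ℕ} {F : Type*} [Field F]

/-- `U` is a system of `m × m` matrix units whose span is the double commutant of `N`. -/
structure IsMU (N : Subgroup (GL (Fin n) F)) {m : ℕ}
    (U : Fin m → Fin m → Matrix (Fin n) (Fin n) F) : Prop where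
  mul : ∀ a b c d, U a b * U c d = if b = c then U a d else 0
  sum : ∑ a, U a a = 1
  dc : ∀ X : Matrix (Fin n) (Fin n) F, (∀ x ∈ N, X * x.1 = x.1 * X) → ∀ a b, U a b * X = X * U a b
  span : ∀ X : Matrix (Fin n) (Fin n) F,
    (∀ Y : Matrix (Fin n) (Fin n) F, (∀ x ∈ N, Y * x.1 = x.1 * Y) → X * Y = Y * X) →
    ∃ c : Fin m → Fin m → F, X = ∑ a, ∑ b, c a b • U a b

/-- The pure tensor `cs 0 ⊗ cs 1 ⊗ …` of `k` matrices of size `m`. -/
def pt {k m : ℕ} (cs : Fin k → Matrix (Fin m) (Fin m) F) :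
    Matrix (Fin k → Fin m) (Fin k → Fin m) F :=
  Matrix.of fun x y => ∏ i, cs i (x i) (y i)

/-- The embedding of `M_m(F)` into the `i`-th tensor factor: `1 ⊗ … ⊗ a ⊗ … ⊗ 1`. -/
def iota {k m : ℕ} (i : Fin k) (a : Matrix (Fin m) (Fin m) F) :
    Matrix (Fin k → Fin m) (Fin k → Fin m) F :=
  Matrix.of fun x y => if ∀ j, j ≠ i → x j = y j then a (x i) (y i) else 0

/-- Transport of a matrix on the standard tensor space to `Fin n`: `P · A^e · P⁻¹`. -/
def tw {k m : ℕ} (e : Fin n ≃ (Fin k → Fin m)) (P : GL (Fin n) F)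
    (A : Matrix (Fin k → Fin m) (Fin k → Fin m) F) : Matrix (Fin n) (Fin n) F :=
  P.1 * Matrix.reindex e.symm e.symm A * (P⁻¹ : GL (Fin n) F).1

theorem pt_apply {k m : ℕ} (cs : Fin k → Matrix (Fin m) (Fin m) F) (x y : Fin k → Fin m) :
    pt cs x y = ∏ i, cs i (x i) (y i) := rfl

theorem iota_apply {k m : ℕ} (i : Fin k) (a : Matrix (Fin m) (Fin m) F) (x y : Fin k → Fin m) :
    iota i a x y = if ∀ j, j ≠ i → x j = y j then a (x i) (y i) else 0 := rfl

theorem pt_mul {k m : ℕ} (cs ds : Fin k → Matrix (Fin m) (Fin m) F) :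
    pt cs * pt ds = pt (fun i => cs i * ds i) := by
  ext x y
  rw [Matrix.mul_apply, pt_apply]
  simp only [pt_apply, Matrix.mul_apply, ← Finset.prod_mul_distrib]
  rw [Finset.prod_univ_sum]
  simp

theorem pt_one {k m : ℕ} : pt (fun _ : Fin k => (1 : Matrix (Fin m) (Fin m) F)) = 1 := by
  ext x y
  rw [pt_apply]
  by_cases h : x = y
  · subst h; simp
  · rw [Matrix.one_apply_ne h]
    obtain ⟨i, hi⟩ := Function.ne_iff.mp h
    exact Finset.prod_eq_zero (Finset.mem_univ i) (Matrix.one_apply_ne hi)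

theorem pt_transpose {k m : ℕ} (cs : Fin k → Matrix (Fin m) (Fin m) F) :
    (pt cs)ᵀ = pt (fun i => (cs i)ᵀ) := by
  ext x y
  simp [pt_apply, Matrix.transpose_apply]

theorem pt_smul {k m : ℕ} (c : Fin k → F) (cs : Fin k → Matrix (Fin m) (Fin m) F) :
    pt (fun i => c i • cs i) = (∏ i, c i) • pt cs := by
  ext x y
  simp [pt_apply, Finset.prod_mul_distrib]

theorem iota_eq_pt {k m : ℕ} (i : Fin k) (a : Matrix (Fin m) (Fin m) F) :
    iota i a = pt (Function.update (fun _ => (1 : Matrix (Fin m) (Fin m) F)) i a) := by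
  ext x y
  rw [iota_apply, pt_apply, ← Finset.mul_prod_erase Finset.univ _ (Finset.mem_univ i),
    Function.update_self]
  have h1 : ∏ j ∈ Finset.univ.erase i,
      (Function.update (fun _ => (1 : Matrix (Fin m) (Fin m) F)) i a j) (x j) (y j) =
      if ∀ j ∈ Finset.univ.erase i, x j = y j then 1 else 0 := by
    by_cases h : ∀ j ∈ Finset.univ.erase i, x j = y j
    · rw [if_pos h]
      refine Finset.prod_eq_one fun j hj => ?_
      rw [Function.update_of_ne (Finset.ne_of_mem_erase hj), h j hj, Matrix.one_apply_eq]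
    · rw [if_neg h]
      push Not at h
      obtain ⟨j, hj, hne⟩ := h
      refine Finset.prod_eq_zero hj ?_
      rw [Function.update_of_ne (Finset.ne_of_mem_erase hj), Matrix.one_apply_ne hne]
  rw [h1]
  by_cases h : ∀ j, j ≠ i → x j = y j
  · rw [if_pos h, if_pos (fun j hj => h j (Finset.ne_of_mem_erase hj)), mul_one]
  · rw [if_neg h, if_neg (fun h' => h (fun j hj => h' j (Finset.mem_erase.mpr ⟨hj, Finset.mem_univ j⟩))),
      mul_zero]

theorem pt_update_mul {k m : ℕ} (i : Fin k) (cs ds : Fin k → Matrix (Fin m) (Fin m) F)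
    (a b : Matrix (Fin m) (Fin m) F) :
    pt (Function.update cs i a) * pt (Function.update ds i b) =
      pt (Function.update (fun j => cs j * ds j) i (a * b)) := by
  rw [pt_mul]
  congr 1
  funext j
  by_cases hj : j = i
  · subst hj; simp
  · simp [Function.update_of_ne hj]

theorem iota_mul {k m : ℕ} (i : Fin k) (a b : Matrix (Fin m) (Fin m) F) :
    iota i a * iota i b = iota i (a * b) := by
  rw [iota_eq_pt, iota_eq_pt, iota_eq_pt, pt_update_mul]
  simp

theorem iota_one {k m : ℕ} (i : Fin k) : iota i (1 : Matrix (Fin m) (Fin m) F) = 1 := by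
  rw [iota_eq_pt]
  simp [pt_one]

theorem iota_add {k m : ℕ} (i : Fin k) (a b : Matrix (Fin m) (Fin m) F) :
    iota i (a + b) = iota i a + iota i b := by
  ext x y
  simp only [iota_apply, Matrix.add_apply]
  split_ifs <;> simp

theorem iota_smul {k m : ℕ} (i : Fin k) (c : F) (a : Matrix (Fin m) (Fin m) F) :
    iota i (c • a) = c • iota i a := by
  ext x y
  simp only [iota_apply, Matrix.smul_apply]
  split_ifs <;> simp

theorem iota_zero {k m : ℕ} (i : Fin k) : iota i (0 : Matrix (Fin m) (Fin m) F) = 0 := by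
  ext x y
  simp [iota_apply]

theorem iota_sum {k m : ℕ} (i : Fin k) {α : Type*} (s : Finset α)
    (f : α → Matrix (Fin m) (Fin m) F) : iota i (∑ t ∈ s, f t) = ∑ t ∈ s, iota i (f t) := by
  classical
  induction s using Finset.induction_on with
  | empty => simp [iota_zero]
  | insert t s ht ih => rw [Finset.sum_insert ht, Finset.sum_insert ht, iota_add, ih]

theorem iota_injective {k m : ℕ} (i : Fin k) :
    Function.Injective (iota i : Matrix (Fin m) (Fin m) F → _) := by
  intro a b hab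
  ext p q
  have h := congrFun (congrFun hab (fun _ => p)) (Function.update (fun _ => p) i q)
  rw [iota_apply, iota_apply] at h
  have hc : ∀ j, j ≠ i → (fun _ : Fin k => p) j = (Function.update (fun _ : Fin k => p) i q) j :=
    fun j hj => by rw [Function.update_of_ne hj]
  rw [if_pos hc, if_pos hc, Function.update_self] at h
  exact h

theorem tw_mul {k m : ℕ} (e : Fin n ≃ (Fin k → Fin m)) (P : GL (Fin n) F)
    (A B : Matrix (Fin k → Fin m) (Fin k → Fin m) F) : tw e P A * tw e P B = tw e P (A * B) := by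
  unfold tw
  have h : (P⁻¹ : GL (Fin n) F).1 * P.1 = 1 := by
    rw [← Units.val_mul, inv_mul_cancel, Units.val_one]
  calc P.1 * Matrix.reindex e.symm e.symm A * (P⁻¹ : GL (Fin n) F).1 *
        (P.1 * Matrix.reindex e.symm e.symm B * (P⁻¹ : GL (Fin n) F).1)
      = P.1 * Matrix.reindex e.symm e.symm A * ((P⁻¹ : GL (Fin n) F).1 * P.1) *
        Matrix.reindex e.symm e.symm B * (P⁻¹ : GL (Fin n) F).1 := by simp only [mul_assoc]
    _ = P.1 * (Matrix.reindex e.symm e.symm A * Matrix.reindex e.symm e.symm B) *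
        (P⁻¹ : GL (Fin n) F).1 := by rw [h, mul_one, mul_assoc P.1]
    _ = _ := by
        congr 2
        simp [Matrix.reindex_apply, Matrix.submatrix_mul_equiv]

theorem tw_one {k m : ℕ} (e : Fin n ≃ (Fin k → Fin m)) (P : GL (Fin n) F) : tw e P 1 = 1 := by
  unfold tw
  simp

theorem tw_add {k m : ℕ} (e : Fin n ≃ (Fin k → Fin m)) (P : GL (Fin n) F)
    (A B : Matrix (Fin k → Fin m) (Fin k → Fin m) F) : tw e P (A + B) = tw e P A + tw e P B := by
  unfold tw
  have h : Matrix.reindex e.symm e.symm (A + B) =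
      Matrix.reindex e.symm e.symm A + Matrix.reindex e.symm e.symm B := by
    ext i j
    simp [Matrix.reindex_apply, Matrix.submatrix_apply]
  rw [h, mul_add, add_mul]

theorem tw_smul {k m : ℕ} (e : Fin n ≃ (Fin k → Fin m)) (P : GL (Fin n) F) (c : F)
    (A : Matrix (Fin k → Fin m) (Fin k → Fin m) F) : tw e P (c • A) = c • tw e P A := by
  unfold tw
  have h : Matrix.reindex e.symm e.symm (c • A) = c • Matrix.reindex e.symm e.symm A := by
    ext i j
    simp [Matrix.reindex_apply, Matrix.submatrix_apply]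
  rw [h, Matrix.mul_smul, Matrix.smul_mul]

theorem tw_sum {k m : ℕ} (e : Fin n ≃ (Fin k → Fin m)) (P : GL (Fin n) F) {α : Type*}
    (s : Finset α) (f : α → Matrix (Fin k → Fin m) (Fin k → Fin m) F) :
    tw e P (∑ t ∈ s, f t) = ∑ t ∈ s, tw e P (f t) := by
  classical
  induction s using Finset.induction_on with
  | empty => unfold tw; simp
  | insert t s ht ih => rw [Finset.sum_insert ht, Finset.sum_insert ht, tw_add, ih]

/-- The inverse transport. -/
def twinv {k m : ℕ} (e : Fin n ≃ (Fin k → Fin m)) (P : GL (Fin n) F)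
    (X : Matrix (Fin n) (Fin n) F) : Matrix (Fin k → Fin m) (Fin k → Fin m) F :=
  Matrix.reindex e e ((P⁻¹ : GL (Fin n) F).1 * X * P.1)

theorem twinv_tw {k m : ℕ} (e : Fin n ≃ (Fin k → Fin m)) (P : GL (Fin n) F)
    (A : Matrix (Fin k → Fin m) (Fin k → Fin m) F) : twinv e P (tw e P A) = A := by
  unfold tw twinv
  have h : (P⁻¹ : GL (Fin n) F).1 * P.1 = 1 := by
    rw [← Units.val_mul, inv_mul_cancel, Units.val_one]
  have h2 : (P⁻¹ : GL (Fin n) F).1 * (P.1 * Matrix.reindex e.symm e.symm A *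
      (P⁻¹ : GL (Fin n) F).1) * P.1 = Matrix.reindex e.symm e.symm A := by
    calc _ = ((P⁻¹ : GL (Fin n) F).1 * P.1) * Matrix.reindex e.symm e.symm A *
          ((P⁻¹ : GL (Fin n) F).1 * P.1) := by simp only [mul_assoc]
      _ = _ := by rw [h, one_mul, mul_one]
  rw [h2]
  ext x y
  simp [Matrix.reindex_apply]

theorem tw_twinv {k m : ℕ} (e : Fin n ≃ (Fin k → Fin m)) (P : GL (Fin n) F)
    (X : Matrix (Fin n) (Fin n) F) : tw e P (twinv e P X) = X := by
  unfold tw twinv
  have h : P.1 * (P⁻¹ : GL (Fin n) F).1 = 1 := by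
    rw [← Units.val_mul, mul_inv_cancel, Units.val_one]
  have h2 : Matrix.reindex e.symm e.symm (Matrix.reindex e e ((P⁻¹ : GL (Fin n) F).1 * X * P.1)) =
      (P⁻¹ : GL (Fin n) F).1 * X * P.1 := by
    ext x y
    simp [Matrix.reindex_apply]
  rw [h2]
  calc _ = (P.1 * (P⁻¹ : GL (Fin n) F).1) * X * (P.1 * (P⁻¹ : GL (Fin n) F).1) := by
        simp only [mul_assoc]
    _ = X := by rw [h, one_mul, mul_one]

theorem tw_injective {k m : ℕ} (e : Fin n ≃ (Fin k → Fin m)) (P : GL (Fin n) F) :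
    Function.Injective (tw e P) :=
  Function.LeftInverse.injective (twinv_tw e P)

/-- Every invertible matrix is the transport of an invertible matrix on the standard space. -/
theorem exists_tw_eq {k m : ℕ} (e : Fin n ≃ (Fin k → Fin m)) (P : GL (Fin n) F)
    (h : GL (Fin n) F) : ∃ g : GL (Fin k → Fin m) F, h.1 = tw e P g.1 ∧
      (h⁻¹ : GL (Fin n) F).1 = tw e P (g⁻¹ : GL (Fin k → Fin m) F).1 := by
  have h1 : twinv e P h.1 * twinv e P (h⁻¹ : GL (Fin n) F).1 = 1 := by
    apply tw_injective e P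
    rw [← tw_mul, tw_twinv, tw_twinv, tw_one, ← Units.val_mul, mul_inv_cancel, Units.val_one]
  have h2 : twinv e P (h⁻¹ : GL (Fin n) F).1 * twinv e P h.1 = 1 := by
    apply tw_injective e P
    rw [← tw_mul, tw_twinv, tw_twinv, tw_one, ← Units.val_mul, inv_mul_cancel, Units.val_one]
  exact ⟨⟨twinv e P h.1, twinv e P (h⁻¹ : GL (Fin n) F).1, h1, h2⟩, (tw_twinv e P h.1).symm,
    (tw_twinv e P _).symm⟩

theorem mem_tensorWreathSubgroup_iff {k m : ℕ} (e : Fin n ≃ (Fin k → Fin m)) (P : GL (Fin n) F)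
    (g : GL (Fin n) F) :
    g ∈ tensorWreathSubgroup m k e P ↔ ∃ s ∈ tensorWreathStandard m k F, g.1 = tw e P s.1 := by
  unfold tensorWreathSubgroup
  constructor
  · rintro ⟨_, ⟨x, hx, rfl⟩, rfl⟩
    refine ⟨x, hx, ?_⟩
    have h2 : ((glReindex e.symm x : GL (Fin n) F) : Matrix (Fin n) (Fin n) F) =
        Matrix.reindexAlgEquiv F F e.symm (x : Matrix (Fin k → Fin m) (Fin k → Fin m) F) := rfl
    show (P * glReindex e.symm x * P⁻¹ : GL (Fin n) F).1 = _
    rw [Units.val_mul, Units.val_mul, h2]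
    rfl
  · rintro ⟨x, hx, hg⟩
    refine ⟨glReindex e.symm x, ⟨x, hx, rfl⟩, ?_⟩
    apply Units.ext
    have h2 : ((glReindex e.symm x : GL (Fin n) F) : Matrix (Fin n) (Fin n) F) =
        Matrix.reindexAlgEquiv F F e.symm (x : Matrix (Fin k → Fin m) (Fin k → Fin m) F) := rfl
    show (P * glReindex e.symm x * P⁻¹ : GL (Fin n) F).1 = _
    rw [Units.val_mul, Units.val_mul, h2, hg]
    rfl

/-- A skew matrix with zero diagonal is alternating (any characteristic). -/
theorem alt_of_skew_diag {ι : Type*} [Fintype ι] [DecidableEq ι] (A : Matrix ι ι F)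
    (hA : Aᵀ = -A) (hd : ∀ x, A x x = 0) (v : ι → F) : v ⬝ᵥ A *ᵥ v = 0 := by
  have h : v ⬝ᵥ A *ᵥ v = ∑ p ∈ (Finset.univ : Finset (ι × ι)), v p.1 * A p.1 p.2 * v p.2 := by
    simp only [dotProduct, Matrix.mulVec, Finset.mul_sum]
    rw [← Finset.univ_product_univ, Finset.sum_product]
    refine Finset.sum_congr rfl fun x _ => Finset.sum_congr rfl fun y _ => by ring
  rw [h]
  refine Finset.sum_involution (fun p _ => p.swap) ?_ ?_ ?_ ?_
  · rintro ⟨x, y⟩ -
    have hxy : A y x = -A x y := by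
      have := congrFun (congrFun hA x) y
      simpa [Matrix.transpose_apply] using this
    simp only [Prod.swap_prod_mk]
    rw [hxy]
    ring
  · rintro ⟨x, y⟩ - hne heq
    have hxy : x = y := by
      have := congrArg Prod.fst heq
      simpa using this.symm
    subst hxy
    apply hne
    simp [hd]
  · intro p _
    exact Finset.mem_univ _
  · rintro ⟨x, y⟩ -
    rfl

end Cfsg.Agent.Lib.Helper71.Asch
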