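import Mathlib
import Cfsg.Prelude.Def_GeometricClasses
import Cfsg.Agent.Lib.Helper71.Asch0
import Cfsg.Agent.Lib.Helper71.Asch8
import Cfsg.Agent.Lib.Helper86.ASB8Defs

/-! S5630 B8.PT and B8.PTS (helper71): pure tensors. -/

set_option autoImplicit false

namespace Cfsg.Agent.Lib.Helper71.ASB8PT

open Matrix Cfsg.Geo Cfsg.Agent.Lib.Helper86.ASB8

variable {F : Type*} [Field F]

theorem iota_eq {m k : ℕ} (i : Fin k) (A : Matrix (Fin m) (Fin m) F) :
    iota i A = Cfsg.Agent.Lib.Helper71.Asch.iota i A := rfl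

/-- B8.PT: conjugation of a tensor factor by a pure tensor. -/
theorem pure_conj {m k : ℕ} (gs : Fin k → GL (Fin m) F) :
    ∃ t : GL (Fin k → Fin m) F, IsPureTensor m k t ∧
      ∀ (j : Fin k) (A : Matrix (Fin m) (Fin m) F),
        t.1 * iota j A = iota j ((gs j).1 * A * ((gs j)⁻¹ : GL (Fin m) F).1) * t.1 := by
  have hci : ∀ i, (gs i).1 * ((gs i)⁻¹ : GL (Fin m) F).1 = 1 := fun i => by
    rw [← Units.val_mul, mul_inv_cancel, Units.val_one]
  have hci' : ∀ i, ((gs i)⁻¹ : GL (Fin m) F).1 * (gs i).1 = 1 := fun i => by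
    rw [← Units.val_mul, inv_mul_cancel, Units.val_one]
  refine ⟨⟨Cfsg.Agent.Lib.Helper71.Asch.pt (fun i => (gs i).1),
    Cfsg.Agent.Lib.Helper71.Asch.pt (fun i => ((gs i)⁻¹ : GL (Fin m) F).1), ?_, ?_⟩,
    ⟨gs, fun x y => rfl⟩, ?_⟩
  · rw [Cfsg.Agent.Lib.Helper71.Asch.pt_mul]
    simp only [hci]
    exact Cfsg.Agent.Lib.Helper71.Asch.pt_one
  · rw [Cfsg.Agent.Lib.Helper71.Asch.pt_mul]
    simp only [hci']
    exact Cfsg.Agent.Lib.Helper71.Asch.pt_one
  · intro j A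
    show Cfsg.Agent.Lib.Helper71.Asch.pt (fun i => (gs i).1) * iota j A =
      iota j ((gs j).1 * A * ((gs j)⁻¹ : GL (Fin m) F).1) *
        Cfsg.Agent.Lib.Helper71.Asch.pt (fun i => (gs i).1)
    rw [iota_eq, iota_eq, Cfsg.Agent.Lib.Helper71.Asch.iota_eq_pt,
      Cfsg.Agent.Lib.Helper71.Asch.iota_eq_pt, Cfsg.Agent.Lib.Helper71.Asch.pt_mul,
      Cfsg.Agent.Lib.Helper71.Asch.pt_mul]
    congr 1
    funext i
    by_cases hi : i = j
    · subst hi
      simp only [Function.update_self]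
      rw [mul_assoc, mul_assoc, hci', mul_one]
    · simp only [Function.update_of_ne hi, mul_one, one_mul]

/-- B8.PTS: a non-zero scalar multiple of a pure tensor is a pure tensor. -/
theorem pure_smul {m k : ℕ} (hk : 1 ≤ k) (t : GL (Fin k → Fin m) F) (ht : IsPureTensor m k t)
    (c : Fˣ) : ∃ t' : GL (Fin k → Fin m) F, IsPureTensor m k t' ∧ t'.1 = (c : F) • t.1 := by
  obtain ⟨gs, hgs⟩ := ht
  have hc0 : (c : F) ≠ 0 := c.ne_zero
  have htt : t.1 * (t⁻¹ : GL (Fin k → Fin m) F).1 = 1 := by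
    rw [← Units.val_mul, mul_inv_cancel, Units.val_one]
  have htt' : (t⁻¹ : GL (Fin k → Fin m) F).1 * t.1 = 1 := by
    rw [← Units.val_mul, inv_mul_cancel, Units.val_one]
  let i₀ : Fin k := ⟨0, by omega⟩
  have hci : (gs i₀).1 * ((gs i₀)⁻¹ : GL (Fin m) F).1 = 1 := by
    rw [← Units.val_mul, mul_inv_cancel, Units.val_one]
  have hci' : ((gs i₀)⁻¹ : GL (Fin m) F).1 * (gs i₀).1 = 1 := by
    rw [← Units.val_mul, inv_mul_cancel, Units.val_one]
  let u : GL (Fin m) F := ⟨(c : F) • (gs i₀).1, (c : F)⁻¹ • ((gs i₀)⁻¹ : GL (Fin m) F).1, by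
    rw [Matrix.smul_mul, Matrix.mul_smul, hci, smul_smul, mul_inv_cancel₀ hc0, one_smul], by
    rw [Matrix.smul_mul, Matrix.mul_smul, hci', smul_smul, inv_mul_cancel₀ hc0, one_smul]⟩
  refine ⟨⟨(c : F) • t.1, (c : F)⁻¹ • (t⁻¹ : GL (Fin k → Fin m) F).1, by
    rw [Matrix.smul_mul, Matrix.mul_smul, htt, smul_smul, mul_inv_cancel₀ hc0, one_smul], by
    rw [Matrix.smul_mul, Matrix.mul_smul, htt', smul_smul, inv_mul_cancel₀ hc0, one_smul]⟩,
    ⟨fun i => if i = i₀ then u else gs i, fun x y => ?_⟩, rfl⟩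
  have h7 : (fun i => ((if i = i₀ then u else gs i : GL (Fin m) F)).1) =
      fun i => (if i = i₀ then (c : F) else 1) • (gs i).1 := by
    funext i
    by_cases hi : i = i₀
    · subst hi; simp [u]
    · simp [hi]
  have ht1 : t.1 = Cfsg.Agent.Lib.Helper71.Asch.pt (fun i => (gs i).1) := by
    ext x y
    exact hgs x y
  have h8 : (c : F) • t.1 = Cfsg.Agent.Lib.Helper71.Asch.pt
      (fun i => ((if i = i₀ then u else gs i : GL (Fin m) F)).1) := by
    rw [h7, Cfsg.Agent.Lib.Helper71.Asch.pt_smul, ht1]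
    congr 1
    rw [Finset.prod_ite_eq' Finset.univ i₀ (fun _ => (c : F))]
    simp
  have h9 := congrFun (congrFun h8 x) y
  rw [Cfsg.Agent.Lib.Helper71.Asch.pt_apply] at h9
  exact h9

end Cfsg.Agent.Lib.Helper71.ASB8PT
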