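import Mathlib
import Cfsg.Prelude.Def_GeometricClasses
import Cfsg.Agent.Lib.Helper71.Asch0

/-! S5630, symplectic-type branch B5: standing hypotheses (helper71). -/

set_option autoImplicit false

namespace Cfsg.Agent.Lib.Helper71.Asch

open Matrix Cfsg.Geo

variable {n : ℕ} {F : Type*} [Field F]

/-- Standing hypotheses of the symplectic-type branch. -/
structure SymT (H L : Subgroup (GL (Fin n) F)) : Prop where
  min : IsMinNS H L
  abs : ActsAbsolutelyIrreducibly (matrixSet L)
  comm : ⁅L, L⁆ ≤ scalars (Fin n) F

end Cfsg.Agent.Lib.Helper71.Asch
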