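import Mathlib
import Cfsg.Prelude.Def_GeometricClasses
import Cfsg.Agent.Lib.Helper71.Asch0
import Cfsg.Agent.Lib.Helper71.Asch8
import Cfsg.Agent.Lib.Helper86.ASB8Defs

/-! S5630 B8.WR (helper71): from rectangular base change matrices to the tensor-wreath subgroup. -/

set_option autoImplicit false

namespace Cfsg.Agent.Lib.Helper71.ASB8WR

open Matrix Cfsg.Geo Cfsg.Agent.Lib.Helper86.ASB8

variable {F : Type*} [Field F]

/-- B8.WR: from rectangular base change matrices to the tensor-wreath subgroup. -/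
theorem wreath_mem {n m k : ℕ} (P : Matrix (Fin n) (Fin k → Fin m) F)
    (Q : Matrix (Fin k → Fin m) (Fin n) F) (hPQ : P * Q = 1) (hQP : Q * P = 1) :
    ∃ (e : Fin n ≃ (Fin k → Fin m)) (P' : GL (Fin n) F),
      ∀ (h : GL (Fin n) F) (g : GL (Fin k → Fin m) F), g ∈ tensorWreathStandard m k F →
        h.1 = P * g.1 * Q → h ∈ tensorWreathSubgroup m k e P' := by
  have hcard : Fintype.card (Fin n) = Fintype.card (Fin k → Fin m) := by
    have le : ((Fin k → Fin m) → F) ≃ₗ[F] (Fin n → F) :=
      LinearEquiv.ofLinearMap (Matrix.toLin' P) (Matrix.toLin' Q)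
        (by rw [← Matrix.toLin'_mul, hPQ, Matrix.toLin'_one])
        (by rw [← Matrix.toLin'_mul, hQP, Matrix.toLin'_one])
    have h1 := le.finrank_eq
    rw [Module.finrank_fintype_fun_eq_card, Module.finrank_fintype_fun_eq_card] at h1
    exact h1.symm
  let e : Fin n ≃ (Fin k → Fin m) := Fintype.equivOfCardEq hcard
  have h1 : P.submatrix id e * Q.submatrix e id = 1 := by
    rw [Matrix.submatrix_mul_equiv, hPQ, Matrix.submatrix_one _ Function.injective_id]
  have h2 : Q.submatrix e id * P.submatrix id e = 1 := by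
    rw [← Matrix.submatrix_mul _ _ _ _ _ Function.bijective_id, hQP, Matrix.submatrix_one_equiv]
  refine ⟨e, ⟨P.submatrix id e, Q.submatrix e id, h1, h2⟩, ?_⟩
  intro h g hg hh
  rw [Cfsg.Agent.Lib.Helper71.Asch.mem_tensorWreathSubgroup_iff]
  refine ⟨g, hg, ?_⟩
  rw [hh]
  show P * g.1 * Q = P.submatrix id e * Matrix.reindex e.symm e.symm g.1 * Q.submatrix e id
  rw [Matrix.reindex_apply, Equiv.symm_symm, Matrix.submatrix_mul_equiv,
    Matrix.submatrix_mul_equiv, Matrix.submatrix_id_id]

end Cfsg.Agent.Lib.Helper71.ASB8WR
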