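import Mathlib
import Cfsg.Prelude.Def_GeometricClasses
import Cfsg.Agent.Lib.Helper71.Asch0
import Cfsg.Agent.Lib.Helper71.Asch5
import Cfsg.Agent.Lib.Helper46.ASB1
import Cfsg.Agent.Lib.Helper87.ASB2
import Cfsg.Agent.Lib.Helper57.ASCOREA
import Cfsg.Agent.Lib.Helper82.ASCOREB
import Cfsg.Agent.Lib.Helper21.ASCOREC
import Cfsg.Agent.Lib.Helper85.AST4
import Cfsg.Agent.Lib.Helper46.ASB3s
import Cfsg.Agent.Lib.Helper46.ASB4
import Cfsg.Agent.Lib.Helper61.ASB6
import Cfsg.Agent.Lib.Helper67.ASNL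
import Cfsg.Agent.Lib.Helper28.ASUFQ
import Cfsg.Agent.Lib.Helper19.ASUFS
import Cfsg.Agent.Lib.Helper89.ASUFU
import Cfsg.Agent.Lib.Helper46.ASB7core
import Cfsg.Agent.Lib.Helper82.ASSA
import Cfsg.Agent.Lib.Helper28.ASSB
import Cfsg.Agent.Lib.Helper66.ASSC
import Cfsg.Agent.Lib.Helper65.ASSE
import Cfsg.Agent.Lib.Helper12.ASSF
import Cfsg.Agent.Lib.Helper82.ASSG
import Cfsg.Agent.Lib.Helper97.ASSK
import Cfsg.Agent.Lib.Helper21.ASSL1
import Cfsg.Agent.Lib.Helper97.ASSL2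
import Cfsg.Agent.Lib.Helper97.ASSL3
import Cfsg.Agent.Lib.Helper75.ASSM
import Cfsg.Agent.Lib.Helper65.ASSN
import Cfsg.Agent.Lib.Helper65.ASSO
import Cfsg.Agent.Lib.Helper86.ASB8Final

/-! S5630: Aschbacher's theorem for subgroups of `GL_n(F)`, `n ≥ 3` — final assembly (helper71).
The pieces were proved by the team (job board project ASCH); this file only assembles them. -/

set_option autoImplicit false

namespace Cfsg.Agent.Lib.Helper71.AschMain

open Matrix Cfsg.Geo Cfsg.Agent.Lib.Helper71.Asch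
open scoped Kronecker

open Cfsg.Agent.Lib.Helper46.ASB1 (B1)
open Cfsg.Agent.Lib.Helper87.ASB2 (B2)
open Cfsg.Agent.Lib.Helper57.ASCOREA (coreA)
open Cfsg.Agent.Lib.Helper82.ASCOREB (coreB)
open Cfsg.Agent.Lib.Helper21.ASCOREC (coreC)
open Cfsg.Agent.Lib.Helper85.AST4 (T4)
open Cfsg.Agent.Lib.Helper46.ASB3s (B3s B3a)
open Cfsg.Agent.Lib.Helper46.ASB4 (B4)
open Cfsg.Agent.Lib.Helper61.ASB6 (B6)
open Cfsg.Agent.Lib.Helper67.ASNL (NL)
open Cfsg.Agent.Lib.Helper28.ASUFQ (UFQ)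
open Cfsg.Agent.Lib.Helper19.ASUFS (UFS)
open Cfsg.Agent.Lib.Helper89.ASUFU (UFU)
open Cfsg.Agent.Lib.Helper46.ASB7core (B7core)
open Cfsg.Agent.Lib.Helper82.ASSA (SA)
open Cfsg.Agent.Lib.Helper28.ASSB (SB)
open Cfsg.Agent.Lib.Helper66.ASSC (SC)
open Cfsg.Agent.Lib.Helper65.ASSE (SE)
open Cfsg.Agent.Lib.Helper12.ASSF (SF SR)
open Cfsg.Agent.Lib.Helper82.ASSG (SG SH)
open Cfsg.Agent.Lib.Helper97.ASSK (SK)
open Cfsg.Agent.Lib.Helper21.ASSL1 (SL1)
open Cfsg.Agent.Lib.Helper97.ASSL2 (SL2)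
open Cfsg.Agent.Lib.Helper97.ASSL3 (SL3)
open Cfsg.Agent.Lib.Helper75.ASSM (SM E4)
open Cfsg.Agent.Lib.Helper65.ASSN (SN)
open Cfsg.Agent.Lib.Helper65.ASSO (SO)
open Cfsg.Agent.Lib.Helper86.ASB8Final (B8)

variable {n : ℕ} {F : Type*} [Field F] [Fintype F]

/-- B3 (assembly, helper71): Clifford trichotomy for a normal subgroup. -/
theorem B3 (hn : 3 ≤ n) (H L : Subgroup (GL (Fin n) F))
    (hH : ActsAbsolutelyIrreducibly (matrixSet H)) (hLH : L ≤ H) (hN : Nrm H L) :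
    InCls H ∨ L ≤ scalars (Fin n) F ∨ ActsAbsolutelyIrreducibly (matrixSet L) := by
  rcases coreA (by omega) H L hH.1 hLH hN with ⟨t, m, D, hD, hHD, -, -⟩ | ⟨d, k, e, P, R, hR, h1, h2⟩
  · left
    refine ⟨decompositionStabilizer D, ?_, hHD⟩
    right; right; right; left
    exact ⟨t, m, D, hD, rfl⟩
  · by_cases hRa : ActsAbsolutelyIrreducibly (matrixSet R)
    · have hHt : H ≤ tensorProductSubgroup d k e P := fun h hh =>
        (coreC e P R L hRa h1 h2).2 h (fun x hx => hN h hh x hx)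
      have hcard : n = d * k := by
        have := Fintype.card_congr e
        simpa using this
      by_cases hd : d = 1
      · subst hd
        right; left
        exact B3s e P R L h1
      · by_cases hk : k = 1
        · subst hk
          right; right
          exact B3a e P R L hRa h2
        · left
          have hd0 : d ≠ 0 := by rintro rfl; omega
          have hk0 : k ≠ 0 := by rintro rfl; omega
          exact T4 hn (by omega) (by omega) e P H hHt
    · left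
      obtain ⟨r, K, hr, hK, hHK, -⟩ := coreB (by omega) H L hLH hN e P R hR h1 h2 hRa
      refine ⟨subalgebraNormalizer K, ?_, hHK⟩
      right; right; right; right; left
      exact ⟨r, K, hr, hK, rfl⟩

/-- B7 (assembly, helper71): the almost simple branch. -/
theorem B7 (hn : 3 ≤ n) (H L : Subgroup (GL (Fin n) F)) (hLH : L ≤ H) (hN : Nrm H L)
    (hLa : ActsAbsolutelyIrreducibly (matrixSet L)) (hc : ⁅L, L⁆ = L)
    (hs : IsSimpleGroup (L ⧸ (scalars (Fin n) F).subgroupOf L))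
    (hna : ¬ IsMulCommutative (L ⧸ (scalars (Fin n) F).subgroupOf L)) :
    InCls H ∨ InLinearResidualClass H := by
  by_cases hsub : ∃ F₀ : Subfield F, F₀ ≠ ⊤ ∧ RealisableOver F₀ (matrixSet L)
  · obtain ⟨F₀, hF₀, hreal⟩ := hsub
    exact Or.inl (NL H L hN hLa F₀ hF₀ hreal)
  · by_cases hQ : ∃ Q : (Fin n → F) → F, IsNondegenerateQuadraticForm Q ∧ FixesQuadForm (matrixSet L) Q
    · obtain ⟨Q, hQ1, hQ2⟩ := hQ
      exact Or.inl (UFQ hn H L hN hLa Q hQ1 hQ2)
    · by_cases hS : ∃ f : (Fin n → F) → (Fin n → F) → F, IsSymplecticForm f ∧ FixesForm (matrixSet L) f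
      · obtain ⟨f, hf1, hf2⟩ := hS
        exact Or.inl (UFS hn H L hN hLa f hf1 hf2)
      · by_cases hU : ∃ (σ : F ≃+* F) (f : (Fin n → F) → (Fin n → F) → F),
            IsUnitaryForm σ f ∧ FixesForm (matrixSet L) f
        · obtain ⟨σ, f, hf1, hf2⟩ := hU
          exact Or.inl (UFU hn H L hN hLa σ f hf1 hf2)
        · right
          refine ⟨L, B7core H L hLH hN hLa hc hs hna ?_, hQ, hS, hU⟩
          intro F₀ hF₀ hreal
          exact hsub ⟨F₀, hF₀, hreal⟩

/-- SLmain (assembly, helper71) -/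
theorem SLmain (hn : 1 ≤ n) (H L : Subgroup (GL (Fin n) F)) (h : SymT H L) (r : ℕ) (hr : r.Prime)
    (hx : ∀ x ∈ L, x ^ r ∈ scalars (Fin n) F) (z : ℕ)
    (hexp : ∀ x ∈ L, x ^ z = 1) (hz0 : (z : F) ≠ 0) (hroot : ∃ ζ : F, IsPrimitiveRoot ζ z) :
    (∀ F₁ : Subfield F, (∀ c : F, c ^ z = 1 → c ∈ F₁) → RealisableOver F₁ (matrixSet L)) ∧
    Nat.card ↥L = Nat.card ↥(L ⊓ scalars (Fin n) F) * n ^ 2 := by
  obtain ⟨A, v₀, hAL, hAc, hAm, hv, hev⟩ := SL1 hn H L h z hexp hz0 hroot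
  obtain ⟨h1, h2⟩ := SL2 hn H L h z hexp A v₀ hAL hAc hAm hv hev
  have h3 := SL3 hn H L h r hr hx A hAL hAc hAm
  refine ⟨h2, ?_⟩
  have hApos : 0 < Nat.card ↥A := Nat.card_pos
  rw [← h1] at h3 ⊢
  have h4 : Nat.card ↥A * (n * Nat.card ↥(L ⊓ scalars (Fin n) F)) = Nat.card ↥A * Nat.card ↥A := by
    rw [← sq, ← h3]; ring
  have h5 := Nat.eq_of_mul_eq_mul_left hApos h4
  rw [← h5]; ring

/-- B5 (assembly, helper71): the symplectic-type branch. -/
theorem B5 (hn : 3 ≤ n) (H L : Subgroup (GL (Fin n) F))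
    (hL : IsMinNS H L) (hLa : ActsAbsolutelyIrreducibly (matrixSet L))
    (hc : ⁅L, L⁆ ≤ scalars (Fin n) F) : InCls H := by
  have h : SymT H L := ⟨hL, hLa, hc⟩
  obtain ⟨r, hr, hx⟩ := SA H L h
  have hr0 := SB (by omega) H L h r hr hx
  have hp := SC H L h r hr hx
  have hexp := SE (by omega) H L h r hr hx hp
  have htr := SG H L h
  have hn0 := SH (by omega) L hLa r hr hr0 hp
  -- the common part: centre of order z = exponent ≥ 3
  have common : ∀ z : ℕ, Nat.card ↥(L ⊓ scalars (Fin n) F) = z → r * Nat.gcd 2 r = z →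
      ((Odd r ∧ z = r) ∨ (r = 2 ∧ z = 4)) → InCls H := by
    intro z hz hzexp hzcase
    have hzpos : 0 < z := by
      rcases hzcase with ⟨-, rfl⟩ | ⟨-, rfl⟩
      · exact hr.pos
      · norm_num
    have hz0 : (z : F) ≠ 0 := by
      rcases hzcase with ⟨-, rfl⟩ | ⟨rfl, rfl⟩
      · exact hr0
      · have h2 : ((2 : ℕ) : F) ≠ 0 := hr0
        have h4 : ((4 : ℕ) : F) = ((2 : ℕ) : F) * ((2 : ℕ) : F) := by norm_num
        rw [h4]
        exact mul_ne_zero h2 h2
    have hroot : ∃ ζ : F, IsPrimitiveRoot ζ z := by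
      have := SR (by omega) L
      rw [hz] at this
      exact this
    have hexpz : ∀ x ∈ L, x ^ z = 1 := by
      intro x hxL
      rw [← hzexp]
      exact hexp x hxL
    obtain ⟨hreal, hcard⟩ := SLmain (by omega) H L h r hr hx z hexpz hz0 hroot
    rcases SM z hroot hzpos with ⟨F₁, hF₁, hF₁z⟩ | ⟨p, e, hmin⟩
    · exact NL H L hL.nrm hLa F₁ hF₁ (hreal F₁ hF₁z)
    · rcases hzcase with ⟨hodd, hzr⟩ | ⟨hr2, hz4⟩
      · rcases Nat.even_or_odd e with he | he
        · exact SO hn H L h hn0 htr r hr hr0 p e (by rw [hz]; exact hmin) he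
            (Or.inl ⟨hodd, by rw [hz]; exact hzr⟩)
        · exact SN hn H L h r hr hr0 hexp hcard p e (by rw [hz]; exact hmin)
            (Or.inl ⟨hodd, he, by rw [hz]; exact hzr⟩)
      · have he12 : e = 1 ∨ e = 2 := by
          rw [hz4] at hmin
          exact E4 p e hmin
        rcases he12 with he | he
        · exact SN hn H L h r hr hr0 hexp hcard p e (by rw [hz]; exact hmin)
            (Or.inr ⟨hr2, he, by rw [hz]; exact hz4⟩)
        · exact SO hn H L h hn0 htr r hr hr0 p e (by rw [hz]; exact hmin) (by rw [he]; norm_num)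
            (Or.inr ⟨hr2, by rw [hz]; exact hz4⟩)
  rcases SF (by omega) H L h r hr hexp with ⟨hodd, hz⟩ | ⟨hr2, hz | hz⟩
  · refine common r hz ?_ (Or.inl ⟨hodd, rfl⟩)
    have : Nat.gcd 2 r = 1 := Nat.coprime_two_left.mpr hodd
    rw [this, mul_one]
  · subst hr2
    have h2 : (2 : F) ≠ 0 := by exact_mod_cast hr0
    exact SK hn H L h h2 hn0 htr hz
  · subst hr2
    exact common 4 hz (by norm_num) (Or.inr ⟨rfl, rfl⟩)

/-- MAIN (assembly, helper71): Aschbacher's theorem for subgroups of `GL_n(F)`, `n ≥ 3`. -/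
theorem main (hn : 3 ≤ n) (H : Subgroup (GL (Fin n) F)) : InCls H ∨ InLinearResidualClass H := by
  by_cases h1 : ActsIrreducibly (matrixSet H)
  · by_cases h2 : ActsAbsolutelyIrreducibly (matrixSet H)
    · obtain ⟨L, hL⟩ := B4 (by omega) H h2
      rcases B3 hn H L h2 hL.le hL.nrm with h | h | hLa
      · exact Or.inl h
      · exact absurd h hL.ns
      · rcases hL.min ⁅L, L⁆ (commutator_le_self L) hL.nrm.commutator with hc | hc
        · exact Or.inl (B5 hn H L hL hLa hc)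
        · rcases B6 H L hL hc with ⟨hs, hna⟩ | ⟨k, Ps, hk, hns, hcomm, hsup, hperm, htrans⟩
          · exact B7 hn H L hL.le hL.nrm hLa hc hs hna
          · exact Or.inl (B8 hn H L hLa k Ps hk hns hcomm hsup hperm htrans)
    · exact Or.inl (B2 H h1 h2)
  · exact Or.inl (B1 H h1)

end Cfsg.Agent.Lib.Helper71.AschMain
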