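import Mathlib
import Cfsg.Prelude.Def_GeometricClasses
import Cfsg.Prelude.Def_LieClassical
import Cfsg.Agent.Lib.Helper93.SUPair
import Cfsg.Agent.Lib.Helper18.UnitaryFr
import Cfsg.Agent.Lib.Helper18.UnitaryGenB

/-! Project SUP (helper71): foundation for the unitary pieces: adjoints for the hermitian form,
unitary transvections as elements of `GU ⊓ SL ≤ GL`, isotropic vectors. -/

set_option autoImplicit false

namespace Cfsg.Agent.Lib.Helper71.SUP

open Matrix Cfsg.Geo Cfsg.Agent.Lib.Helper7 Cfsg.Agent.Lib.Helper18 Cfsg.Agent.Lib.Helper93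

variable {n : ℕ} {F : Type*} [Field F] [Fintype F] {q : ℕ}

/-- The adjoint of a matrix for the hermitian form: conjugate transpose. -/
def adj (q : ℕ) (X : Matrix (Fin n) (Fin n) F) : Matrix (Fin n) (Fin n) F :=
  (X.map (· ^ q))ᵀ

theorem adj_apply (X : Matrix (Fin n) (Fin n) F) (i j : Fin n) : adj q X i j = X j i ^ q := rfl

/-- `f (X u) v = f u (adj X v)`. -/
theorem hf_adj (hF : Fintype.card F = q ^ 2) (X : Matrix (Fin n) (Fin n) F) (u v : Fin n → F) :
    Cfsg.hermForm n F q (X *ᵥ u) v = Cfsg.hermForm n F q u (adj q X *ᵥ v) := by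
  unfold Cfsg.hermForm
  simp only [Matrix.mulVec, dotProduct, adj_apply]
  have h1 : ∀ j : Fin n, (∑ i, X i j ^ q * v i) ^ q = ∑ i, X i j * v i ^ q := by
    intro j
    rw [herm_sum_pow hF]
    refine Finset.sum_congr rfl fun i _ => ?_
    rw [mul_pow, herm_pow_pow hF]
  simp only [h1, Finset.sum_mul, Finset.mul_sum]
  rw [Finset.sum_comm]
  refine Finset.sum_congr rfl fun j _ => Finset.sum_congr rfl fun i _ => ?_
  ring

/-- Two matrices inducing the same form `f u (Y v)` are equal. -/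
theorem eq_of_hf_right (hF : Fintype.card F = q ^ 2) (Y Z : Matrix (Fin n) (Fin n) F)
    (h : ∀ u v, Cfsg.hermForm n F q u (Y *ᵥ v) = Cfsg.hermForm n F q u (Z *ᵥ v)) : Y = Z := by
  apply Matrix.mulVec_injective
  funext v
  have h1 : ∀ x, Cfsg.hermForm n F q x (Y *ᵥ v - Z *ᵥ v) = 0 := by
    intro x
    rw [hf_sub_right hF, h x v, sub_self]
  have h2 := herm_nondeg hF _ h1
  exact sub_eq_zero.mp h2

/-- Two matrices inducing the same form `f (X u) v` are equal. -/
theorem eq_of_hf_left (hF : Fintype.card F = q ^ 2) (Y Z : Matrix (Fin n) (Fin n) F)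
    (h : ∀ u v, Cfsg.hermForm n F q (Y *ᵥ u) v = Cfsg.hermForm n F q (Z *ᵥ u) v) : Y = Z := by
  apply Matrix.mulVec_injective
  funext u
  have h1 : ∀ x, Cfsg.hermForm n F q x (Y *ᵥ u - Z *ᵥ u) = 0 := by
    intro x
    apply hf_eq_zero_symm hF
    rw [hf_sub_left, h u x, sub_self]
  have h2 := herm_nondeg hF _ h1
  exact sub_eq_zero.mp h2

/-- The adjoint is characterised by `f (X u) v = f u (Y v)`. -/
theorem adj_unique (hF : Fintype.card F = q ^ 2) (X Y : Matrix (Fin n) (Fin n) F)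
    (h : ∀ u v, Cfsg.hermForm n F q (X *ᵥ u) v = Cfsg.hermForm n F q u (Y *ᵥ v)) :
    Y = adj q X := by
  apply eq_of_hf_right hF
  intro u v
  rw [← h, hf_adj hF]

theorem adj_mul (hF : Fintype.card F = q ^ 2) (X Y : Matrix (Fin n) (Fin n) F) :
    adj q (X * Y) = adj q Y * adj q X := by
  symm
  apply adj_unique hF
  intro u v
  rw [← Matrix.mulVec_mulVec, hf_adj hF, hf_adj hF, Matrix.mulVec_mulVec]

theorem adj_adj (hF : Fintype.card F = q ^ 2) (X : Matrix (Fin n) (Fin n) F) :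
    adj q (adj q X) = X := by
  ext i j
  rw [adj_apply, adj_apply, herm_pow_pow hF]

theorem adj_add (hF : Fintype.card F = q ^ 2) (X Y : Matrix (Fin n) (Fin n) F) :
    adj q (X + Y) = adj q X + adj q Y := by
  ext i j
  rw [Matrix.add_apply, adj_apply, adj_apply, adj_apply, Matrix.add_apply, herm_add_pow hF]

theorem adj_sub (hF : Fintype.card F = q ^ 2) (X Y : Matrix (Fin n) (Fin n) F) :
    adj q (X - Y) = adj q X - adj q Y := by
  ext i j
  rw [Matrix.sub_apply, adj_apply, adj_apply, adj_apply, Matrix.sub_apply, herm_sub_pow hF]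

theorem adj_smul (c : F) (X : Matrix (Fin n) (Fin n) F) : adj q (c • X) = c ^ q • adj q X := by
  ext i j
  rw [Matrix.smul_apply, adj_apply, adj_apply, Matrix.smul_apply, smul_eq_mul, smul_eq_mul,
    mul_pow]

theorem adj_one (hF : Fintype.card F = q ^ 2) : adj q (1 : Matrix (Fin n) (Fin n) F) = 1 := by
  symm
  apply adj_unique hF
  intro u v
  rw [Matrix.one_mulVec, Matrix.one_mulVec]

theorem adj_zero (hF : Fintype.card F = q ^ 2) : adj q (0 : Matrix (Fin n) (Fin n) F) = 0 := by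
  ext i j
  rw [adj_apply, Matrix.zero_apply, Matrix.zero_apply, zero_pow (herm_q_ne_zero hF)]

/-- For `g ∈ GU` the adjoint is the inverse. -/
theorem adj_eq_inv (hF : Fintype.card F = q ^ 2) {g : GL (Fin n) F} (hg : g ∈ Cfsg.GU n F q) :
    adj q g.1 = (g⁻¹ : GL (Fin n) F).1 := by
  symm
  apply adj_unique hF
  intro u v
  have h1 : Cfsg.hermForm n F q (g.1 *ᵥ u) (g.1 *ᵥ ((g⁻¹ : GL (Fin n) F).1 *ᵥ v)) =
      Cfsg.hermForm n F q u ((g⁻¹ : GL (Fin n) F).1 *ᵥ v) := hg u _
  rw [Matrix.mulVec_mulVec, ← Units.val_mul, mul_inv_cancel, Units.val_one,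
    Matrix.one_mulVec] at h1
  exact h1

/-- `g ∈ GU` iff `adj g * g = 1`. -/
theorem mem_GU_iff_adj (hF : Fintype.card F = q ^ 2) (g : GL (Fin n) F) :
    g ∈ Cfsg.GU n F q ↔ adj q g.1 * g.1 = 1 := by
  constructor
  · intro hg
    rw [adj_eq_inv hF hg, ← Units.val_mul, inv_mul_cancel, Units.val_one]
  · intro h u v
    show Cfsg.hermForm n F q (g.1 *ᵥ u) (g.1 *ᵥ v) = Cfsg.hermForm n F q u v
    rw [hf_adj hF, Matrix.mulVec_mulVec, h, Matrix.one_mulVec]

/-- If `X` commutes with `g ∈ GU` then so does `adj X`. -/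
theorem adj_comm (hF : Fintype.card F = q ^ 2) {g : GL (Fin n) F} (hg : g ∈ Cfsg.GU n F q)
    {X : Matrix (Fin n) (Fin n) F} (h : X * g.1 = g.1 * X) : adj q X * g.1 = g.1 * adj q X := by
  have h1 : adj q g.1 * adj q X = adj q X * adj q g.1 := by
    rw [← adj_mul hF, ← adj_mul hF, h]
  rw [adj_eq_inv hF hg] at h1
  calc adj q X * g.1 = g.1 * ((g⁻¹ : GL (Fin n) F).1 * adj q X) * g.1 := by
        rw [← Matrix.mul_assoc, ← Units.val_mul, mul_inv_cancel, Units.val_one, Matrix.one_mul]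
    _ = g.1 * (adj q X * (g⁻¹ : GL (Fin n) F).1) * g.1 := by rw [h1]
    _ = g.1 * adj q X := by
        rw [Matrix.mul_assoc, Matrix.mul_assoc, ← Units.val_mul, inv_mul_cancel, Units.val_one,
          Matrix.mul_one]

/-- Membership in `S = GU ⊓ SL`. -/
theorem mem_S_iff (g : GL (Fin n) F) :
    g ∈ Cfsg.GU n F q ⊓ specialLinear (Fin n) F ↔
      (∀ u v, Cfsg.hermForm n F q (g.1 *ᵥ u) (g.1 *ᵥ v) = Cfsg.hermForm n F q u v) ∧
        g.1.det = 1 := by
  rw [Subgroup.mem_inf, mem_sl_iff]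
  exact Iff.rfl

/-- A non-zero `μ` with `μ + μ^q = 0`. -/
theorem exists_mu (hF : Fintype.card F = q ^ 2) : ∃ μ : F, μ ≠ 0 ∧ μ + μ ^ q = 0 :=
  exists_trace_zero hF

/-- The unitary transvection `T_{v,c}` (`v` isotropic, `c + c^q = 0`) as an element of `S`,
with its inverse `T_{v,-c}`. -/
theorem exists_tv (hF : Fintype.card F = q ^ 2) (v : Fin n → F) (c : F)
    (hvv : Cfsg.hermForm n F q v v = 0) (hc : c + c ^ q = 0) :
    ∃ t : GL (Fin n) F, t ∈ Cfsg.GU n F q ⊓ specialLinear (Fin n) F ∧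
      t.1 = Cfsg.unitaryTransvection n q v c ∧
      (t⁻¹ : GL (Fin n) F).1 = Cfsg.unitaryTransvection n q v (-c) ∧
      (∀ x, t.1 *ᵥ x = x + (c * Cfsg.hermForm n F q x v) • v) ∧
      (∀ x, (t⁻¹ : GL (Fin n) F).1 *ᵥ x = x - (c * Cfsg.hermForm n F q x v) • v) := by
  obtain ⟨t, ht, htS⟩ := exists_gl_of_pres (q := q)
    (transvection_preserves hF n v c hvv hc) (transvection_det n v c hvv)
  have hinv : (t⁻¹ : GL (Fin n) F).1 = Cfsg.unitaryTransvection n q v (-c) := by
    have h1 : t.1 * Cfsg.unitaryTransvection n q v (-c) = 1 := by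
      rw [ht]
      apply Matrix.mulVec_injective
      funext x
      rw [← Matrix.mulVec_mulVec, unitaryTransvection_mulVec, unitaryTransvection_mulVec,
        Matrix.one_mulVec, hf_add_left, hf_smul_left, hvv]
      module
    calc (t⁻¹ : GL (Fin n) F).1 = (t⁻¹ : GL (Fin n) F).1 *
          (t.1 * Cfsg.unitaryTransvection n q v (-c)) := by rw [h1, Matrix.mul_one]
      _ = Cfsg.unitaryTransvection n q v (-c) := by
          rw [← Matrix.mul_assoc, ← Units.val_mul, inv_mul_cancel, Units.val_one, Matrix.one_mul]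
  refine ⟨t, htS, ht, hinv, fun x => ?_, fun x => ?_⟩
  · rw [ht, unitaryTransvection_mulVec]
  · rw [hinv, unitaryTransvection_mulVec]
    module

/-- Every vector is a sum of two isotropic vectors (`n ≥ 2`). -/
theorem exists_iso_pair (hF : Fintype.card F = q ^ 2) (hn : 2 ≤ n) (x : Fin n → F) :
    ∃ a b : Fin n → F, Cfsg.hermForm n F q a a = 0 ∧ Cfsg.hermForm n F q b b = 0 ∧
      x = a + b := by
  by_cases hxx : Cfsg.hermForm n F q x x = 0
  · exact ⟨x, 0, hxx, hf_zero_left n 0, (add_zero x).symm⟩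
  · obtain ⟨s, hss, hxs⟩ := exists_iso_one hF hn x hxx
    obtain ⟨l, hl⟩ := exists_trace_one hF
    have hsx : Cfsg.hermForm n F q s x = 1 := by rw [hf_conj hF n x s, hxs, one_pow]
    have hα : Cfsg.hermForm n F q x x ^ q = Cfsg.hermForm n F q x x := hf_self_pow hF n x
    refine ⟨x - (Cfsg.hermForm n F q x x * l) • s, (Cfsg.hermForm n F q x x * l) • s, ?_, ?_, ?_⟩
    · rw [hf_sub_left, hf_sub_right hF, hf_sub_right hF, hf_smul_left, hf_smul_left,
        hf_smul_right, hf_smul_right, hss, hxs, hsx, mul_pow, hα]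
      linear_combination (-Cfsg.hermForm n F q x x) * hl
    · rw [hf_smul_left, hf_smul_right, hss, mul_zero, mul_zero]
    · abel

/-- A matrix for which every non-zero isotropic vector is an eigenvector is a scalar (`n ≥ 2`). -/
theorem scalar_of_iso_eigen (hF : Fintype.card F = q ^ 2) (hn : 2 ≤ n)
    (X : Matrix (Fin n) (Fin n) F)
    (h : ∀ v : Fin n → F, v ≠ 0 → Cfsg.hermForm n F q v v = 0 → ∃ c : F, X *ᵥ v = c • v) :
    ∃ c : F, X = c • (1 : Matrix (Fin n) (Fin n) F) := by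
  classical
  obtain ⟨μ, hμ0, hμ⟩ := exists_mu hF
  -- a non-zero isotropic vector
  obtain ⟨ω, hω0, hω⟩ := exists_omega hF
  have h01 : (⟨0, by omega⟩ : Fin n) ≠ ⟨1, by omega⟩ := by
    intro h; simpa using congrArg Fin.val h
  set v₁ : Fin n → F := pv ω ⟨0, by omega⟩ ⟨1, by omega⟩ with hv₁
  have hv₁0 : v₁ ≠ 0 := pv_ne_zero ω h01
  have hv₁i : Cfsg.hermForm n F q v₁ v₁ = 0 := pv_iso ω hω h01
  obtain ⟨lam, hlam⟩ := h v₁ hv₁0 hv₁i
  -- every isotropic vector has eigenvalue `lam`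
  have key : ∀ v : Fin n → F, Cfsg.hermForm n F q v v = 0 → X *ᵥ v = lam • v := by
    intro v hvi
    by_cases hv0 : v = 0
    · rw [hv0, Matrix.mulVec_zero, smul_zero]
    obtain ⟨c, hc⟩ := h v hv0 hvi
    by_cases hdep : ∃ a : F, v = a • v₁
    · obtain ⟨a, rfl⟩ := hdep
      rw [Matrix.mulVec_smul, hlam, smul_comm]
    · -- `v₁ + d • v` isotropic for some `d ≠ 0`
      have hex : ∃ d : F, d ≠ 0 ∧
          Cfsg.hermForm n F q (v₁ + d • v) (v₁ + d • v) = 0 := by
        by_cases h0 : Cfsg.hermForm n F q v v₁ = 0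
        · refine ⟨1, one_ne_zero, ?_⟩
          have h0' := hf_eq_zero_symm hF n _ _ h0
          rw [one_smul, hf_add_left, hf_add_right hF, hf_add_right hF, hv₁i, hvi, h0, h0']
          ring
        · refine ⟨μ / Cfsg.hermForm n F q v v₁, div_ne_zero hμ0 h0, ?_⟩
          have h1 : Cfsg.hermForm n F q v₁ v = Cfsg.hermForm n F q v v₁ ^ q := hf_conj hF n v v₁
          have e1 : (μ / Cfsg.hermForm n F q v v₁) ^ q * Cfsg.hermForm n F q v v₁ ^ q = μ ^ q := by
            rw [div_pow, div_mul_cancel₀ _ (pow_ne_zero _ h0)]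
          have e2 : μ / Cfsg.hermForm n F q v v₁ * Cfsg.hermForm n F q v v₁ = μ :=
            div_mul_cancel₀ _ h0
          rw [hf_add_left, hf_add_right hF, hf_add_right hF, hf_smul_left, hf_smul_left,
            hf_smul_right, hf_smul_right, hv₁i, hvi, h1]
          linear_combination e1 + e2 + hμ
      obtain ⟨d, hd0, hdi⟩ := hex
      have hne : v₁ + d • v ≠ 0 := by
        intro h0
        apply hdep
        refine ⟨-d⁻¹, ?_⟩
        have : d • v = -v₁ := eq_neg_of_add_eq_zero_right h0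
        calc v = d⁻¹ • (d • v) := by rw [smul_smul, inv_mul_cancel₀ hd0, one_smul]
          _ = -d⁻¹ • v₁ := by rw [this]; module
      obtain ⟨e, he⟩ := h _ hne hdi
      rw [Matrix.mulVec_add, Matrix.mulVec_smul, hlam, hc] at he
      -- (lam - e) v₁ + d (c - e) v = 0
      have he' : (lam - e) • v₁ + (d * (c - e)) • v = 0 := by
        have : lam • v₁ + d • c • v - e • (v₁ + d • v) = 0 := sub_eq_zero.mpr he
        rw [← this]; module
      have hce : c = e := by
        by_contra hne'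
        apply hdep
        refine ⟨-(lam - e) / (d * (c - e)), ?_⟩
        have hden : d * (c - e) ≠ 0 := mul_ne_zero hd0 (sub_ne_zero.mpr hne')
        have h2 : (d * (c - e)) • v = -((lam - e) • v₁) := eq_neg_of_add_eq_zero_right he'
        calc v = (d * (c - e))⁻¹ • ((d * (c - e)) • v) := by
              rw [smul_smul, inv_mul_cancel₀ hden, one_smul]
          _ = (-(lam - e) / (d * (c - e))) • v₁ := by rw [h2]; module
      have hle : lam = e := by
        rw [hce, sub_self, mul_zero, zero_smul, add_zero] at he'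
        have := (smul_eq_zero.mp he').resolve_right hv₁0
        exact sub_eq_zero.mp this
      rw [hc, hce, ← hle]
  refine ⟨lam, ?_⟩
  apply Matrix.mulVec_injective
  funext x
  obtain ⟨a, b, ha, hb, rfl⟩ := exists_iso_pair hF hn x
  rw [Matrix.mulVec_add, key a ha, key b hb, Matrix.smul_mulVec, Matrix.one_mulVec, smul_add]

end Cfsg.Agent.Lib.Helper71.SUP
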