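import Mathlib
import Cfsg.Prelude.Def_GeometricClasses
import Cfsg.Agent.Lib.Helper97.SpOver

/-!
# Extension-field subgroups of symplectic groups: abstract setting (helper71, for S5664)

`F` is a field, `V = ι → F` carries a symplectic form `f`.  `L` is a field extension of `F` acting
on `V` through an algebra map `φ : L →ₐ[F] Matrix ι ι F`, and `B : V → V → L` is an `L`-valued
alternating `L`-bilinear form with `f = β ∘ B` for a non-zero `F`-linear functional `β` on `L`.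
This file sets up the `L`-transvections `T u a : x ↦ x + a B(x,u) u`, the group `NG` of `L`-linear
isometries, `L`-lines, and images of subspaces under invertible matrices.
-/

set_option autoImplicit false

namespace Cfsg.Agent.Lib.Helper71.SpK

open Matrix Cfsg.Agent.Lib.Helper97

variable {ι : Type} [Fintype ι] [DecidableEq ι] {F : Type*} [Field F]

/-! ### General facts about invertible matrices -/

lemma gl_inv_mulVec (g : GL ι F) (x : ι → F) :
    ((g⁻¹ : GL ι F) : Matrix ι ι F) *ᵥ ((g : Matrix ι ι F) *ᵥ x) = x := by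
  rw [Matrix.mulVec_mulVec, ← Units.val_mul, inv_mul_cancel, Units.val_one, Matrix.one_mulVec]

lemma gl_mulVec_inv' (g : GL ι F) (x : ι → F) :
    (g : Matrix ι ι F) *ᵥ (((g⁻¹ : GL ι F) : Matrix ι ι F) *ᵥ x) = x := by
  rw [Matrix.mulVec_mulVec, ← Units.val_mul, mul_inv_cancel, Units.val_one, Matrix.one_mulVec]

lemma gl_mul_mulVec (g h : GL ι F) (x : ι → F) :
    ((g * h : GL ι F) : Matrix ι ι F) *ᵥ x =
      (g : Matrix ι ι F) *ᵥ ((h : Matrix ι ι F) *ᵥ x) := by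
  rw [Units.val_mul, Matrix.mulVec_mulVec]

lemma gl_one_mulVec (x : ι → F) : ((1 : GL ι F) : Matrix ι ι F) *ᵥ x = x := by
  rw [Units.val_one, Matrix.one_mulVec]

lemma gl_ext {g h : GL ι F}
    (H : ∀ x : ι → F, (g : Matrix ι ι F) *ᵥ x = (h : Matrix ι ι F) *ᵥ x) : g = h := by
  apply Units.ext
  apply Matrix.mulVec_injective
  funext x
  exact H x

lemma gl_mulVec_inj (g : GL ι F) {x y : ι → F}
    (h : (g : Matrix ι ι F) *ᵥ x = (g : Matrix ι ι F) *ᵥ y) : x = y := by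
  rw [← gl_inv_mulVec g x, h, gl_inv_mulVec]

lemma gl_mulVec_ne_zero (g : GL ι F) {x : ι → F} (hx : x ≠ 0) :
    (g : Matrix ι ι F) *ᵥ x ≠ 0 := by
  intro h
  apply hx
  apply gl_mulVec_inj g
  rw [h, Matrix.mulVec_zero]

/-- The linear automorphism of `F^ι` given by an invertible matrix. -/
def glE (g : GL ι F) : (ι → F) ≃ₗ[F] (ι → F) :=
  LinearEquiv.ofLinearMap (Matrix.mulVecLin (g : Matrix ι ι F))
    (Matrix.mulVecLin ((g⁻¹ : GL ι F) : Matrix ι ι F))
    (LinearMap.ext fun v => by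
      rw [LinearMap.comp_apply, Matrix.mulVecLin_apply, Matrix.mulVecLin_apply,
        Matrix.mulVec_mulVec, ← Units.val_mul, mul_inv_cancel, Units.val_one, Matrix.one_mulVec,
        LinearMap.id_apply])
    (LinearMap.ext fun v => by
      rw [LinearMap.comp_apply, Matrix.mulVecLin_apply, Matrix.mulVecLin_apply,
        Matrix.mulVec_mulVec, ← Units.val_mul, inv_mul_cancel, Units.val_one, Matrix.one_mulVec,
        LinearMap.id_apply])

lemma glE_apply (g : GL ι F) (v : ι → F) : glE g v = (g : Matrix ι ι F) *ᵥ v := rfl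

lemma glE_symm_apply (g : GL ι F) (v : ι → F) :
    (glE g).symm v = ((g⁻¹ : GL ι F) : Matrix ι ι F) *ᵥ v := rfl

/-- The image of a subspace under an invertible matrix. -/
def gim (W : Submodule F (ι → F)) (g : GL ι F) : Submodule F (ι → F) :=
  W.map (glE g).toLinearMap

lemma mem_gim {W : Submodule F (ι → F)} {g : GL ι F} {v : ι → F} :
    v ∈ gim W g ↔ ((g⁻¹ : GL ι F) : Matrix ι ι F) *ᵥ v ∈ W := by
  rw [gim, Submodule.mem_map_equiv, glE_symm_apply]

lemma mem_gim' {W : Submodule F (ι → F)} {g : GL ι F} {v : ι → F} :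
    v ∈ gim W g ↔ ∃ w ∈ W, (g : Matrix ι ι F) *ᵥ w = v := by
  rw [mem_gim]
  constructor
  · intro h
    exact ⟨_, h, gl_mulVec_inv' g v⟩
  · rintro ⟨w, hw, rfl⟩
    rw [gl_inv_mulVec]
    exact hw

lemma mulVec_mem_gim {W : Submodule F (ι → F)} (g : GL ι F) {v : ι → F}
    (hv : v ∈ W) : (g : Matrix ι ι F) *ᵥ v ∈ gim W g := by
  rw [mem_gim, gl_inv_mulVec]
  exact hv

lemma finrank_gim (W : Submodule F (ι → F)) (g : GL ι F) :
    Module.finrank F ↥(gim W g) = Module.finrank F ↥W :=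
  LinearEquiv.finrank_map_eq (glE g) W

lemma gim_inf (W W' : Submodule F (ι → F)) (g : GL ι F) :
    gim (W ⊓ W') g = gim W g ⊓ gim W' g :=
  Submodule.map_inf _ (glE g).injective

lemma gim_mul (W : Submodule F (ι → F)) (a b : GL ι F) :
    gim W (a * b) = gim (gim W b) a := by
  ext v
  rw [mem_gim, mem_gim, mem_gim, _root_.mul_inv_rev, Units.val_mul, Matrix.mulVec_mulVec]

lemma gim_one (W : Submodule F (ι → F)) : gim W (1 : GL ι F) = W := by
  ext v
  rw [mem_gim, inv_one, gl_one_mulVec]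

lemma gim_inv_gim (W : Submodule F (ι → F)) (a : GL ι F) :
    gim (gim W a⁻¹) a = W := by
  ext v
  rw [mem_gim, mem_gim, inv_inv, gl_mulVec_inv']

lemma gim_gim_inv (W : Submodule F (ι → F)) (a : GL ι F) :
    gim (gim W a) a⁻¹ = W := by
  ext v
  rw [mem_gim, mem_gim, inv_inv, gl_inv_mulVec]

/-- Commuting with every element of a subalgebra puts an invertible matrix in its normaliser. -/
lemma mem_normalizer_of_comm {K : Subalgebra F (Matrix ι ι F)} {g : GL ι F}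
    (hg : ∀ k ∈ K, (g : Matrix ι ι F) * k = k * g) :
    g ∈ Cfsg.Geo.subalgebraNormalizer K := by
  have h2 : (g : Matrix ι ι F) * ((g⁻¹ : GL ι F) : Matrix ι ι F) = 1 := by
    rw [← Units.val_mul, mul_inv_cancel, Units.val_one]
  have h1 : ((g⁻¹ : GL ι F) : Matrix ι ι F) * g = 1 := by
    rw [← Units.val_mul, inv_mul_cancel, Units.val_one]
  intro k
  constructor
  · intro hk
    rw [hg k hk, mul_assoc, h2, mul_one]
    exact hk
  · intro hk
    have h4 := hg _ hk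
    have h6 : (g : Matrix ι ι F) * k * ((g⁻¹ : GL ι F) : Matrix ι ι F) = k := by
      calc (g : Matrix ι ι F) * k * ((g⁻¹ : GL ι F) : Matrix ι ι F)
          = ((g⁻¹ : GL ι F) : Matrix ι ι F) * ((g : Matrix ι ι F) *
              ((g : Matrix ι ι F) * k * ((g⁻¹ : GL ι F) : Matrix ι ι F))) := by
            rw [← mul_assoc, h1, one_mul]
        _ = ((g⁻¹ : GL ι F) : Matrix ι ι F) * ((g : Matrix ι ι F) * k *
                ((g⁻¹ : GL ι F) : Matrix ι ι F) * (g : Matrix ι ι F)) := by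
            rw [h4]
        _ = k := by
            rw [mul_assoc ((g : Matrix ι ι F) * k), h1, mul_one, ← mul_assoc, h1, one_mul]
    rw [← h6]
    exact hk

/-- `SP f M σ y y'`: the element `x ↦ x + σ (f(x,y') y + f(x,y) y')` lies in `M`. -/
def SP (f : (ι → F) → (ι → F) → F) (M : Subgroup (GL ι F)) (σ : F) (y y' : ι → F) : Prop :=
  ∃ g ∈ M, ∀ x : ι → F, (g : Matrix ι ι F) *ᵥ x = x + σ • (f x y' • y + f x y • y')

lemma SP_symm {f : (ι → F) → (ι → F) → F} {M : Subgroup (GL ι F)} {σ : F} {y y' : ι → F}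
    (h : SP f M σ y y') : SP f M σ y' y := by
  obtain ⟨g, hg, hgx⟩ := h
  exact ⟨g, hg, fun x => by rw [hgx, add_comm (f x y' • y)]⟩

/-- Conjugating by an isometry `n ∈ M` moves the pair. -/
lemma SP_conj {f : (ι → F) → (ι → F) → F} {M : Subgroup (GL ι F)} {σ : F} {y y' : ι → F}
    (h : SP f M σ y y') {n : GL ι F} (hn : n ∈ M)
    (hiso : ∀ x z : ι → F, f ((n : Matrix ι ι F) *ᵥ x) ((n : Matrix ι ι F) *ᵥ z) = f x z) :
    SP f M σ ((n : Matrix ι ι F) *ᵥ y) ((n : Matrix ι ι F) *ᵥ y') := by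
  obtain ⟨g, hg, hgx⟩ := h
  refine ⟨n * g * n⁻¹, M.mul_mem (M.mul_mem hn hg) (M.inv_mem hn), fun x => ?_⟩
  have h1 : ∀ z : ι → F, f (((n⁻¹ : GL ι F) : Matrix ι ι F) *ᵥ x) z =
      f x ((n : Matrix ι ι F) *ᵥ z) := by
    intro z
    rw [← hiso, gl_mulVec_inv']
  rw [gl_mul_mulVec, gl_mul_mulVec, hgx, Matrix.mulVec_add, gl_mulVec_inv', Matrix.mulVec_smul,
    Matrix.mulVec_add, Matrix.mulVec_smul, Matrix.mulVec_smul, h1, h1]

/-- The maximality property of `h` with respect to the subspace `W` in `M`: an element of `M`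
fixing `W ⊓ hW` pointwise and mapping some vector of `hW` outside `W` into `hW` stabilises `hW`. -/
def MaxP (M : Subgroup (GL ι F)) (W : Submodule F (ι → F)) (h : GL ι F) : Prop :=
  ∀ x ∈ M, (∀ z ∈ W ⊓ gim W h, (x : Matrix ι ι F) *ᵥ z = z) →
    (∃ y₀ ∈ gim W h, y₀ ∉ W ∧ (x : Matrix ι ι F) *ᵥ y₀ ∈ gim W h) →
    ∀ y ∈ gim W h, (x : Matrix ι ι F) *ᵥ y ∈ gim W h

/-- A centre criterion: if for every `a` the map `x ↦ x + a f(x,v) v` is in `M`, then `InS`. -/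
lemma InS_of_exists {f : (ι → F) → (ι → F) → F} (hf : Cfsg.Geo.IsSymplecticForm f)
    {M : Subgroup (GL ι F)} {v : ι → F}
    (h : ∀ a : F, ∃ g ∈ M, ∀ x : ι → F, (g : Matrix ι ι F) *ᵥ x = x + (a * f x v) • v) :
    InS f M v := by
  apply InS_of_mem hf
  intro a
  obtain ⟨g, hg, hgx⟩ := h a
  have : tvG v (a • rho f v) (symp_dot0 hf v a) = g := by
    apply gl_ext
    intro x
    rw [stv_mulVec hf, hgx]
  rw [this]
  exact hg

/-! ### The abstract data -/

/-- A field `L ⊇ F` acting on `F^ι`, with an `L`-valued alternating form `B` such that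
`f = β ∘ B`. -/
structure KS (f : (ι → F) → (ι → F) → F) (L : Type*) [Field L] [Algebra F L] where
  φ : L →ₐ[F] Matrix ι ι F
  B : (ι → F) → (ι → F) → L
  β : L →ₗ[F] F
  β_ne : β ≠ 0
  B_add : ∀ x y u, B (x + y) u = B x u + B y u
  B_act : ∀ (l : L) (x u : ι → F), B (φ l *ᵥ x) u = l * B x u
  B_skew : ∀ x u, B x u = - B u x
  B_self : ∀ x, B x x = 0
  β_B : ∀ x u, β (B x u) = f x u

namespace KS

variable {f : (ι → F) → (ι → F) → F} {L : Type*} [Field L] [Algebra F L] (S : KS f L)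

/-! ### The action of `L` -/

lemma φ_mul_mulVec (a b : L) (x : ι → F) : S.φ (a * b) *ᵥ x = S.φ a *ᵥ (S.φ b *ᵥ x) := by
  rw [map_mul, Matrix.mulVec_mulVec]

lemma φ_one_mulVec (x : ι → F) : S.φ 1 *ᵥ x = x := by rw [map_one, Matrix.one_mulVec]

lemma φ_zero_mulVec (x : ι → F) : S.φ 0 *ᵥ x = 0 := by rw [map_zero, Matrix.zero_mulVec]

lemma φ_add_mulVec (a b : L) (x : ι → F) : S.φ (a + b) *ᵥ x = S.φ a *ᵥ x + S.φ b *ᵥ x := by
  rw [map_add, Matrix.add_mulVec]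

lemma φ_neg_mulVec (a : L) (x : ι → F) : S.φ (-a) *ᵥ x = -(S.φ a *ᵥ x) := by
  rw [map_neg, Matrix.neg_mulVec]

lemma φ_sub_mulVec (a b : L) (x : ι → F) : S.φ (a - b) *ᵥ x = S.φ a *ᵥ x - S.φ b *ᵥ x := by
  rw [map_sub, Matrix.sub_mulVec]

lemma φ_smul_mulVec (c : F) (a : L) (x : ι → F) : S.φ (c • a) *ᵥ x = c • (S.φ a *ᵥ x) := by
  rw [map_smul, Matrix.smul_mulVec]

lemma φ_algebraMap_mulVec (c : F) (x : ι → F) : S.φ (algebraMap F L c) *ᵥ x = c • x := by
  rw [AlgHom.commutes, Algebra.algebraMap_eq_smul_one, Matrix.smul_mulVec, Matrix.one_mulVec]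

lemma φ_inv_cancel {a : L} (ha : a ≠ 0) (x : ι → F) : S.φ a⁻¹ *ᵥ (S.φ a *ᵥ x) = x := by
  rw [← S.φ_mul_mulVec, inv_mul_cancel₀ ha, S.φ_one_mulVec]

lemma φ_cancel_inv {a : L} (ha : a ≠ 0) (x : ι → F) : S.φ a *ᵥ (S.φ a⁻¹ *ᵥ x) = x := by
  rw [← S.φ_mul_mulVec, mul_inv_cancel₀ ha, S.φ_one_mulVec]

lemma φ_eq_zero {a : L} {x : ι → F} (hx : x ≠ 0) (h : S.φ a *ᵥ x = 0) : a = 0 := by
  by_contra ha
  apply hx
  rw [← S.φ_inv_cancel ha x, h, Matrix.mulVec_zero]

lemma φ_mulVec_ne_zero {a : L} {x : ι → F} (ha : a ≠ 0) (hx : x ≠ 0) : S.φ a *ᵥ x ≠ 0 :=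
  fun h => ha (S.φ_eq_zero hx h)

lemma φ_mulVec_inj {a b : L} {x : ι → F} (hx : x ≠ 0) (h : S.φ a *ᵥ x = S.φ b *ᵥ x) : a = b := by
  have h1 : S.φ (a - b) *ᵥ x = 0 := by rw [S.φ_sub_mulVec, h, sub_self]
  exact sub_eq_zero.mp (S.φ_eq_zero hx h1)

/-! ### The form `B` -/

lemma B_zero_left (u : ι → F) : S.B 0 u = 0 := by
  have h := S.B_act 0 0 u
  rw [map_zero, Matrix.zero_mulVec, zero_mul] at h
  exact h

lemma B_zero_right (x : ι → F) : S.B x 0 = 0 := by rw [S.B_skew, S.B_zero_left, neg_zero]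

lemma B_add_right (x u w : ι → F) : S.B x (u + w) = S.B x u + S.B x w := by
  rw [S.B_skew, S.B_add, S.B_skew u x, S.B_skew w x]
  ring

lemma B_act_right (l : L) (x u : ι → F) : S.B x (S.φ l *ᵥ u) = l * S.B x u := by
  rw [S.B_skew, S.B_act, S.B_skew u x]
  ring

lemma B_neg_left (x u : ι → F) : S.B (-x) u = - S.B x u := by
  have h := S.B_add x (-x) u
  rw [add_neg_cancel, S.B_zero_left] at h
  linear_combination -h

lemma B_neg_right (x u : ι → F) : S.B x (-u) = - S.B x u := by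
  rw [S.B_skew, S.B_neg_left, S.B_skew u x, neg_neg]

lemma B_sub_left (x y u : ι → F) : S.B (x - y) u = S.B x u - S.B y u := by
  rw [sub_eq_add_neg, S.B_add, S.B_neg_left, sub_eq_add_neg]

lemma B_sub_right (x u w : ι → F) : S.B x (u - w) = S.B x u - S.B x w := by
  rw [sub_eq_add_neg, S.B_add_right, S.B_neg_right, sub_eq_add_neg]

lemma B_smul_left (c : F) (x u : ι → F) : S.B (c • x) u = algebraMap F L c * S.B x u := by
  rw [← S.φ_algebraMap_mulVec, S.B_act]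

lemma B_smul_right (c : F) (x u : ι → F) : S.B x (c • u) = algebraMap F L c * S.B x u := by
  rw [← S.φ_algebraMap_mulVec, S.B_act_right]

lemma f_eq (x u : ι → F) : f x u = S.β (S.B x u) := (S.β_B x u).symm

lemma f_act (l : L) (x u : ι → F) : f (S.φ l *ᵥ x) u = S.β (l * S.B x u) := by
  rw [← S.β_B, S.B_act]

lemma f_act_right (l : L) (x u : ι → F) : f x (S.φ l *ᵥ u) = S.β (l * S.B x u) := by
  rw [← S.β_B, S.B_act_right]

/-- The elements of `L` are self-adjoint for `f`. -/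
lemma f_adj (l : L) (x u : ι → F) : f (S.φ l *ᵥ x) u = f x (S.φ l *ᵥ u) := by
  rw [S.f_act, S.f_act_right]

/-! ### The functional `β` -/

lemma β_nondeg {c : L} (h : ∀ l, S.β (c * l) = 0) : c = 0 := by
  by_contra hc
  apply S.β_ne
  ext l
  have h1 := h (c⁻¹ * l)
  rw [← mul_assoc, mul_inv_cancel₀ hc, one_mul] at h1
  rw [h1]
  rfl

lemma β_ext {a b : L} (h : ∀ l, S.β (l * a) = S.β (l * b)) : a = b := by
  have h1 : a - b = 0 := S.β_nondeg (fun l => by rw [mul_comm, mul_sub, map_sub, h, sub_self])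
  exact sub_eq_zero.mp h1

lemma exists_β_ne : ∃ l, S.β l ≠ 0 := by
  by_contra h
  push Not at h
  exact S.β_ne (LinearMap.ext h)

lemma exists_β_eq {c : L} (hc : c ≠ 0) (t : F) : ∃ a : L, S.β (a * c) = t := by
  obtain ⟨l₀, hl₀⟩ := S.exists_β_ne
  refine ⟨((t / S.β l₀) • l₀) * c⁻¹, ?_⟩
  rw [mul_assoc, inv_mul_cancel₀ hc, mul_one, map_smul, smul_eq_mul, div_mul_cancel₀ _ hl₀]

/-- Every `F`-linear functional on `L` is `β (c * ·)`. -/
lemma β_repr [FiniteDimensional F L] (lam : L →ₗ[F] F) : ∃ c : L, ∀ l, lam l = S.β (c * l) := by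
  let Bm : L →ₗ[F] (L →ₗ[F] F) := (LinearMap.mul F L).compr₂ S.β
  have hinj : Function.Injective Bm := by
    rw [← LinearMap.ker_eq_bot, LinearMap.ker_eq_bot']
    intro c hc
    exact S.β_nondeg (fun l => LinearMap.congr_fun hc l)
  have hfin : Module.finrank F L = Module.finrank F (L →ₗ[F] F) :=
    (Subspace.dual_finrank_eq).symm
  obtain ⟨c, hc⟩ := (LinearMap.injective_iff_surjective_of_finrank_eq_finrank hfin).mp hinj lam
  exact ⟨c, fun l => by rw [← hc]; rfl⟩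

lemma B_nondeg (hf : Cfsg.Geo.IsSymplecticForm f) {u : ι → F} (hu : u ≠ 0) :
    ∃ x, S.B x u ≠ 0 := by
  obtain ⟨⟨x, hx⟩, -⟩ := hf.nondegenerate u hu
  refine ⟨x, fun h => hx ?_⟩
  rw [← S.β_B, h, map_zero]

/-! ### `L`-transvections -/

/-- The `F`-linear map `x ↦ (a B(x,u)) u`. -/
def tL (u : ι → F) (a : L) : (ι → F) →ₗ[F] (ι → F) where
  toFun x := S.φ (a * S.B x u) *ᵥ u
  map_add' x y := by rw [S.B_add, mul_add, S.φ_add_mulVec]
  map_smul' c x := by
    rw [S.B_smul_left, RingHom.id_apply, ← mul_assoc, mul_comm a, mul_assoc, ← Algebra.smul_def,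
      S.φ_smul_mulVec]

/-- The matrix of `x ↦ (a B(x,u)) u`. -/
def tE (u : ι → F) (a : L) : Matrix ι ι F := LinearMap.toMatrix' (S.tL u a)

lemma tE_mulVec (u : ι → F) (a : L) (x : ι → F) :
    S.tE u a *ᵥ x = S.φ (a * S.B x u) *ᵥ u := by
  rw [tE, ← Matrix.toLin'_apply, Matrix.toLin'_toMatrix']
  rfl

lemma tE_sq (u : ι → F) (a : L) : S.tE u a * S.tE u a = 0 := by
  apply Matrix.mulVec_injective
  funext x
  rw [← Matrix.mulVec_mulVec, S.tE_mulVec, S.tE_mulVec, S.B_act, S.B_self, mul_zero, mul_zero,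
    map_zero, Matrix.zero_mulVec, Matrix.zero_mulVec]

/-- The `L`-transvection `x ↦ x + (a B(x,u)) u`. -/
def T (u : ι → F) (a : L) : GL ι F :=
  ⟨1 + S.tE u a, 1 - S.tE u a, by
    have h : (1 + S.tE u a) * (1 - S.tE u a) = 1 - S.tE u a * S.tE u a := by noncomm_ring
    rw [h, S.tE_sq, sub_zero], by
    have h : (1 - S.tE u a) * (1 + S.tE u a) = 1 - S.tE u a * S.tE u a := by noncomm_ring
    rw [h, S.tE_sq, sub_zero]⟩

lemma T_mulVec (u : ι → F) (a : L) (x : ι → F) :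
    ((S.T u a : GL ι F) : Matrix ι ι F) *ᵥ x = x + S.φ (a * S.B x u) *ᵥ u := by
  show (1 + S.tE u a) *ᵥ x = _
  rw [Matrix.add_mulVec, Matrix.one_mulVec, S.tE_mulVec]

lemma T_inv_mulVec (u : ι → F) (a : L) (x : ι → F) :
    (((S.T u a)⁻¹ : GL ι F) : Matrix ι ι F) *ᵥ x = x - S.φ (a * S.B x u) *ᵥ u := by
  show (1 - S.tE u a) *ᵥ x = _
  rw [Matrix.sub_mulVec, Matrix.one_mulVec, S.tE_mulVec]

/-! ### The group of `L`-linear isometries -/

/-- The `L`-linear isometries of `f` (equivalently of `B`). -/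
def NG : Subgroup (GL ι F) where
  carrier := {g | (∀ l : L, (g : Matrix ι ι F) * S.φ l = S.φ l * (g : Matrix ι ι F)) ∧
    ∀ x y : ι → F, f ((g : Matrix ι ι F) *ᵥ x) ((g : Matrix ι ι F) *ᵥ y) = f x y}
  mul_mem' := by
    rintro a b ⟨ha, ha1⟩ ⟨hb, hb1⟩
    refine ⟨fun l => ?_, fun x y => ?_⟩
    · rw [Units.val_mul, mul_assoc, hb l, ← mul_assoc, ha l, mul_assoc]
    · rw [gl_mul_mulVec, gl_mul_mulVec, ha1, hb1]
  one_mem' := ⟨fun l => by rw [Units.val_one, one_mul, mul_one], fun x y => by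
    rw [gl_one_mulVec, gl_one_mulVec]⟩
  inv_mem' := by
    rintro a ⟨ha, ha1⟩
    have h1 : ((a⁻¹ : GL ι F) : Matrix ι ι F) * a = 1 := by
      rw [← Units.val_mul, inv_mul_cancel, Units.val_one]
    have h2 : (a : Matrix ι ι F) * ((a⁻¹ : GL ι F) : Matrix ι ι F) = 1 := by
      rw [← Units.val_mul, mul_inv_cancel, Units.val_one]
    refine ⟨fun l => ?_, fun x y => ?_⟩
    · calc ((a⁻¹ : GL ι F) : Matrix ι ι F) * S.φ l
          = ((a⁻¹ : GL ι F) : Matrix ι ι F) * S.φ l *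
            ((a : Matrix ι ι F) * ((a⁻¹ : GL ι F) : Matrix ι ι F)) := by
            rw [h2, mul_one]
        _ = ((a⁻¹ : GL ι F) : Matrix ι ι F) * ((a : Matrix ι ι F) * S.φ l)
            * ((a⁻¹ : GL ι F) : Matrix ι ι F) := by
            rw [ha l]; simp only [mul_assoc]
        _ = S.φ l * ((a⁻¹ : GL ι F) : Matrix ι ι F) := by
            rw [← mul_assoc, h1, one_mul]
    · have h3 := ha1 (((a⁻¹ : GL ι F) : Matrix ι ι F) *ᵥ x) (((a⁻¹ : GL ι F) : Matrix ι ι F) *ᵥ y)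
      rw [gl_mulVec_inv', gl_mulVec_inv'] at h3
      exact h3.symm

lemma mem_NG {g : GL ι F} : g ∈ S.NG ↔
    (∀ l : L, (g : Matrix ι ι F) * S.φ l = S.φ l * (g : Matrix ι ι F)) ∧
    ∀ x y : ι → F, f ((g : Matrix ι ι F) *ᵥ x) ((g : Matrix ι ι F) *ᵥ y) = f x y := Iff.rfl

lemma NG_act {g : GL ι F} (hg : g ∈ S.NG) (l : L) (x : ι → F) :
    (g : Matrix ι ι F) *ᵥ (S.φ l *ᵥ x) = S.φ l *ᵥ ((g : Matrix ι ι F) *ᵥ x) := by
  rw [Matrix.mulVec_mulVec, Matrix.mulVec_mulVec, hg.1 l]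

lemma NG_f {g : GL ι F} (hg : g ∈ S.NG) (x y : ι → F) :
    f ((g : Matrix ι ι F) *ᵥ x) ((g : Matrix ι ι F) *ᵥ y) = f x y := hg.2 x y

lemma NG_B {g : GL ι F} (hg : g ∈ S.NG) (x y : ι → F) :
    S.B ((g : Matrix ι ι F) *ᵥ x) ((g : Matrix ι ι F) *ᵥ y) = S.B x y := by
  apply S.β_ext
  intro l
  rw [← S.B_act, ← S.B_act, S.β_B, S.β_B, ← S.NG_act hg, hg.2]

lemma T_mem_NG (u : ι → F) (a : L) : S.T u a ∈ S.NG := by
  refine ⟨fun l => ?_, fun x y => ?_⟩
  · apply Matrix.mulVec_injective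
    funext x
    rw [← Matrix.mulVec_mulVec, ← Matrix.mulVec_mulVec, S.T_mulVec, S.T_mulVec, S.B_act,
      Matrix.mulVec_add, ← S.φ_mul_mulVec, mul_left_comm]
  · rw [S.T_mulVec, S.T_mulVec, ← S.β_B, ← S.β_B]
    congr 1
    rw [S.B_add, S.B_add_right, S.B_add_right, S.B_act, S.B_act, S.B_act_right, S.B_act_right,
      S.B_self, S.B_skew u y]
    ring

lemma NG_le_normalizer : S.NG ≤ Cfsg.Geo.subalgebraNormalizer S.φ.range := by
  intro g hg
  apply mem_normalizer_of_comm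
  rintro k ⟨l, rfl⟩
  exact hg.1 l

/-! ### `L`-lines -/

/-- The `F`-linear map `l ↦ l u`. -/
def actL (u : ι → F) : L →ₗ[F] (ι → F) where
  toFun l := S.φ l *ᵥ u
  map_add' a b := S.φ_add_mulVec a b u
  map_smul' c a := by rw [S.φ_smul_mulVec]; rfl

/-- The `L`-line through `u`, as an `F`-subspace. -/
def line (u : ι → F) : Submodule F (ι → F) := LinearMap.range (S.actL u)

lemma mem_line {u y : ι → F} : y ∈ S.line u ↔ ∃ l : L, S.φ l *ᵥ u = y := Iff.rfl

lemma self_mem_line (u : ι → F) : u ∈ S.line u := ⟨1, S.φ_one_mulVec u⟩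

lemma act_mem_line (l : L) (u : ι → F) : S.φ l *ᵥ u ∈ S.line u := ⟨l, rfl⟩

lemma line_act_mem {u y : ι → F} (hy : y ∈ S.line u) (l : L) : S.φ l *ᵥ y ∈ S.line u := by
  obtain ⟨a, rfl⟩ := S.mem_line.mp hy
  exact ⟨l * a, S.φ_mul_mulVec l a u⟩

lemma actL_injective {u : ι → F} (hu : u ≠ 0) : Function.Injective (S.actL u) :=
  fun _ _ h => S.φ_mulVec_inj hu h

lemma finrank_line {u : ι → F} (hu : u ≠ 0) :
    Module.finrank F ↥(S.line u) = Module.finrank F L :=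
  LinearMap.finrank_range_of_inj (S.actL_injective hu)

lemma B_line {u y : ι → F} (hy : y ∈ S.line u) : S.B y u = 0 := by
  obtain ⟨a, rfl⟩ := S.mem_line.mp hy
  rw [S.B_act, S.B_self, mul_zero]

lemma B_line_line {u y y' : ι → F} (hy : y ∈ S.line u) (hy' : y' ∈ S.line u) : S.B y y' = 0 := by
  obtain ⟨a, rfl⟩ := S.mem_line.mp hy
  obtain ⟨b, rfl⟩ := S.mem_line.mp hy'
  rw [S.B_act, S.B_act_right, S.B_self, mul_zero, mul_zero]

lemma f_line_line {u y y' : ι → F} (hy : y ∈ S.line u) (hy' : y' ∈ S.line u) : f y y' = 0 := by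
  rw [← S.β_B, S.B_line_line hy hy', map_zero]

lemma line_le_of_mem {u w : ι → F} (hw : w ∈ S.line u) : S.line w ≤ S.line u := by
  intro y hy
  obtain ⟨l, rfl⟩ := S.mem_line.mp hy
  exact S.line_act_mem hw l

lemma line_eq_of_mem {u w : ι → F} (hw : w ∈ S.line u) (hw0 : w ≠ 0) : S.line w = S.line u := by
  apply le_antisymm (S.line_le_of_mem hw)
  obtain ⟨a, rfl⟩ := S.mem_line.mp hw
  have ha : a ≠ 0 := by
    rintro rfl
    exact hw0 (S.φ_zero_mulVec u)
  apply S.line_le_of_mem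
  exact ⟨a⁻¹, S.φ_inv_cancel ha u⟩

lemma NG_line {g : GL ι F} (hg : g ∈ S.NG) (u : ι → F) :
    gim (S.line u) g = S.line ((g : Matrix ι ι F) *ᵥ u) := by
  ext y
  rw [mem_gim']
  constructor
  · rintro ⟨w, hw, rfl⟩
    obtain ⟨l, rfl⟩ := S.mem_line.mp hw
    exact ⟨l, (S.NG_act hg l u).symm⟩
  · intro hy
    obtain ⟨l, rfl⟩ := S.mem_line.mp hy
    exact ⟨_, S.act_mem_line l u, S.NG_act hg l u⟩

/-- Configuration (ii): `g ∈ M` maps the `L`-line through `u` into its perp, meeting it in a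
hyperplane. -/
def Cfg2 (M : Subgroup (GL ι F)) (u : ι → F) (g : GL ι F) : Prop :=
  g ∈ M ∧ u ≠ 0 ∧ (∀ y ∈ gim (S.line u) g, S.B y u = 0) ∧
    Module.finrank F ↥(S.line u ⊓ gim (S.line u) g) + 1 = Module.finrank F L

end KS

end Cfsg.Agent.Lib.Helper71.SpK
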