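import Mathlib
import Cfsg.Prelude.Def_GeometricClasses
import Cfsg.Agent.Lib.Helper71.SpK0

/-!
# Extension-field subgroups of symplectic groups: basic lemmas (helper71, for S5664)

Transitivity of the `L`-linear isometry group on non-zero vectors, the Riesz representation of
`L`-linear functionals by the form `B`, dual vectors, Eichler elements, and the characterisation
of the image of `L` as the matrices preserving every `L`-line.
-/

set_option autoImplicit false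

namespace Cfsg.Agent.Lib.Helper71.SpK

open Matrix Cfsg.Agent.Lib.Helper97

variable {ι : Type} [Fintype ι] [DecidableEq ι] {F : Type*} [Field F]

/-- Over a field `L` mapping to the matrix algebra: an `L`-linear functional vanishing at `u`, `w`
and taking the value `1` at a vector `y` outside `L u + L w`. -/
theorem exists_dual_of_field {L : Type*} [Field L] (φ : L →+* Matrix ι ι F)
    (u w y : ι → F) (hy : ∀ a b : L, φ a *ᵥ u + φ b *ᵥ w ≠ y) :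
    ∃ ψ : (ι → F) → L, (∀ v v', ψ (v + v') = ψ v + ψ v') ∧
      (∀ (l : L) v, ψ (φ l *ᵥ v) = l * ψ v) ∧ ψ u = 0 ∧ ψ w = 0 ∧ ψ y = 1 := by
  let _ : Module L (ι → F) :=
    Module.compHom (ι → F)
      ((Matrix.toLinAlgEquiv' : Matrix ι ι F ≃ₐ[F] _).toRingEquiv.toRingHom.comp φ)
  have hsmul : ∀ (l : L) (w : ι → F), l • w = φ l *ᵥ w := fun l w => rfl
  have hnot : y ∉ Submodule.span L {u, w} := by
    rw [Submodule.mem_span_pair]
    rintro ⟨a, b, hab⟩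
    exact hy a b (by rw [← hsmul, ← hsmul]; exact hab)
  obtain ⟨ψ, hψ1, hψ2⟩ := Submodule.exists_le_ker_of_notMem hnot
  have hψu : ψ u = 0 := LinearMap.mem_ker.mp (hψ2 (Submodule.subset_span (by simp)))
  have hψw : ψ w = 0 := LinearMap.mem_ker.mp (hψ2 (Submodule.subset_span (by simp)))
  refine ⟨fun v => (ψ y)⁻¹ * ψ v, fun v v' => ?_, fun l v => ?_, ?_, ?_, ?_⟩
  · show (ψ y)⁻¹ * ψ (v + v') = (ψ y)⁻¹ * ψ v + (ψ y)⁻¹ * ψ v'
    rw [map_add, mul_add]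
  · show (ψ y)⁻¹ * ψ (φ l *ᵥ v) = l * ((ψ y)⁻¹ * ψ v)
    rw [← hsmul, map_smul, smul_eq_mul, mul_left_comm]
  · show (ψ y)⁻¹ * ψ u = 0
    rw [hψu, mul_zero]
  · show (ψ y)⁻¹ * ψ w = 0
    rw [hψw, mul_zero]
  · show (ψ y)⁻¹ * ψ y = 1
    exact inv_mul_cancel₀ hψ1

namespace KS

variable {f : (ι → F) → (ι → F) → F} {L : Type*} [Field L] [Algebra F L] (S : KS f L)

/-! ### Eichler elements -/

/-- Eichler elements: for `B(u,z) = 0` the map `x ↦ x + B(x,u) z + B(x,z) u` is in `NG`. -/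
theorem exists_eich {u z : ι → F} (h : S.B u z = 0) :
    ∃ g ∈ S.NG, ∀ x : ι → F, (g : Matrix ι ι F) *ᵥ x =
      x + S.φ (S.B x u) *ᵥ z + S.φ (S.B x z) *ᵥ u := by
  have hz : S.B z u = 0 := by rw [S.B_skew, h, neg_zero]
  refine ⟨S.T z (-1) * S.T u (-1) * S.T (u + z) 1,
    S.NG.mul_mem (S.NG.mul_mem (S.T_mem_NG _ _) (S.T_mem_NG _ _)) (S.T_mem_NG _ _), fun x => ?_⟩
  obtain ⟨s, hs⟩ : ∃ s, s = S.B x u + S.B x z := ⟨_, rfl⟩
  have e1 : ((S.T (u + z) 1 : GL ι F) : Matrix ι ι F) *ᵥ x = x + S.φ s *ᵥ (u + z) := by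
    rw [S.T_mulVec, one_mul, S.B_add_right, hs]
  have e2 : S.B (x + S.φ s *ᵥ (u + z)) u = S.B x u := by
    rw [S.B_add, S.B_act, S.B_add, S.B_self, hz, add_zero, mul_zero, add_zero]
  have e3 : ((S.T u (-1) : GL ι F) : Matrix ι ι F) *ᵥ (x + S.φ s *ᵥ (u + z)) =
      x + S.φ s *ᵥ (u + z) - S.φ (S.B x u) *ᵥ u := by
    rw [S.T_mulVec, e2, neg_one_mul, S.φ_neg_mulVec, sub_eq_add_neg]
  have e4 : S.B (x + S.φ s *ᵥ (u + z) - S.φ (S.B x u) *ᵥ u) z = S.B x z := by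
    rw [S.B_sub_left, S.B_add, S.B_act, S.B_act, S.B_add, h, S.B_self, add_zero, mul_zero,
      mul_zero, add_zero, sub_zero]
  rw [gl_mul_mulVec, gl_mul_mulVec, e1, e3, S.T_mulVec, e4, neg_one_mul, S.φ_neg_mulVec, hs,
    S.φ_add_mulVec, Matrix.mulVec_add, Matrix.mulVec_add]
  abel

/-! ### Transitivity -/

lemma exists_two_ne (hf : Cfsg.Geo.IsSymplecticForm f) {a b : ι → F} (ha : a ≠ 0) (hb : b ≠ 0) :
    ∃ y : ι → F, S.B a y ≠ 0 ∧ S.B b y ≠ 0 := by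
  obtain ⟨y₁, hy₁⟩ := S.B_nondeg hf ha
  obtain ⟨y₂, hy₂⟩ := S.B_nondeg hf hb
  have h1 : S.B a y₁ ≠ 0 := by rw [S.B_skew]; exact neg_ne_zero.mpr hy₁
  have h2 : S.B b y₂ ≠ 0 := by rw [S.B_skew]; exact neg_ne_zero.mpr hy₂
  by_cases h3 : S.B b y₁ = 0
  · by_cases h4 : S.B a y₂ = 0
    · refine ⟨y₁ + y₂, ?_, ?_⟩
      · rw [S.B_add_right, h4, add_zero]; exact h1
      · rw [S.B_add_right, h3, zero_add]; exact h2
    · exact ⟨y₂, h4, h2⟩
  · exact ⟨y₁, h1, h3⟩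

lemma exists_NG_map_aux {u w : ι → F} (h : S.B u w ≠ 0) :
    ∃ g ∈ S.NG, (g : Matrix ι ι F) *ᵥ u = w := by
  refine ⟨S.T (w - u) (S.B u w)⁻¹, S.T_mem_NG _ _, ?_⟩
  rw [S.T_mulVec, S.B_sub_right, S.B_self, sub_zero, inv_mul_cancel₀ h, S.φ_one_mulVec]
  abel

/-- `NG` is transitive on non-zero vectors. -/
theorem exists_NG_map (hf : Cfsg.Geo.IsSymplecticForm f) {u w : ι → F} (hu : u ≠ 0) (hw : w ≠ 0) :
    ∃ g ∈ S.NG, (g : Matrix ι ι F) *ᵥ u = w := by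
  by_cases h : S.B u w = 0
  · obtain ⟨y, hy1, hy2⟩ := S.exists_two_ne hf hu hw
    obtain ⟨g₁, hg₁, hg₁u⟩ := S.exists_NG_map_aux hy1
    have hy3 : S.B y w ≠ 0 := by rw [S.B_skew]; exact neg_ne_zero.mpr hy2
    obtain ⟨g₂, hg₂, hg₂y⟩ := S.exists_NG_map_aux hy3
    refine ⟨g₂ * g₁, S.NG.mul_mem hg₂ hg₁, ?_⟩
    rw [gl_mul_mulVec, hg₁u, hg₂y]
  · exact S.exists_NG_map_aux h

/-! ### Matrices preserving all `L`-lines -/

/-- A matrix mapping every vector into its own `L`-line is in the image of `L`. -/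
theorem mem_range_of_forall_line (hf : Cfsg.Geo.IsSymplecticForm f) (A : Matrix ι ι F)
    (hA : ∀ w : ι → F, ∃ l : L, A *ᵥ w = S.φ l *ᵥ w) : ∃ l : L, A = S.φ l := by
  have key : ∀ (w w' : ι → F) (k k' : L), w ≠ 0 → w' ∉ S.line w →
      A *ᵥ w = S.φ k *ᵥ w → A *ᵥ w' = S.φ k' *ᵥ w' → k = k' := by
    intro w w' k k' hw hw' hk hk'
    obtain ⟨k'', hk''⟩ := hA (w + w')
    rw [Matrix.mulVec_add, hk, hk', Matrix.mulVec_add] at hk''
    have h1 : S.φ (k - k'') *ᵥ w = S.φ (k'' - k') *ᵥ w' := by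
      rw [S.φ_sub_mulVec, S.φ_sub_mulVec]
      have h2 := hk''
      rw [← sub_eq_zero] at h2 ⊢
      rw [← h2]; abel
    have h3 : k'' - k' = 0 := by
      by_contra h3
      apply hw'
      refine S.mem_line.mpr ⟨(k'' - k')⁻¹ * (k - k''), ?_⟩
      rw [S.φ_mul_mulVec, h1, S.φ_inv_cancel h3]
    rw [h3, S.φ_zero_mulVec] at h1
    have h4 := S.φ_eq_zero hw h1
    rw [sub_eq_zero] at h3 h4
    rw [h4, h3]
  by_cases hV : ∀ w : ι → F, w = 0
  · refine ⟨0, ?_⟩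
    apply Matrix.mulVec_injective
    funext w
    rw [hV w, Matrix.mulVec_zero, Matrix.mulVec_zero]
  push Not at hV
  obtain ⟨w₀, hw₀⟩ := hV
  obtain ⟨k₀, hk₀⟩ := hA w₀
  refine ⟨k₀, ?_⟩
  apply Matrix.mulVec_injective
  funext w
  obtain ⟨k, hk⟩ := hA w
  by_cases hw : w ∈ S.line w₀
  · rcases eq_or_ne w 0 with rfl | hw0
    · rw [Matrix.mulVec_zero, Matrix.mulVec_zero]
    obtain ⟨y, hy⟩ := S.B_nondeg hf hw₀
    have hy' : y ∉ S.line w₀ := fun h => hy (S.B_line h)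
    obtain ⟨ky, hky⟩ := hA y
    have e1 := key w₀ y k₀ ky hw₀ hy' hk₀ hky
    have hy'' : y ∉ S.line w := by rw [S.line_eq_of_mem hw hw0]; exact hy'
    have e2 := key w y k ky hw0 hy'' hk hky
    rw [e1, ← e2]
    exact hk
  · rw [key w₀ w k₀ k hw₀ hw hk₀ hk]
    exact hk

/-! ### Riesz representation and dual vectors -/

omit [DecidableEq ι] in
/-- Every `F`-linear functional on `F^ι` is `f(·, z)`. -/
lemma exists_f_repr (hf : Cfsg.Geo.IsSymplecticForm f) (lam : (ι → F) →ₗ[F] F) :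
    ∃ z : ι → F, ∀ x, lam x = f x z := by
  let R : (ι → F) →ₗ[F] ((ι → F) →ₗ[F] F) := (bil hf.bilinear).flip
  have hR : ∀ z x, R z x = f x z := fun z x => rfl
  have hinj : Function.Injective R := by
    rw [← LinearMap.ker_eq_bot, LinearMap.ker_eq_bot']
    intro z hz
    by_contra hz0
    obtain ⟨⟨x, hx⟩, -⟩ := hf.nondegenerate z hz0
    apply hx
    rw [← hR, hz]
    rfl
  have hfin : Module.finrank F (ι → F) = Module.finrank F ((ι → F) →ₗ[F] F) :=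
    (Subspace.dual_finrank_eq).symm
  obtain ⟨z, hz⟩ := (LinearMap.injective_iff_surjective_of_finrank_eq_finrank hfin).mp hinj lam
  exact ⟨z, fun x => by rw [← hz, hR]⟩

/-- Riesz representation for `L`-linear functionals. -/
theorem exists_B_repr (hf : Cfsg.Geo.IsSymplecticForm f) (π : (ι → F) →ₗ[F] L)
    (hπ : ∀ (l : L) (x : ι → F), π (S.φ l *ᵥ x) = l * π x) : ∃ z : ι → F, ∀ x, π x = S.B x z := by
  obtain ⟨z, hz⟩ := exists_f_repr hf (S.β ∘ₗ π)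
  refine ⟨z, fun x => ?_⟩
  apply S.β_ext
  intro l
  rw [← hπ, ← S.f_act, ← hz]
  rfl

theorem exists_dual2 (hf : Cfsg.Geo.IsSymplecticForm f) {u w y : ι → F}
    (hy : ∀ a b : L, S.φ a *ᵥ u + S.φ b *ᵥ w ≠ y) :
    ∃ z : ι → F, S.B u z = 0 ∧ S.B w z = 0 ∧ S.B y z = 1 := by
  obtain ⟨ψ, hadd, hk, hu, hw, hy1⟩ := exists_dual_of_field (L := L)
    (S.φ : L →+* Matrix ι ι F) u w y hy
  have hk' : ∀ (l : L) (v : ι → F), ψ (S.φ l *ᵥ v) = l * ψ v := hk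
  let π : (ι → F) →ₗ[F] L :=
    { toFun := ψ
      map_add' := hadd
      map_smul' := fun c v => by
        rw [← S.φ_algebraMap_mulVec, hk', RingHom.id_apply, Algebra.smul_def] }
  obtain ⟨z, hz⟩ := S.exists_B_repr hf π hk'
  have hz' : ∀ x, ψ x = S.B x z := hz
  exact ⟨z, by rw [← hz', hu], by rw [← hz', hw], by rw [← hz', hy1]⟩

theorem exists_dual (hf : Cfsg.Geo.IsSymplecticForm f) {u y : ι → F} (hy : y ∉ S.line u) :
    ∃ z : ι → F, S.B u z = 0 ∧ S.B y z = 1 := by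
  obtain ⟨z, h1, -, h3⟩ := S.exists_dual2 hf (u := u) (w := 0) (y := y) (fun a b h => hy (by
    rw [Matrix.mulVec_zero, add_zero] at h
    exact ⟨a, h⟩))
  exact ⟨z, h1, h3⟩

theorem exists_perp_two_ne (hf : Cfsg.Geo.IsSymplecticForm f) {u z z' : ι → F}
    (hz : z ∉ S.line u) (hz' : z' ∉ S.line u) :
    ∃ w : ι → F, S.B u w = 0 ∧ S.B z w ≠ 0 ∧ S.B z' w ≠ 0 := by
  obtain ⟨w₁, h1, h2⟩ := S.exists_dual hf hz
  obtain ⟨w₂, h3, h4⟩ := S.exists_dual hf hz'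
  by_cases h5 : S.B z' w₁ = 0
  · by_cases h6 : S.B z w₂ = 0
    · refine ⟨w₁ + w₂, ?_, ?_, ?_⟩
      · rw [S.B_add_right, h1, h3, add_zero]
      · rw [S.B_add_right, h2, h6, add_zero]; exact one_ne_zero
      · rw [S.B_add_right, h5, h4, zero_add]; exact one_ne_zero
    · exact ⟨w₂, h3, h6, by rw [h4]; exact one_ne_zero⟩
  · exact ⟨w₁, h1, by rw [h2]; exact one_ne_zero, h5⟩

/-- A torus element: some element of `NG` acts on `u` as multiplication by `κ`. -/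
theorem exists_NG_torus (hf : Cfsg.Geo.IsSymplecticForm f) {u : ι → F} (hu : u ≠ 0) {κ : L}
    (hκ : κ ≠ 0) : ∃ g ∈ S.NG, (g : Matrix ι ι F) *ᵥ u = S.φ κ *ᵥ u :=
  S.exists_NG_map hf hu (S.φ_mulVec_ne_zero hκ hu)

end KS

end Cfsg.Agent.Lib.Helper71.SpK
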