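import Mathlib
import Cfsg.Prelude.Def_GeometricClasses
import Cfsg.Agent.Lib.Helper71.SpK1
import Cfsg.Agent.Lib.Helper52.Siegel

/-!
# Extension-field subgroups of orthogonal groups: abstract setting (helper71, for S5701)

`F` is a field of characteristic not two, `Q` a quadratic form on `V = ι → F` with non-degenerate
polar form `f`.  `L` is a field extension of `F` acting on `V` through `φ : L →ₐ[F] Matrix ι ι F`,
and `B : V → V → L` is an `L`-valued symmetric `L`-bilinear form with `f = β ∘ B` for a non-zero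
`F`-linear functional `β` on `L`.  This file sets up the basic API, the group `NO` of `L`-linear
elements of `Ω(Q)`, `L`-lines, the family `InW` of images under `M` of singular `L`-lines, and
the predicates `EM`, `ZW`, `Cfg2` used in the proof that `N_Ω(L)` is maximal in `Ω(Q)`.
-/

set_option autoImplicit false
set_option linter.unusedSectionVars false

namespace Cfsg.Agent.Lib.Helper71.OK

open Matrix Cfsg.Agent.Lib.Helper71.SpK

variable {ι : Type} [Fintype ι] [DecidableEq ι] {F : Type*} [Field F]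

/-- A field `L ⊇ F` acting on `F^ι`, with an `L`-valued symmetric form `B` such that
`f = β ∘ B`. -/
structure KO (f : (ι → F) → (ι → F) → F) (L : Type*) [Field L] [Algebra F L] where
  φ : L →ₐ[F] Matrix ι ι F
  B : (ι → F) → (ι → F) → L
  β : L →ₗ[F] F
  β_ne : β ≠ 0
  B_add : ∀ x y u, B (x + y) u = B x u + B y u
  B_act : ∀ (l : L) (x u : ι → F), B (φ l *ᵥ x) u = l * B x u
  B_symm : ∀ x u, B x u = B u x
  β_B : ∀ x u, β (B x u) = f x u

namespace KO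

variable {f : (ι → F) → (ι → F) → F} {L : Type*} [Field L] [Algebra F L] (S : KO f L)

/-! ### The action of `L` -/

lemma φ_mul_mulVec (a b : L) (x : ι → F) : S.φ (a * b) *ᵥ x = S.φ a *ᵥ (S.φ b *ᵥ x) := by
  rw [map_mul, Matrix.mulVec_mulVec]

lemma φ_one_mulVec (x : ι → F) : S.φ 1 *ᵥ x = x := by rw [map_one, Matrix.one_mulVec]

lemma φ_zero_mulVec (x : ι → F) : S.φ 0 *ᵥ x = 0 := by rw [map_zero, Matrix.zero_mulVec]

lemma φ_add_mulVec (a b : L) (x : ι → F) : S.φ (a + b) *ᵥ x = S.φ a *ᵥ x + S.φ b *ᵥ x := by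
  rw [map_add, Matrix.add_mulVec]

lemma φ_neg_mulVec (a : L) (x : ι → F) : S.φ (-a) *ᵥ x = -(S.φ a *ᵥ x) := by
  rw [map_neg, Matrix.neg_mulVec]

lemma φ_sub_mulVec (a b : L) (x : ι → F) : S.φ (a - b) *ᵥ x = S.φ a *ᵥ x - S.φ b *ᵥ x := by
  rw [map_sub, Matrix.sub_mulVec]

lemma φ_smul_mulVec (c : F) (a : L) (x : ι → F) : S.φ (c • a) *ᵥ x = c • (S.φ a *ᵥ x) := by
  rw [map_smul, Matrix.smul_mulVec]

lemma φ_algebraMap_mulVec (c : F) (x : ι → F) : S.φ (algebraMap F L c) *ᵥ x = c • x := by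
  rw [AlgHom.commutes, Algebra.algebraMap_eq_smul_one, Matrix.smul_mulVec, Matrix.one_mulVec]

lemma φ_inv_cancel {a : L} (ha : a ≠ 0) (x : ι → F) : S.φ a⁻¹ *ᵥ (S.φ a *ᵥ x) = x := by
  rw [← S.φ_mul_mulVec, inv_mul_cancel₀ ha, S.φ_one_mulVec]

lemma φ_cancel_inv {a : L} (ha : a ≠ 0) (x : ι → F) : S.φ a *ᵥ (S.φ a⁻¹ *ᵥ x) = x := by
  rw [← S.φ_mul_mulVec, mul_inv_cancel₀ ha, S.φ_one_mulVec]

lemma φ_eq_zero {a : L} {x : ι → F} (hx : x ≠ 0) (h : S.φ a *ᵥ x = 0) : a = 0 := by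
  by_contra ha
  apply hx
  rw [← S.φ_inv_cancel ha x, h, Matrix.mulVec_zero]

lemma φ_mulVec_ne_zero {a : L} {x : ι → F} (ha : a ≠ 0) (hx : x ≠ 0) : S.φ a *ᵥ x ≠ 0 :=
  fun h => ha (S.φ_eq_zero hx h)

lemma φ_mulVec_inj {a b : L} {x : ι → F} (hx : x ≠ 0) (h : S.φ a *ᵥ x = S.φ b *ᵥ x) : a = b := by
  have h1 : S.φ (a - b) *ᵥ x = 0 := by rw [S.φ_sub_mulVec, h, sub_self]
  exact sub_eq_zero.mp (S.φ_eq_zero hx h1)

lemma φ_mulVec_add (a : L) (x y : ι → F) : S.φ a *ᵥ (x + y) = S.φ a *ᵥ x + S.φ a *ᵥ y :=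
  Matrix.mulVec_add _ _ _

lemma φ_mulVec_smul (a : L) (c : F) (x : ι → F) : S.φ a *ᵥ (c • x) = c • (S.φ a *ᵥ x) :=
  Matrix.mulVec_smul _ _ _

/-! ### The form `B` -/

lemma B_zero_left (u : ι → F) : S.B 0 u = 0 := by
  have h := S.B_act 0 0 u
  rw [map_zero, Matrix.zero_mulVec, zero_mul] at h
  exact h

lemma B_zero_right (x : ι → F) : S.B x 0 = 0 := by rw [S.B_symm, S.B_zero_left]

lemma B_add_right (x u w : ι → F) : S.B x (u + w) = S.B x u + S.B x w := by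
  rw [S.B_symm, S.B_add, S.B_symm u x, S.B_symm w x]

lemma B_act_right (l : L) (x u : ι → F) : S.B x (S.φ l *ᵥ u) = l * S.B x u := by
  rw [S.B_symm, S.B_act, S.B_symm u x]

lemma B_neg_left (x u : ι → F) : S.B (-x) u = - S.B x u := by
  have h := S.B_add x (-x) u
  rw [add_neg_cancel, S.B_zero_left] at h
  linear_combination -h

lemma B_neg_right (x u : ι → F) : S.B x (-u) = - S.B x u := by
  rw [S.B_symm, S.B_neg_left, S.B_symm u x]

lemma B_sub_left (x y u : ι → F) : S.B (x - y) u = S.B x u - S.B y u := by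
  rw [sub_eq_add_neg, S.B_add, S.B_neg_left, sub_eq_add_neg]

lemma B_sub_right (x u w : ι → F) : S.B x (u - w) = S.B x u - S.B x w := by
  rw [sub_eq_add_neg, S.B_add_right, S.B_neg_right, sub_eq_add_neg]

lemma B_smul_left (c : F) (x u : ι → F) : S.B (c • x) u = algebraMap F L c * S.B x u := by
  rw [← S.φ_algebraMap_mulVec, S.B_act]

lemma B_smul_right (c : F) (x u : ι → F) : S.B x (c • u) = algebraMap F L c * S.B x u := by
  rw [← S.φ_algebraMap_mulVec, S.B_act_right]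

lemma f_eq (x u : ι → F) : f x u = S.β (S.B x u) := (S.β_B x u).symm

lemma f_act (l : L) (x u : ι → F) : f (S.φ l *ᵥ x) u = S.β (l * S.B x u) := by
  rw [← S.β_B, S.B_act]

lemma f_act_right (l : L) (x u : ι → F) : f x (S.φ l *ᵥ u) = S.β (l * S.B x u) := by
  rw [← S.β_B, S.B_act_right]

/-- The elements of `L` are self-adjoint for `f`. -/
lemma f_adj (l : L) (x u : ι → F) : f (S.φ l *ᵥ x) u = f x (S.φ l *ᵥ u) := by
  rw [S.f_act, S.f_act_right]

lemma f_symm (S : KO f L) (x u : ι → F) : f x u = f u x := by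
  rw [S.f_eq, S.f_eq, S.B_symm]

/-! ### The functional `β` -/

lemma β_nondeg {c : L} (h : ∀ l, S.β (c * l) = 0) : c = 0 := by
  by_contra hc
  apply S.β_ne
  ext l
  have h1 := h (c⁻¹ * l)
  rw [← mul_assoc, mul_inv_cancel₀ hc, one_mul] at h1
  rw [h1]
  rfl

lemma β_ext {a b : L} (h : ∀ l, S.β (l * a) = S.β (l * b)) : a = b := by
  have h1 : a - b = 0 := S.β_nondeg (fun l => by rw [mul_comm, mul_sub, map_sub, h, sub_self])
  exact sub_eq_zero.mp h1

lemma exists_β_ne : ∃ l, S.β l ≠ 0 := by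
  by_contra h
  push Not at h
  exact S.β_ne (LinearMap.ext h)

lemma exists_β_eq {c : L} (hc : c ≠ 0) (t : F) : ∃ a : L, S.β (a * c) = t := by
  obtain ⟨l₀, hl₀⟩ := S.exists_β_ne
  refine ⟨((t / S.β l₀) • l₀) * c⁻¹, ?_⟩
  rw [mul_assoc, inv_mul_cancel₀ hc, mul_one, map_smul, smul_eq_mul, div_mul_cancel₀ _ hl₀]

/-- Every `F`-linear functional on `L` is `β (c * ·)`. -/
lemma β_repr [FiniteDimensional F L] (lam : L →ₗ[F] F) : ∃ c : L, ∀ l, lam l = S.β (c * l) := by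
  let Bm : L →ₗ[F] (L →ₗ[F] F) := (LinearMap.mul F L).compr₂ S.β
  have hinj : Function.Injective Bm := by
    rw [← LinearMap.ker_eq_bot, LinearMap.ker_eq_bot']
    intro c hc
    exact S.β_nondeg (fun l => LinearMap.congr_fun hc l)
  have hfin : Module.finrank F L = Module.finrank F (L →ₗ[F] F) :=
    (Subspace.dual_finrank_eq).symm
  obtain ⟨c, hc⟩ := (LinearMap.injective_iff_surjective_of_finrank_eq_finrank hfin).mp hinj lam
  exact ⟨c, fun l => by rw [← hc]; rfl⟩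

/-- If `B x u` is killed by `β (l * ·)` for all `l`, it vanishes: `f x (l u) = 0 ∀ l → B x u = 0`. -/
lemma B_eq_zero_of_f {x u : ι → F} (h : ∀ l : L, f x (S.φ l *ᵥ u) = 0) : S.B x u = 0 := by
  apply S.β_nondeg
  intro l
  rw [mul_comm, ← S.f_act_right]
  exact h l

/-! ### `L`-lines -/

/-- The `F`-linear map `l ↦ l u`. -/
def actL (u : ι → F) : L →ₗ[F] (ι → F) where
  toFun l := S.φ l *ᵥ u
  map_add' a b := S.φ_add_mulVec a b u
  map_smul' c a := by rw [S.φ_smul_mulVec]; rfl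

/-- The `L`-line through `u`, as an `F`-subspace. -/
def line (u : ι → F) : Submodule F (ι → F) := LinearMap.range (S.actL u)

lemma mem_line {u y : ι → F} : y ∈ S.line u ↔ ∃ l : L, S.φ l *ᵥ u = y := Iff.rfl

lemma self_mem_line (u : ι → F) : u ∈ S.line u := ⟨1, S.φ_one_mulVec u⟩

lemma act_mem_line (l : L) (u : ι → F) : S.φ l *ᵥ u ∈ S.line u := ⟨l, rfl⟩

lemma line_act_mem {u y : ι → F} (hy : y ∈ S.line u) (l : L) : S.φ l *ᵥ y ∈ S.line u := by
  obtain ⟨a, rfl⟩ := S.mem_line.mp hy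
  exact ⟨l * a, S.φ_mul_mulVec l a u⟩

lemma actL_injective {u : ι → F} (hu : u ≠ 0) : Function.Injective (S.actL u) :=
  fun _ _ h => S.φ_mulVec_inj hu h

lemma finrank_line {u : ι → F} (hu : u ≠ 0) :
    Module.finrank F ↥(S.line u) = Module.finrank F L :=
  LinearMap.finrank_range_of_inj (S.actL_injective hu)

lemma B_line {u y : ι → F} (hu : S.B u u = 0) (hy : y ∈ S.line u) : S.B y u = 0 := by
  obtain ⟨a, rfl⟩ := S.mem_line.mp hy
  rw [S.B_act, hu, mul_zero]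

lemma B_line_line {u y y' : ι → F} (hu : S.B u u = 0) (hy : y ∈ S.line u) (hy' : y' ∈ S.line u) :
    S.B y y' = 0 := by
  obtain ⟨a, rfl⟩ := S.mem_line.mp hy
  obtain ⟨b, rfl⟩ := S.mem_line.mp hy'
  rw [S.B_act, S.B_act_right, hu, mul_zero, mul_zero]

lemma f_line_line {u y y' : ι → F} (hu : S.B u u = 0) (hy : y ∈ S.line u) (hy' : y' ∈ S.line u) :
    f y y' = 0 := by
  rw [← S.β_B, S.B_line_line hu hy hy', map_zero]

/-- `B x u = 0` implies `B x y = 0` and `f x y = 0` for every `y` on the line of `u`. -/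
lemma B_of_line {u x y : ι → F} (hx : S.B x u = 0) (hy : y ∈ S.line u) : S.B x y = 0 := by
  obtain ⟨a, rfl⟩ := S.mem_line.mp hy
  rw [S.B_act_right, hx, mul_zero]

lemma f_of_line {u x y : ι → F} (hx : S.B x u = 0) (hy : y ∈ S.line u) : f x y = 0 := by
  rw [← S.β_B, S.B_of_line hx hy, map_zero]

/-- `x` is `f`-orthogonal to the whole line of `u` iff `B x u = 0`. -/
lemma B_eq_zero_iff_line {u x : ι → F} : S.B x u = 0 ↔ ∀ y ∈ S.line u, f x y = 0 :=
  ⟨fun h _ hy => S.f_of_line h hy,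
    fun h => S.B_eq_zero_of_f (fun l => h _ (S.act_mem_line l u))⟩

lemma line_le_of_mem {u w : ι → F} (hw : w ∈ S.line u) : S.line w ≤ S.line u := by
  intro y hy
  obtain ⟨l, rfl⟩ := S.mem_line.mp hy
  exact S.line_act_mem hw l

lemma line_eq_of_mem {u w : ι → F} (hw : w ∈ S.line u) (hw0 : w ≠ 0) : S.line w = S.line u := by
  apply le_antisymm (S.line_le_of_mem hw)
  obtain ⟨a, rfl⟩ := S.mem_line.mp hw
  have ha : a ≠ 0 := by
    rintro rfl
    exact hw0 (S.φ_zero_mulVec u)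
  apply S.line_le_of_mem
  exact ⟨a⁻¹, S.φ_inv_cancel ha u⟩

/-! ### `L`-reflections, `L`-Eichler maps, perps (plain functions and predicates) -/

/-- The `L`-reflection in the non-singular vector `a`, as a plain function:
`x ↦ x - 2 B(x,a) B(a,a)⁻¹ a`. -/
def sr (a x : ι → F) : ι → F := x - S.φ (2 * S.B x a * (S.B a a)⁻¹) *ᵥ a

/-- The `L`-Eichler map `ρ_{u,z}` (for `B u u = 0`, `B u z = 0`), as a plain function:
`x ↦ x + B(x,z) u - B(x,u) z - ½ B(z,z) B(x,u) u`. -/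
def rho (u z x : ι → F) : ι → F :=
  x + S.φ (S.B x z) *ᵥ u - S.φ (S.B x u) *ᵥ z - (2⁻¹ : F) • (S.φ (S.B z z * S.B x u) *ᵥ u)

lemma rho_of_perp {u z x : ι → F} (hx : S.B x u = 0) :
    S.rho u z x = x + S.φ (S.B x z) *ᵥ u := by
  unfold rho
  rw [hx, mul_zero, S.φ_zero_mulVec, S.φ_zero_mulVec, smul_zero, sub_zero, sub_zero]

lemma rho_self {u z : ι → F} (hu : S.B u u = 0) (hz : S.B u z = 0) : S.rho u z u = u := by
  rw [S.rho_of_perp hu, hz, S.φ_zero_mulVec, add_zero]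

/-- The `F`-linear map `x ↦ B x a`. -/
def Bl (a : ι → F) : (ι → F) →ₗ[F] L where
  toFun x := S.B x a
  map_add' x y := S.B_add x y a
  map_smul' c x := by rw [S.B_smul_left, RingHom.id_apply, Algebra.smul_def]

lemma Bl_apply (a x : ι → F) : S.Bl a x = S.B x a := rfl

/-- `P ∩ a^⊥` (perp with respect to `B`). -/
def perp (P : Submodule F (ι → F)) (a : ι → F) : Submodule F (ι → F) :=
  P ⊓ LinearMap.ker (S.Bl a)

lemma mem_perp {P : Submodule F (ι → F)} {a x : ι → F} :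
    x ∈ S.perp P a ↔ x ∈ P ∧ S.B x a = 0 := by
  unfold perp
  rw [Submodule.mem_inf, LinearMap.mem_ker, S.Bl_apply]

/-- `P` is an `L`-subspace. -/
def Lsub (P : Submodule F (ι → F)) : Prop := ∀ (l : L) (x : ι → F), x ∈ P → S.φ l *ᵥ x ∈ P

/-- `B` is non-degenerate on `P`. -/
def Nd (P : Submodule F (ι → F)) : Prop := ∀ x ∈ P, x ≠ 0 → ∃ y ∈ P, S.B x y ≠ 0

lemma Lsub_top : S.Lsub ⊤ := fun _ _ _ => Submodule.mem_top

lemma Lsub_perp {P : Submodule F (ι → F)} (hP : S.Lsub P) (a : ι → F) : S.Lsub (S.perp P a) := by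
  intro l x hx
  rw [S.mem_perp] at hx ⊢
  exact ⟨hP l x hx.1, by rw [S.B_act, hx.2, mul_zero]⟩

lemma Lsub_line (u : ι → F) : S.Lsub (S.line u) := fun l _ hx => S.line_act_mem hx l

/-! ### `L`-linear invertible matrices -/

/-- The invertible matrices commuting with the action of `L`. -/
def CL : Subgroup (GL ι F) where
  carrier := {g | ∀ l : L, (g : Matrix ι ι F) * S.φ l = S.φ l * (g : Matrix ι ι F)}
  mul_mem' := by
    intro a b ha hb l
    rw [Units.val_mul, mul_assoc, hb l, ← mul_assoc, ha l, mul_assoc]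
  one_mem' := fun l => by rw [Units.val_one, one_mul, mul_one]
  inv_mem' := by
    intro a ha l
    have h1 : ((a⁻¹ : GL ι F) : Matrix ι ι F) * a = 1 := by
      rw [← Units.val_mul, inv_mul_cancel, Units.val_one]
    have h2 : (a : Matrix ι ι F) * ((a⁻¹ : GL ι F) : Matrix ι ι F) = 1 := by
      rw [← Units.val_mul, mul_inv_cancel, Units.val_one]
    calc ((a⁻¹ : GL ι F) : Matrix ι ι F) * S.φ l
        = ((a⁻¹ : GL ι F) : Matrix ι ι F) * S.φ l *
          ((a : Matrix ι ι F) * ((a⁻¹ : GL ι F) : Matrix ι ι F)) := by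
          rw [h2, mul_one]
      _ = ((a⁻¹ : GL ι F) : Matrix ι ι F) * ((a : Matrix ι ι F) * S.φ l)
          * ((a⁻¹ : GL ι F) : Matrix ι ι F) := by
          rw [ha l]; simp only [mul_assoc]
      _ = S.φ l * ((a⁻¹ : GL ι F) : Matrix ι ι F) := by
          rw [← mul_assoc, h1, one_mul]

lemma mem_CL {g : GL ι F} :
    g ∈ S.CL ↔ ∀ l : L, (g : Matrix ι ι F) * S.φ l = S.φ l * (g : Matrix ι ι F) := Iff.rfl

lemma CL_act {g : GL ι F} (hg : g ∈ S.CL) (l : L) (x : ι → F) :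
    (g : Matrix ι ι F) *ᵥ (S.φ l *ᵥ x) = S.φ l *ᵥ ((g : Matrix ι ι F) *ᵥ x) := by
  rw [Matrix.mulVec_mulVec, Matrix.mulVec_mulVec, hg l]

/-- A matrix commuting with `L` on vectors is in `CL`. -/
lemma mem_CL_of_act {g : GL ι F}
    (h : ∀ (l : L) (x : ι → F), (g : Matrix ι ι F) *ᵥ (S.φ l *ᵥ x) =
      S.φ l *ᵥ ((g : Matrix ι ι F) *ᵥ x)) : g ∈ S.CL := by
  intro l
  apply Matrix.mulVec_injective
  funext x
  rw [← Matrix.mulVec_mulVec, ← Matrix.mulVec_mulVec, h]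

lemma CL_le_normalizer : S.CL ≤ Cfsg.Geo.subalgebraNormalizer S.φ.range := by
  intro g hg
  apply mem_normalizer_of_comm
  rintro k ⟨l, rfl⟩
  exact hg l

lemma CL_line {g : GL ι F} (hg : g ∈ S.CL) (u : ι → F) :
    gim (S.line u) g = S.line ((g : Matrix ι ι F) *ᵥ u) := by
  ext y
  rw [mem_gim']
  constructor
  · rintro ⟨w, hw, rfl⟩
    obtain ⟨l, rfl⟩ := S.mem_line.mp hw
    exact ⟨l, (S.CL_act hg l u).symm⟩
  · intro hy
    obtain ⟨l, rfl⟩ := S.mem_line.mp hy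
    exact ⟨_, S.act_mem_line l u, S.CL_act hg l u⟩

end KO

/-! ### The quadratic form -/

section Quad

variable (Q : QuadraticForm F (ι → F))

/-- Elements of `Ω(Q)` preserve `Q`. -/
lemma omega_Q {g : GL ι F} (hg : g ∈ Cfsg.Geo.omegaGL ⇑Q) (x : ι → F) :
    Q ((g : Matrix ι ι F) *ᵥ x) = Q x := by
  obtain ⟨g', -, rfl⟩ := hg
  exact Cfsg.Agent.Lib.Helper51.isometry_apply Q g' x

/-- Elements of `Ω(Q)` preserve the polar form. -/
lemma omega_polar {g : GL ι F} (hg : g ∈ Cfsg.Geo.omegaGL ⇑Q) (x y : ι → F) :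
    QuadraticMap.polar ⇑Q ((g : Matrix ι ι F) *ᵥ x) ((g : Matrix ι ι F) *ᵥ y) =
      QuadraticMap.polar ⇑Q x y := by
  obtain ⟨g', -, rfl⟩ := hg
  exact Cfsg.Agent.Lib.Helper51.isometry_polar Q g' x y

lemma omega_polar_inv {g : GL ι F} (hg : g ∈ Cfsg.Geo.omegaGL ⇑Q) (x y : ι → F) :
    QuadraticMap.polar ⇑Q (((g⁻¹ : GL ι F) : Matrix ι ι F) *ᵥ x) y =
      QuadraticMap.polar ⇑Q x ((g : Matrix ι ι F) *ᵥ y) := by
  rw [← omega_polar Q hg, gl_mulVec_inv']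

/-- Non-degeneracy of the polar form, in elementary terms. -/
lemma polar_nondeg (hQ : (QuadraticMap.polarBilin Q).Nondegenerate) {u : ι → F} (hu : u ≠ 0) :
    ∃ x, QuadraticMap.polar ⇑Q x u ≠ 0 := by
  by_contra h
  push Not at h
  apply hu
  apply hQ.2
  intro x
  rw [QuadraticMap.polarBilin_apply_apply]
  exact h x

/-- `EM Q M v w`: the Eichler transformation `ρ_{v,w}` (matrix `eichMat Q v w`,
`x ↦ x + f(w,x) v - f(v,x) w - Q(w) f(v,x) v`) lies in `M`. -/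
def EM (M : Subgroup (GL ι F)) (v w : ι → F) : Prop :=
  ∃ γ ∈ M, (γ : Matrix ι ι F) = Cfsg.Agent.Lib.Helper52.eichMat Q v w

end Quad

namespace KO

variable {Q : QuadraticForm F (ι → F)} {L : Type*} [Field L] [Algebra F L]
variable (S : KO (QuadraticMap.polar ⇑Q) L)

/-- `Q x = β (B x x) / 2`. -/
lemma two_Q (x : ι → F) : 2 * Q x = S.β (S.B x x) := by
  rw [S.β_B, QuadraticMap.polar_self]; simp

lemma Q_eq_zero (h2 : (2 : F) ≠ 0) {x : ι → F} (hx : S.B x x = 0) : Q x = 0 := by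
  have h := S.two_Q x
  rw [hx, map_zero] at h
  exact (mul_eq_zero.mp h).resolve_left h2

lemma B_nondeg (hQ : (QuadraticMap.polarBilin Q).Nondegenerate) {u : ι → F} (hu : u ≠ 0) :
    ∃ x, S.B x u ≠ 0 := by
  obtain ⟨x, hx⟩ := polar_nondeg Q hQ hu
  refine ⟨x, fun h => hx ?_⟩
  rw [← S.β_B, h, map_zero]

lemma Nd_top (hQ : (QuadraticMap.polarBilin Q).Nondegenerate) : S.Nd ⊤ := by
  intro x _ hx
  obtain ⟨y, hy⟩ := S.B_nondeg hQ hx
  exact ⟨y, Submodule.mem_top, by rwa [S.B_symm]⟩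

variable (Q) in
/-- The `L`-linear elements of `Ω(Q)`. -/
def NO : Subgroup (GL ι F) := S.CL ⊓ Cfsg.Geo.omegaGL ⇑Q

lemma mem_NO {g : GL ι F} : g ∈ S.NO Q ↔ g ∈ S.CL ∧ g ∈ Cfsg.Geo.omegaGL ⇑Q := Subgroup.mem_inf

lemma NO_act {g : GL ι F} (hg : g ∈ S.NO Q) (l : L) (x : ι → F) :
    (g : Matrix ι ι F) *ᵥ (S.φ l *ᵥ x) = S.φ l *ᵥ ((g : Matrix ι ι F) *ᵥ x) :=
  S.CL_act (S.mem_NO.mp hg).1 l x

lemma NO_f {g : GL ι F} (hg : g ∈ S.NO Q) (x y : ι → F) :
    QuadraticMap.polar ⇑Q ((g : Matrix ι ι F) *ᵥ x) ((g : Matrix ι ι F) *ᵥ y) =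
      QuadraticMap.polar ⇑Q x y := omega_polar Q (S.mem_NO.mp hg).2 x y

lemma NO_B {g : GL ι F} (hg : g ∈ S.NO Q) (x y : ι → F) :
    S.B ((g : Matrix ι ι F) *ᵥ x) ((g : Matrix ι ι F) *ᵥ y) = S.B x y := by
  apply S.β_ext
  intro l
  rw [← S.B_act, ← S.B_act, S.β_B, S.β_B, ← S.NO_act hg, S.NO_f hg]

lemma NO_le_normalizer : S.NO Q ≤ Cfsg.Geo.subalgebraNormalizer S.φ.range :=
  fun _ hg => S.CL_le_normalizer (S.mem_NO.mp hg).1

lemma NO_le_omega : S.NO Q ≤ Cfsg.Geo.omegaGL ⇑Q := fun _ hg => (S.mem_NO.mp hg).2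

lemma NO_line {g : GL ι F} (hg : g ∈ S.NO Q) (u : ι → F) :
    gim (S.line u) g = S.line ((g : Matrix ι ι F) *ᵥ u) := S.CL_line (S.mem_NO.mp hg).1 u

/-- `InW S M W`: `W` is the image under an element of `M` of a singular `L`-line. -/
def InW (M : Subgroup (GL ι F)) (W : Submodule F (ι → F)) : Prop :=
  ∃ g ∈ M, ∃ v : ι → F, v ≠ 0 ∧ S.B v v = 0 ∧ W = gim (S.line v) g

lemma InW_line (M : Subgroup (GL ι F)) {v : ι → F} (hv : v ≠ 0) (hvv : S.B v v = 0) :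
    S.InW M (S.line v) := ⟨1, M.one_mem, v, hv, hvv, (gim_one _).symm⟩

lemma InW_gim {M : Subgroup (GL ι F)} {W : Submodule F (ι → F)} (hW : S.InW M W) {g : GL ι F}
    (hg : g ∈ M) : S.InW M (gim W g) := by
  obtain ⟨g₁, hg₁, v, hv, hvv, rfl⟩ := hW
  exact ⟨g * g₁, M.mul_mem hg hg₁, v, hv, hvv, (gim_mul _ _ _).symm⟩

lemma InW_finrank {M : Subgroup (GL ι F)} {W : Submodule F (ι → F)} (hW : S.InW M W) :
    Module.finrank F ↥W = Module.finrank F L := by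
  obtain ⟨g₁, -, v, hv, -, rfl⟩ := hW
  rw [finrank_gim, S.finrank_line hv]

/-- Members of `InW` are totally singular for the polar form. -/
lemma InW_polar {M : Subgroup (GL ι F)} (hMΩ : M ≤ Cfsg.Geo.omegaGL ⇑Q)
    {W : Submodule F (ι → F)} (hW : S.InW M W) {y y' : ι → F} (hy : y ∈ W) (hy' : y' ∈ W) :
    QuadraticMap.polar ⇑Q y y' = 0 := by
  obtain ⟨g₁, hg₁, v, hv, hvv, rfl⟩ := hW
  obtain ⟨w, hw, rfl⟩ := mem_gim'.mp hy
  obtain ⟨w', hw', rfl⟩ := mem_gim'.mp hy'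
  rw [omega_polar Q (hMΩ hg₁)]
  exact S.f_line_line hvv hw hw'

/-- `ZW S Q M u`: all Eichler transformations `ρ_{au,bu}` (`a b : L`) lie in `M`. -/
def ZW (M : Subgroup (GL ι F)) (u : ι → F) : Prop :=
  ∀ a b : L, EM Q M (S.φ a *ᵥ u) (S.φ b *ᵥ u)

/-- Configuration (ii): `g ∈ M` maps the singular `L`-line through `u` into its perp, meeting
it in a hyperplane. -/
def Cfg2 (M : Subgroup (GL ι F)) (u : ι → F) (g : GL ι F) : Prop :=
  g ∈ M ∧ u ≠ 0 ∧ S.B u u = 0 ∧ (∀ y ∈ gim (S.line u) g, S.B y u = 0) ∧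
    Module.finrank F ↥(S.line u ⊓ gim (S.line u) g) + 1 = Module.finrank F L

/-! ### Riesz representation and dual vectors -/

/-- Every `F`-linear functional on `F^ι` is `f(·, z)`. -/
lemma exists_f_repr (hQ : (QuadraticMap.polarBilin Q).Nondegenerate) (lam : (ι → F) →ₗ[F] F) :
    ∃ z : ι → F, ∀ x, lam x = QuadraticMap.polar ⇑Q x z := by
  let R : (ι → F) →ₗ[F] ((ι → F) →ₗ[F] F) := (QuadraticMap.polarBilin Q).flip
  have hR : ∀ z x, R z x = QuadraticMap.polar ⇑Q x z := fun z x => rfl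
  have hinj : Function.Injective R := by
    rw [← LinearMap.ker_eq_bot, LinearMap.ker_eq_bot']
    intro z hz
    by_contra hz0
    obtain ⟨x, hx⟩ := polar_nondeg Q hQ hz0
    apply hx
    rw [← hR, hz]
    rfl
  have hfin : Module.finrank F (ι → F) = Module.finrank F ((ι → F) →ₗ[F] F) :=
    (Subspace.dual_finrank_eq).symm
  obtain ⟨z, hz⟩ := (LinearMap.injective_iff_surjective_of_finrank_eq_finrank hfin).mp hinj lam
  exact ⟨z, fun x => by rw [← hz, hR]⟩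

/-- Riesz representation for `L`-linear functionals. -/
theorem exists_B_repr (hQ : (QuadraticMap.polarBilin Q).Nondegenerate) (π : (ι → F) →ₗ[F] L)
    (hπ : ∀ (l : L) (x : ι → F), π (S.φ l *ᵥ x) = l * π x) : ∃ z : ι → F, ∀ x, π x = S.B x z := by
  obtain ⟨z, hz⟩ := exists_f_repr hQ (S.β ∘ₗ π)
  refine ⟨z, fun x => ?_⟩
  apply S.β_ext
  intro l
  rw [← hπ, ← S.f_act, ← hz]
  rfl

/-- A vector `z` orthogonal to `u`, `w` with `B y z = 1`, for `y` outside `L u + L w`. -/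
theorem exists_dual2 (hQ : (QuadraticMap.polarBilin Q).Nondegenerate) {u w y : ι → F}
    (hy : ∀ a b : L, S.φ a *ᵥ u + S.φ b *ᵥ w ≠ y) :
    ∃ z : ι → F, S.B u z = 0 ∧ S.B w z = 0 ∧ S.B y z = 1 := by
  obtain ⟨ψ, hadd, hk, hu, hw, hy1⟩ := exists_dual_of_field (L := L)
    (S.φ : L →+* Matrix ι ι F) u w y hy
  have hk' : ∀ (l : L) (v : ι → F), ψ (S.φ l *ᵥ v) = l * ψ v := hk
  let π : (ι → F) →ₗ[F] L :=
    { toFun := ψ
      map_add' := hadd
      map_smul' := fun c v => by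
        rw [← S.φ_algebraMap_mulVec, hk', RingHom.id_apply, Algebra.smul_def] }
  obtain ⟨z, hz⟩ := S.exists_B_repr hQ π hk'
  have hz' : ∀ x, ψ x = S.B x z := hz
  exact ⟨z, by rw [← hz', hu], by rw [← hz', hw], by rw [← hz', hy1]⟩

/-- A vector `z` orthogonal to `u` with `B y z = 1`, for `y` outside `L u`. -/
theorem exists_dual (hQ : (QuadraticMap.polarBilin Q).Nondegenerate) {u y : ι → F}
    (hy : y ∉ S.line u) : ∃ z : ι → F, S.B u z = 0 ∧ S.B y z = 1 := by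
  obtain ⟨z, h1, -, h3⟩ := S.exists_dual2 hQ (u := u) (w := 0) (y := y) (fun a b h => hy (by
    rw [Matrix.mulVec_zero, add_zero] at h
    exact ⟨a, h⟩))
  exact ⟨z, h1, h3⟩

end KO

end Cfsg.Agent.Lib.Helper71.OK
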