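import Mathlib
import Cfsg.Prelude.Def_GeometricClasses
import Cfsg.Agent.Lib.Helper71.OK0

/-!
# Extension-field subgroups of orthogonal groups: further vocabulary (helper71, for S5701)

`Orth` (polar-orthogonality of two subspaces), `Cfg2D` (configuration (ii) with its data
`c'`, `z₀`), `HP` (the Eichler transformations `ρ_{v, c v₂}` with `β c = 0` for hyperbolic pairs
`v`, `v₂` lie in `M`).
-/

set_option autoImplicit false
set_option linter.unusedSectionVars false

namespace Cfsg.Agent.Lib.Helper71.OK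

open Matrix Cfsg.Agent.Lib.Helper71.SpK

variable {ι : Type} [Fintype ι] [DecidableEq ι] {F : Type*} [Field F]

/-- Two subspaces are orthogonal for the polar form of `Q`. -/
def Orth (Q : QuadraticForm F (ι → F)) (W W' : Submodule F (ι → F)) : Prop :=
  ∀ y ∈ W, ∀ y' ∈ W', QuadraticMap.polar ⇑Q y y' = 0

lemma Orth_gim {Q : QuadraticForm F (ι → F)} {g : GL ι F} (hg : g ∈ Cfsg.Geo.omegaGL ⇑Q)
    {W W' : Submodule F (ι → F)} (h : Orth Q W W') : Orth Q (gim W g) (gim W' g) := by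
  intro y hy y' hy'
  obtain ⟨w, hw, rfl⟩ := mem_gim'.mp hy
  obtain ⟨w', hw', rfl⟩ := mem_gim'.mp hy'
  rw [omega_polar Q hg]
  exact h w hw w' hw'

namespace KO

variable {Q : QuadraticForm F (ι → F)} {L : Type*} [Field L] [Algebra F L]
variable (S : KO (QuadraticMap.polar ⇑Q) L)

/-- `Orth (line u) W` says that `W` lies in the `B`-perp of `u`. -/
lemma Orth_line_iff {u : ι → F} {W : Submodule F (ι → F)} :
    Orth Q (S.line u) W ↔ ∀ y ∈ W, S.B y u = 0 := by
  constructor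
  · intro h y hy
    exact S.B_eq_zero_iff_line.mpr (fun w hw => by
      rw [S.f_symm]
      exact h w hw y hy)
  · intro h w hw y hy
    rw [S.f_symm]
    exact S.B_eq_zero_iff_line.mp (h y hy) w hw

/-- Configuration (ii) together with its data: `h (k u) ≡ β (c' k) z₀` modulo `L u ∩ h (L u)`,
and `B (h⁻¹ x) u = f(x, z₀) c'` for `x` in the perp of `u`. -/
def Cfg2D (M : Subgroup (GL ι F)) (u : ι → F) (h : GL ι F) (c' : L) (z₀ : ι → F) : Prop :=
  S.Cfg2 M u h ∧ c' ≠ 0 ∧ z₀ ∈ gim (S.line u) h ∧ z₀ ∉ S.line u ∧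
    (∀ k : L, ∃ d ∈ S.line u ⊓ gim (S.line u) h,
      (h : Matrix ι ι F) *ᵥ (S.φ k *ᵥ u) = d + S.β (c' * k) • z₀) ∧
    (∀ x : ι → F, S.B x u = 0 →
      S.B (((h⁻¹ : GL ι F) : Matrix ι ι F) *ᵥ x) u =
        algebraMap F L (QuadraticMap.polar ⇑Q x z₀) * c')

/-- For every hyperbolic pair `v`, `v₂` and every `c` with `β c = 0`, the Eichler transformation
`ρ_{v, c v₂}` lies in `M`. -/
def HP (M : Subgroup (GL ι F)) : Prop :=
  ∀ v v₂ : ι → F, S.B v v = 0 → S.B v₂ v₂ = 0 → S.B v v₂ = 1 →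
    ∀ c : L, S.β c = 0 → EM Q M v (S.φ c *ᵥ v₂)

end KO

end Cfsg.Agent.Lib.Helper71.OK
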