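import Mathlib
import Cfsg.Prelude.Def_GeometricClasses
import Cfsg.Agent.Lib.Helper97.Transv
import Cfsg.Agent.Lib.Helper97.TransvM

/-!
# Tensor product subgroup of SL: foundation (definitions and basic API)

`V = Fin a × Fin b → F` is `U ⊗ W` with `U = Fin a → F`, `W = Fin b → F`.
`pt u w` is the pure tensor, `ctr ψ` the contraction `1 ⊗ ψ : V → U`,
`fib w = U ⊗ w`, `NN` the Kronecker subgroup intersected with `SL`.
-/

set_option autoImplicit false

namespace Cfsg.Agent.Lib.Helper71.TP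

open Matrix
open scoped Kronecker

variable {a b : ℕ} {F : Type*} [Field F]

/-- The pure tensor `u ⊗ w`. -/
def pt (u : Fin a → F) (w : Fin b → F) : Fin a × Fin b → F := fun p => u p.1 * w p.2

/-- Contraction with `ψ` in the second factor: `1 ⊗ ψ : U ⊗ W → U`. -/
def ctr (ψ : Fin b → F) (v : Fin a × Fin b → F) : Fin a → F := fun i => ∑ j, v (i, j) * ψ j

@[simp] lemma pt_apply (u : Fin a → F) (w : Fin b → F) (p : Fin a × Fin b) :
    pt u w p = u p.1 * w p.2 := rfl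

@[simp] lemma ctr_apply (ψ : Fin b → F) (v : Fin a × Fin b → F) (i : Fin a) :
    ctr ψ v i = ∑ j, v (i, j) * ψ j := rfl

lemma pt_add_left (u u' : Fin a → F) (w : Fin b → F) : pt (u + u') w = pt u w + pt u' w := by
  ext p; simp [add_mul]

lemma pt_add_right (u : Fin a → F) (w w' : Fin b → F) : pt u (w + w') = pt u w + pt u w' := by
  ext p; simp [mul_add]

lemma pt_sub_left (u u' : Fin a → F) (w : Fin b → F) : pt (u - u') w = pt u w - pt u' w := by
  ext p; simp [sub_mul]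

lemma pt_sub_right (u : Fin a → F) (w w' : Fin b → F) : pt u (w - w') = pt u w - pt u w' := by
  ext p; simp [mul_sub]

lemma pt_smul_left (c : F) (u : Fin a → F) (w : Fin b → F) : pt (c • u) w = c • pt u w := by
  ext p; simp [mul_assoc]

lemma pt_smul_right (c : F) (u : Fin a → F) (w : Fin b → F) : pt u (c • w) = c • pt u w := by
  ext p; simp [mul_left_comm]

lemma pt_neg_left (u : Fin a → F) (w : Fin b → F) : pt (-u) w = - pt u w := by
  ext p; simp

lemma pt_neg_right (u : Fin a → F) (w : Fin b → F) : pt u (-w) = - pt u w := by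
  ext p; simp

@[simp] lemma pt_zero_left (w : Fin b → F) : pt (0 : Fin a → F) w = 0 := by
  ext p; simp

@[simp] lemma pt_zero_right (u : Fin a → F) : pt u (0 : Fin b → F) = 0 := by
  ext p; simp

lemma ctr_add (ψ : Fin b → F) (v v' : Fin a × Fin b → F) : ctr ψ (v + v') = ctr ψ v + ctr ψ v' := by
  ext i; simp [add_mul, Finset.sum_add_distrib]

lemma ctr_sub (ψ : Fin b → F) (v v' : Fin a × Fin b → F) : ctr ψ (v - v') = ctr ψ v - ctr ψ v' := by
  ext i; simp [sub_mul, Finset.sum_sub_distrib]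

lemma ctr_smul (ψ : Fin b → F) (c : F) (v : Fin a × Fin b → F) : ctr ψ (c • v) = c • ctr ψ v := by
  ext i; simp [Finset.mul_sum, mul_assoc]

@[simp] lemma ctr_zero (ψ : Fin b → F) : ctr ψ (0 : Fin a × Fin b → F) = 0 := by
  ext i; simp

lemma ctr_add_left (ψ ψ' : Fin b → F) (v : Fin a × Fin b → F) :
    ctr (ψ + ψ') v = ctr ψ v + ctr ψ' v := by
  ext i; simp [mul_add, Finset.sum_add_distrib]

lemma ctr_smul_left (c : F) (ψ : Fin b → F) (v : Fin a × Fin b → F) :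
    ctr (c • ψ) v = c • ctr ψ v := by
  ext i; simp [Finset.mul_sum, mul_left_comm]

@[simp] lemma ctr_zero_left (v : Fin a × Fin b → F) : ctr (0 : Fin b → F) v = 0 := by
  ext i; simp

/-- `(1 ⊗ ψ)(u ⊗ w) = ψ(w) u`. -/
lemma ctr_pt (ψ : Fin b → F) (u : Fin a → F) (w : Fin b → F) :
    ctr ψ (pt u w) = (ψ ⬝ᵥ w) • u := by
  ext i
  simp only [ctr_apply, pt_apply, Pi.smul_apply, smul_eq_mul, dotProduct, Finset.sum_mul]
  refine Finset.sum_congr rfl fun j _ => ?_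
  ring

/-- The contraction as a linear map. -/
def ctrL (ψ : Fin b → F) : (Fin a × Fin b → F) →ₗ[F] (Fin a → F) where
  toFun := ctr ψ
  map_add' := ctr_add ψ
  map_smul' := fun c v => by simp [ctr_smul]

@[simp] lemma ctrL_apply (ψ : Fin b → F) (v : Fin a × Fin b → F) : ctrL ψ v = ctr ψ v := rfl

/-- `u ↦ u ⊗ w` as a linear map. -/
def ptL (w : Fin b → F) : (Fin a → F) →ₗ[F] (Fin a × Fin b → F) where
  toFun := fun u => pt u w
  map_add' := fun u u' => pt_add_left u u' w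
  map_smul' := fun c u => by simp [pt_smul_left]

@[simp] lemma ptL_apply (w : Fin b → F) (u : Fin a → F) : ptL w u = pt u w := rfl

/-- The fibre `U ⊗ w`. -/
def fib (w : Fin b → F) : Submodule F (Fin a × Fin b → F) := LinearMap.range (ptL (a := a) w)

lemma mem_fib {w : Fin b → F} {v : Fin a × Fin b → F} : v ∈ fib w ↔ ∃ u : Fin a → F, v = pt u w := by
  constructor
  · rintro ⟨u, rfl⟩; exact ⟨u, rfl⟩
  · rintro ⟨u, rfl⟩; exact ⟨u, rfl⟩

lemma pt_mem_fib (u : Fin a → F) (w : Fin b → F) : pt u w ∈ fib w := mem_fib.mpr ⟨u, rfl⟩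

/-- Kronecker products act factorwise on pure tensors. -/
lemma kron_mulVec_pt (A : Matrix (Fin a) (Fin a) F) (B : Matrix (Fin b) (Fin b) F)
    (u : Fin a → F) (w : Fin b → F) : (A ⊗ₖ B) *ᵥ pt u w = pt (A *ᵥ u) (B *ᵥ w) := by
  ext ⟨i, j⟩
  simp only [Matrix.mulVec, dotProduct, Matrix.kroneckerMap_apply, pt_apply,
    Fintype.sum_prod_type, Finset.sum_mul, Finset.mul_sum]
  rw [Finset.sum_comm]
  apply Finset.sum_congr rfl
  intro i' _
  apply Finset.sum_congr rfl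
  intro j' _
  ring

/-- The general action of a Kronecker product, via contraction. -/
lemma ctr_kron_mulVec (ψ : Fin b → F) (A : Matrix (Fin a) (Fin a) F) (B : Matrix (Fin b) (Fin b) F)
    (v : Fin a × Fin b → F) : ctr ψ ((A ⊗ₖ B) *ᵥ v) = A *ᵥ ctr (ψ ᵥ* B) v := by
  ext i
  simp only [ctr_apply, Matrix.mulVec, dotProduct, Matrix.kroneckerMap_apply, Matrix.vecMul,
    Fintype.sum_prod_type, Finset.sum_mul, Finset.mul_sum]
  rw [Finset.sum_comm]
  refine Finset.sum_congr rfl fun i' _ => ?_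
  rw [Finset.sum_comm]
  apply Finset.sum_congr rfl
  intro j' _
  apply Finset.sum_congr rfl
  intro j _
  ring

/-- The matrix `α ⊗ (w ψᵀ)`. -/
def kv (α : Matrix (Fin a) (Fin a) F) (w ψ : Fin b → F) : Matrix (Fin a × Fin b) (Fin a × Fin b) F :=
  α ⊗ₖ (vecMulVec w ψ : Matrix (Fin b) (Fin b) F)

lemma kv_def (α : Matrix (Fin a) (Fin a) F) (w ψ : Fin b → F) :
    kv α w ψ = α ⊗ₖ (vecMulVec w ψ : Matrix (Fin b) (Fin b) F) := rfl

/-- `(α ⊗ w ψᵀ) v = (α (1 ⊗ ψ) v) ⊗ w`. -/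
lemma kv_mulVec (α : Matrix (Fin a) (Fin a) F) (w ψ : Fin b → F) (v : Fin a × Fin b → F) :
    kv α w ψ *ᵥ v = pt (α *ᵥ ctr ψ v) w := by
  ext ⟨i, j⟩
  simp only [kv, Matrix.mulVec, dotProduct, Matrix.kroneckerMap_apply, pt_apply, ctr_apply,
    Fintype.sum_prod_type, Finset.sum_mul, Finset.mul_sum, Matrix.vecMulVec_apply]
  apply Finset.sum_congr rfl
  intro i' _
  apply Finset.sum_congr rfl
  intro j' _
  ring

/-- `(α ⊗ w ψᵀ)(β ⊗ w' ψ'ᵀ) = (ψ ⬝ w') (αβ ⊗ w ψ'ᵀ)`. -/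
lemma kv_mul_kv (α β : Matrix (Fin a) (Fin a) F) (w ψ w' ψ' : Fin b → F) :
    kv α w ψ * kv β w' ψ' = (ψ ⬝ᵥ w') • kv (α * β) w ψ' := by
  rw [kv, kv, kv, ← Matrix.mul_kronecker_mul, Matrix.vecMulVec_mul_vecMulVec,
    Matrix.vecMulVec_smul, Matrix.kronecker_smul]

lemma kv_add (α β : Matrix (Fin a) (Fin a) F) (w ψ : Fin b → F) :
    kv (α + β) w ψ = kv α w ψ + kv β w ψ := by
  rw [kv, kv, kv, Matrix.add_kronecker]

lemma kv_add_right (α : Matrix (Fin a) (Fin a) F) (w ψ ψ' : Fin b → F) :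
    kv α w (ψ + ψ') = kv α w ψ + kv α w ψ' := by
  rw [kv, kv, kv, Matrix.vecMulVec_add, Matrix.kronecker_add]

lemma kv_smul (c : F) (α : Matrix (Fin a) (Fin a) F) (w ψ : Fin b → F) :
    kv (c • α) w ψ = c • kv α w ψ := by
  rw [kv, kv, Matrix.smul_kronecker]

lemma kv_smul_right (c : F) (α : Matrix (Fin a) (Fin a) F) (w ψ : Fin b → F) :
    kv α w (c • ψ) = c • kv α w ψ := by
  rw [kv, kv, Matrix.vecMulVec_smul, Matrix.kronecker_smul]

/-- Conjugating `α ⊗ w ψᵀ` by a Kronecker product. -/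
lemma kron_mul_kv_mul (A A' : Matrix (Fin a) (Fin a) F) (B B' : Matrix (Fin b) (Fin b) F)
    (α : Matrix (Fin a) (Fin a) F) (w ψ : Fin b → F) :
    (A ⊗ₖ B) * kv α w ψ * (A' ⊗ₖ B') = kv (A * α * A') (B *ᵥ w) (ψ ᵥ* B') := by
  rw [kv, kv, ← Matrix.mul_kronecker_mul, ← Matrix.mul_kronecker_mul, Matrix.mul_vecMulVec,
    Matrix.vecMulVec_mul]

/-- Every vector is a combination of pure tensors of basis vectors. -/
lemma eq_sum_pt (v : Fin a × Fin b → F) :
    v = ∑ i, ∑ j, v (i, j) • pt (Pi.single i (1 : F)) (Pi.single j (1 : F)) := by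
  ext ⟨i, j⟩
  simp only [Finset.sum_apply, Pi.smul_apply, pt_apply, smul_eq_mul, Pi.single_apply]
  rw [Finset.sum_eq_single i, Finset.sum_eq_single j]
  · simp
  · intro j' _ hj'; simp [Ne.symm hj']
  · intro h; exact absurd (Finset.mem_univ j) h
  · intro i' _ hi'
    refine Finset.sum_eq_zero fun j' _ => ?_
    simp [Ne.symm hi']
  · intro h; exact absurd (Finset.mem_univ i) h

/-- Two matrices agreeing on all pure tensors are equal. -/
lemma ext_pt {A B : Matrix (Fin a × Fin b) (Fin a × Fin b) F}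
    (h : ∀ (u : Fin a → F) (w : Fin b → F), A *ᵥ pt u w = B *ᵥ pt u w) : A = B := by
  apply Matrix.toLin'.injective
  apply LinearMap.ext
  intro v
  rw [eq_sum_pt v]
  simp only [map_sum, map_smul, Matrix.toLin'_apply, h]

/-- A vector all of whose pure-tensor dot products vanish is zero. -/
lemma pt_dotProduct_pt (φ u : Fin a → F) (ψ w : Fin b → F) :
    pt φ ψ ⬝ᵥ pt u w = (φ ⬝ᵥ u) * (ψ ⬝ᵥ w) := by
  simp only [dotProduct, pt_apply, Fintype.sum_prod_type, Finset.sum_mul, Finset.mul_sum]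
  rw [Finset.sum_comm]
  apply Finset.sum_congr rfl
  intro i _
  apply Finset.sum_congr rfl
  intro j _
  ring

lemma vecMulVec_pt_pt (u φ : Fin a → F) (w ψ : Fin b → F) :
    vecMulVec (pt u w) (pt φ ψ) = kv (vecMulVec u φ) w ψ := by
  ext ⟨i, j⟩ ⟨i', j'⟩
  simp only [kv, Matrix.vecMulVec_apply, pt_apply, Matrix.kroneckerMap_apply]
  ring

/-- The transvection with pure centre and pure axis, in Kronecker form. -/
lemma tv_pt_pt (u φ : Fin a → F) (w ψ : Fin b → F) :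
    Cfsg.Agent.Lib.Helper97.tv (pt u w) (pt φ ψ) = 1 + kv (vecMulVec u φ) w ψ := by
  rw [Cfsg.Agent.Lib.Helper97.tv, vecMulVec_pt_pt]

/-- `dot` of a vector against a pure tensor, via contraction. -/
lemma pt_dotProduct (φ : Fin a → F) (ψ : Fin b → F) (v : Fin a × Fin b → F) :
    pt φ ψ ⬝ᵥ v = φ ⬝ᵥ ctr ψ v := by
  simp only [dotProduct, pt_apply, ctr_apply, Fintype.sum_prod_type, Finset.mul_sum]
  apply Finset.sum_congr rfl
  intro i _
  apply Finset.sum_congr rfl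
  intro j _
  ring

/-- The Kronecker subgroup intersected with `SL`. -/
def NN (a b : ℕ) (F : Type*) [Field F] : Subgroup (GL (Fin a × Fin b) F) :=
  Cfsg.Geo.kroneckerSubgroup a b F ⊓ Cfsg.Geo.specialLinear (Fin a × Fin b) F

lemma mem_NN {g : GL (Fin a × Fin b) F} :
    g ∈ NN a b F ↔ (∃ (A : GL (Fin a) F) (B : GL (Fin b) F),
      (g : Matrix (Fin a × Fin b) (Fin a × Fin b) F)
        = (A : Matrix (Fin a) (Fin a) F) ⊗ₖ (B : Matrix (Fin b) (Fin b) F)) ∧
      (g : Matrix (Fin a × Fin b) (Fin a × Fin b) F).det = 1 := by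
  rw [NN, Subgroup.mem_inf, Cfsg.Agent.Lib.Helper97.mem_specialLinear_iff]
  rfl

lemma NN_le_SL : NN a b F ≤ Cfsg.Geo.specialLinear (Fin a × Fin b) F := inf_le_right

/-- The Kronecker product of two invertible matrices, as an element of `GL`. -/
def kronG (A : GL (Fin a) F) (B : GL (Fin b) F) : GL (Fin a × Fin b) F where
  val := (A : Matrix (Fin a) (Fin a) F) ⊗ₖ (B : Matrix (Fin b) (Fin b) F)
  inv := ((A⁻¹ : GL (Fin a) F) : Matrix (Fin a) (Fin a) F) ⊗ₖ ((B⁻¹ : GL (Fin b) F) : Matrix (Fin b) (Fin b) F)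
  val_inv := by
    rw [← Matrix.mul_kronecker_mul, ← Units.val_mul, ← Units.val_mul, mul_inv_cancel, mul_inv_cancel]
    simp
  inv_val := by
    rw [← Matrix.mul_kronecker_mul, ← Units.val_mul, ← Units.val_mul, inv_mul_cancel, inv_mul_cancel]
    simp

@[simp] lemma kronG_val (A : GL (Fin a) F) (B : GL (Fin b) F) :
    ((kronG A B : GL (Fin a × Fin b) F) : Matrix (Fin a × Fin b) (Fin a × Fin b) F)
      = (A : Matrix (Fin a) (Fin a) F) ⊗ₖ (B : Matrix (Fin b) (Fin b) F) := rfl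

lemma kronG_inv_val (A : GL (Fin a) F) (B : GL (Fin b) F) :
    (((kronG A B)⁻¹ : GL (Fin a × Fin b) F) : Matrix (Fin a × Fin b) (Fin a × Fin b) F)
      = ((A⁻¹ : GL (Fin a) F) : Matrix (Fin a) (Fin a) F) ⊗ₖ ((B⁻¹ : GL (Fin b) F) : Matrix (Fin b) (Fin b) F) := rfl

lemma kronG_mul (A A' : GL (Fin a) F) (B B' : GL (Fin b) F) :
    kronG A B * kronG A' B' = kronG (A * A') (B * B') := by
  apply Units.ext
  simp [Matrix.mul_kronecker_mul]

lemma det_kronG (A : GL (Fin a) F) (B : GL (Fin b) F) :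
    ((kronG A B : GL (Fin a × Fin b) F) : Matrix (Fin a × Fin b) (Fin a × Fin b) F).det
      = (A : Matrix (Fin a) (Fin a) F).det ^ b * (B : Matrix (Fin b) (Fin b) F).det ^ a := by
  rw [kronG_val, Matrix.det_kronecker]
  simp

lemma kronG_mem_NN {A : GL (Fin a) F} {B : GL (Fin b) F}
    (h : (A : Matrix (Fin a) (Fin a) F).det ^ b * (B : Matrix (Fin b) (Fin b) F).det ^ a = 1) :
    kronG A B ∈ NN a b F :=
  mem_NN.mpr ⟨⟨A, B, rfl⟩, by rw [det_kronG, h]⟩

/-- The root element `1 ⊗ (1 + w ψᵀ)` of `NN` (for `ψ ⬝ w = 0`). -/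
noncomputable def rootG (w ψ : Fin b → F) (h : ψ ⬝ᵥ w = 0) : GL (Fin a × Fin b) F :=
  kronG (1 : GL (Fin a) F) (Cfsg.Agent.Lib.Helper97.tvG w ψ h)

lemma rootG_val (w ψ : Fin b → F) (h : ψ ⬝ᵥ w = 0) :
    ((rootG (a := a) w ψ h : GL (Fin a × Fin b) F) : Matrix (Fin a × Fin b) (Fin a × Fin b) F)
      = 1 + kv (1 : Matrix (Fin a) (Fin a) F) w ψ := by
  rw [rootG, kronG_val, Cfsg.Agent.Lib.Helper97.tvG_val, Cfsg.Agent.Lib.Helper97.tv,
    Matrix.kronecker_add, Units.val_one, Matrix.one_kronecker_one, kv]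

lemma rootG_mem_NN (w ψ : Fin b → F) (h : ψ ⬝ᵥ w = 0) : rootG (a := a) w ψ h ∈ NN a b F := by
  apply kronG_mem_NN
  rw [Cfsg.Agent.Lib.Helper97.tvG_val, Cfsg.Agent.Lib.Helper97.tv_det h]
  simp

lemma rootG_mulVec (w ψ : Fin b → F) (h : ψ ⬝ᵥ w = 0) (v : Fin a × Fin b → F) :
    ((rootG (a := a) w ψ h : GL (Fin a × Fin b) F) : Matrix (Fin a × Fin b) (Fin a × Fin b) F) *ᵥ v
      = v + pt (ctr ψ v) w := by
  rw [rootG_val, Matrix.add_mulVec, Matrix.one_mulVec, kv_mulVec, Matrix.one_mulVec]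

/-- `g` acts trivially on `V / (U ⊗ w)` and on `U ⊗ w`. -/
def InR (g : GL (Fin a × Fin b) F) (w : Fin b → F) : Prop :=
  (∀ v : Fin a × Fin b → F,
    (g : Matrix (Fin a × Fin b) (Fin a × Fin b) F) *ᵥ v - v ∈ fib (a := a) w) ∧
  ∀ v ∈ fib (a := a) w, (g : Matrix (Fin a × Fin b) (Fin a × Fin b) F) *ᵥ v = v

/-- Hypothesis (D): the only elements of `M` acting trivially on `V/(U⊗w)` and on `U⊗w`
are those of `NN`. -/
def HD (M : Subgroup (GL (Fin a × Fin b) F)) : Prop :=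
  ∀ w : Fin b → F, w ≠ 0 → ∀ g ∈ M, InR g w → g ∈ NN a b F

/-- `RM M α w ψ`: the element `1 + α ⊗ w ψᵀ` lies in `M`. -/
def RM (M : Subgroup (GL (Fin a × Fin b) F)) (α : Matrix (Fin a) (Fin a) F) (w ψ : Fin b → F) :
    Prop :=
  ∀ t : GL (Fin a × Fin b) F,
    (t : Matrix (Fin a × Fin b) (Fin a × Fin b) F) = 1 + kv α w ψ → t ∈ M

/-- The element `1 + α ⊗ w ψᵀ` is invertible when `ψ ⬝ w = 0`. -/
noncomputable def rmG (α : Matrix (Fin a) (Fin a) F) (w ψ : Fin b → F) (h : ψ ⬝ᵥ w = 0) :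
    GL (Fin a × Fin b) F where
  val := 1 + kv α w ψ
  inv := 1 - kv α w ψ
  val_inv := by
    have h2 : kv α w ψ * kv α w ψ = 0 := by
      rw [kv_mul_kv, h, zero_smul]
    rw [Matrix.add_mul, Matrix.mul_sub, Matrix.mul_sub, h2]
    simp
  inv_val := by
    have h2 : kv α w ψ * kv α w ψ = 0 := by
      rw [kv_mul_kv, h, zero_smul]
    rw [Matrix.sub_mul, Matrix.mul_add, Matrix.mul_add, h2]
    simp

@[simp] lemma rmG_val (α : Matrix (Fin a) (Fin a) F) (w ψ : Fin b → F) (h : ψ ⬝ᵥ w = 0) :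
    ((rmG α w ψ h : GL (Fin a × Fin b) F) : Matrix (Fin a × Fin b) (Fin a × Fin b) F)
      = 1 + kv α w ψ := rfl

lemma RM_iff {M : Subgroup (GL (Fin a × Fin b) F)} {α : Matrix (Fin a) (Fin a) F}
    {w ψ : Fin b → F} (h : ψ ⬝ᵥ w = 0) : RM M α w ψ ↔ rmG α w ψ h ∈ M := by
  constructor
  · intro hR; exact hR _ rfl
  · intro hm t ht
    have : t = rmG α w ψ h := Units.ext ht
    rw [this]; exact hm

/-- Contraction with `φ` in the first factor: `φ ⊗ 1 : U ⊗ W → W`. -/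
def ctl (φ : Fin a → F) (v : Fin a × Fin b → F) : Fin b → F := fun j => ∑ i, φ i * v (i, j)

@[simp] lemma ctl_apply (φ : Fin a → F) (v : Fin a × Fin b → F) (j : Fin b) :
    ctl φ v j = ∑ i, φ i * v (i, j) := rfl

lemma ctl_add (φ : Fin a → F) (v v' : Fin a × Fin b → F) : ctl φ (v + v') = ctl φ v + ctl φ v' := by
  ext j; simp [mul_add, Finset.sum_add_distrib]

lemma ctl_sub (φ : Fin a → F) (v v' : Fin a × Fin b → F) : ctl φ (v - v') = ctl φ v - ctl φ v' := by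
  ext j; simp [mul_sub, Finset.sum_sub_distrib]

lemma ctl_smul (φ : Fin a → F) (c : F) (v : Fin a × Fin b → F) : ctl φ (c • v) = c • ctl φ v := by
  ext j; simp [Finset.mul_sum, mul_left_comm]

/-- `(φ ⊗ 1)(u ⊗ w) = φ(u) w`. -/
lemma ctl_pt (φ u : Fin a → F) (w : Fin b → F) : ctl φ (pt u w) = (φ ⬝ᵥ u) • w := by
  ext j
  simp only [ctl_apply, pt_apply, Pi.smul_apply, smul_eq_mul, dotProduct, Finset.sum_mul]
  apply Finset.sum_congr rfl
  intro i _
  ring

/-- `ψ ⬝ (φ ⊗ 1) v = φ ⬝ (1 ⊗ ψ) v`. -/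
lemma dotProduct_ctl (φ : Fin a → F) (ψ : Fin b → F) (v : Fin a × Fin b → F) :
    ψ ⬝ᵥ ctl φ v = φ ⬝ᵥ ctr ψ v := by
  simp only [dotProduct, ctl_apply, ctr_apply, Finset.mul_sum]
  rw [Finset.sum_comm]
  apply Finset.sum_congr rfl
  intro i _
  apply Finset.sum_congr rfl
  intro j _
  ring

/-- The action of `GL` on vectors. -/
abbrev act (g : GL (Fin a × Fin b) F) (v : Fin a × Fin b → F) : Fin a × Fin b → F :=
  g.1 *ᵥ v

lemma act_def (g : GL (Fin a × Fin b) F) (v : Fin a × Fin b → F) : act g v = g.1 *ᵥ v := rfl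

lemma act_mul (g h : GL (Fin a × Fin b) F) (v : Fin a × Fin b → F) :
    act (g * h) v = act g (act h v) := by
  simp only [act, Units.val_mul, Matrix.mulVec_mulVec]

@[simp] lemma act_one (v : Fin a × Fin b → F) : act (1 : GL (Fin a × Fin b) F) v = v := by
  simp [act]

@[simp] lemma act_inv_act (g : GL (Fin a × Fin b) F) (v : Fin a × Fin b → F) :
    act g⁻¹ (act g v) = v := by
  rw [← act_mul, inv_mul_cancel, act_one]

@[simp] lemma act_act_inv (g : GL (Fin a × Fin b) F) (v : Fin a × Fin b → F) :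
    act g (act g⁻¹ v) = v := by
  rw [← act_mul, mul_inv_cancel, act_one]

lemma act_add (g : GL (Fin a × Fin b) F) (v v' : Fin a × Fin b → F) :
    act g (v + v') = act g v + act g v' := Matrix.mulVec_add _ _ _

lemma act_sub (g : GL (Fin a × Fin b) F) (v v' : Fin a × Fin b → F) :
    act g (v - v') = act g v - act g v' := Matrix.mulVec_sub _ _ _

lemma act_smul (g : GL (Fin a × Fin b) F) (c : F) (v : Fin a × Fin b → F) :
    act g (c • v) = c • act g v := Matrix.mulVec_smul _ _ _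

@[simp] lemma act_zero (g : GL (Fin a × Fin b) F) : act g (0 : Fin a × Fin b → F) = 0 :=
  Matrix.mulVec_zero _

lemma act_injective (g : GL (Fin a × Fin b) F) : Function.Injective (act g) := by
  intro v v' h
  have := congrArg (act g⁻¹) h
  simpa using this

lemma act_kronG_pt (A : GL (Fin a) F) (B : GL (Fin b) F) (u : Fin a → F) (w : Fin b → F) :
    act (kronG A B) (pt u w) = pt (A.1 *ᵥ u) (B.1 *ᵥ w) := by
  rw [act, kronG_val, kron_mulVec_pt]

lemma act_rootG (w ψ : Fin b → F) (h : ψ ⬝ᵥ w = 0) (v : Fin a × Fin b → F) :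
    act (rootG (a := a) w ψ h) v = v + pt (ctr ψ v) w := rootG_mulVec w ψ h v

lemma act_rmG (α : Matrix (Fin a) (Fin a) F) (w ψ : Fin b → F) (h : ψ ⬝ᵥ w = 0)
    (v : Fin a × Fin b → F) : act (rmG α w ψ h) v = v + pt (α *ᵥ ctr ψ v) w := by
  rw [act, rmG_val, Matrix.add_mulVec, Matrix.one_mulVec, kv_mulVec]

/-- `kk x w = dim (U⊗w ∩ x(U⊗w))`. -/
noncomputable def kk (x : GL (Fin a × Fin b) F) (w : Fin b → F) : ℕ :=
  Module.finrank F ↥(fib (a := a) w ⊓ (fib (a := a) w).map (Matrix.toLin' x.1))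

lemma mem_map_fib {x : GL (Fin a × Fin b) F} {w : Fin b → F} {v : Fin a × Fin b → F} :
    v ∈ (fib (a := a) w).map (Matrix.toLin' x.1) ↔ ∃ u : Fin a → F, v = act x (pt u w) := by
  constructor
  · rintro ⟨y, hy, rfl⟩
    obtain ⟨u, rfl⟩ := mem_fib.mp hy
    exact ⟨u, by simp [act]⟩
  · rintro ⟨u, rfl⟩
    exact ⟨pt u w, pt_mem_fib u w, by simp [act]⟩

end Cfsg.Agent.Lib.Helper71.TP
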