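import Mathlib
import Cfsg.Prelude.Def_GeometricClasses
import Cfsg.Agent.Lib.Helper97.Transv
import Cfsg.Agent.Lib.Helper97.TransvM
import Cfsg.Agent.Lib.Helper71.TP0

/-!
# Tensor product subgroup of SL: closure properties of `RM`
-/

set_option autoImplicit false

namespace Cfsg.Agent.Lib.Helper71.TP

open Matrix Cfsg.Agent.Lib.Helper97
open scoped Kronecker

variable {a b : ℕ} {F : Type*} [Field F]

@[simp] lemma kv_zero (w ψ : Fin b → F) : kv (0 : Matrix (Fin a) (Fin a) F) w ψ = 0 := by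
  rw [kv, Matrix.zero_kronecker]

lemma kv_neg (α : Matrix (Fin a) (Fin a) F) (w ψ : Fin b → F) : kv (-α) w ψ = - kv α w ψ := by
  have h := kv_smul (-1 : F) α w ψ
  simpa using h

lemma kv_mul_kv_self (α β : Matrix (Fin a) (Fin a) F) {w ψ : Fin b → F} (h : ψ ⬝ᵥ w = 0) :
    kv α w ψ * kv β w ψ = 0 := by
  rw [kv_mul_kv, h, zero_smul]

theorem RM_zero (M : Subgroup (GL (Fin a × Fin b) F)) (w ψ : Fin b → F) :
    RM M (0 : Matrix (Fin a) (Fin a) F) w ψ := by
  intro t ht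
  have : t = 1 := by
    apply Units.ext
    rw [ht, kv_zero, add_zero, Units.val_one]
  rw [this]
  exact M.one_mem

theorem RM_add (M : Subgroup (GL (Fin a × Fin b) F)) {α β : Matrix (Fin a) (Fin a) F}
    {w ψ : Fin b → F} (h : ψ ⬝ᵥ w = 0) (h1 : RM M α w ψ) (h2 : RM M β w ψ) :
    RM M (α + β) w ψ := by
  intro t ht
  have : t = rmG α w ψ h * rmG β w ψ h := by
    apply Units.ext
    rw [ht, Units.val_mul, rmG_val, rmG_val, Matrix.add_mul, Matrix.mul_add, Matrix.mul_add,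
      kv_mul_kv_self α β h, kv_add]
    simp only [Matrix.one_mul, Matrix.mul_one, add_zero]
    abel
  rw [this]
  exact M.mul_mem ((RM_iff h).mp h1) ((RM_iff h).mp h2)

theorem RM_neg (M : Subgroup (GL (Fin a × Fin b) F)) {α : Matrix (Fin a) (Fin a) F}
    {w ψ : Fin b → F} (h : ψ ⬝ᵥ w = 0) (h1 : RM M α w ψ) : RM M (-α) w ψ := by
  intro t ht
  have : t = (rmG α w ψ h)⁻¹ := by
    rw [eq_inv_iff_mul_eq_one]
    apply Units.ext
    rw [Units.val_mul, ht, rmG_val, Matrix.add_mul, Matrix.mul_add, Matrix.mul_add,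
      kv_mul_kv_self (-α) α h, kv_neg]
    simp
  rw [this]
  exact M.inv_mem ((RM_iff h).mp h1)

theorem RM_sub (M : Subgroup (GL (Fin a × Fin b) F)) {α β : Matrix (Fin a) (Fin a) F}
    {w ψ : Fin b → F} (h : ψ ⬝ᵥ w = 0) (h1 : RM M α w ψ) (h2 : RM M β w ψ) :
    RM M (α - β) w ψ := by
  rw [sub_eq_add_neg]
  exact RM_add M h h1 (RM_neg M h h2)

/-- Conjugation by the element `A ⊗ B` of `NN`. -/
theorem RM_conj (M : Subgroup (GL (Fin a × Fin b) F)) (hNM : NN a b F ≤ M)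
    {α : Matrix (Fin a) (Fin a) F} {w ψ : Fin b → F}
    (A : GL (Fin a) F) (B : GL (Fin b) F) (hdet : A.1.det ^ b * B.1.det ^ a = 1)
    (h1 : RM M α w ψ) :
    RM M (A.1 * α * (A⁻¹ : GL (Fin a) F).1) (B.1 *ᵥ w) (ψ ᵥ* (B⁻¹ : GL (Fin b) F).1) := by
  intro t ht
  have hg : kronG A B ∈ M := hNM (kronG_mem_NN hdet)
  have hs : (kronG A B)⁻¹ * t * kronG A B ∈ M := by
    apply h1
    rw [Units.val_mul, Units.val_mul, ht, kronG_inv_val, kronG_val, Matrix.mul_add, Matrix.add_mul,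
      Matrix.mul_one, kron_mul_kv_mul, ← Matrix.mul_kronecker_mul, ← Units.val_mul,
      ← Units.val_mul, inv_mul_cancel, inv_mul_cancel]
    congr 1
    · simp
    · congr 1
      · rw [← Matrix.mul_assoc, ← Matrix.mul_assoc, ← Units.val_mul, inv_mul_cancel,
          Matrix.mul_assoc, ← Units.val_mul, inv_mul_cancel]
        simp
      · rw [Matrix.mulVec_mulVec, ← Units.val_mul, inv_mul_cancel]
        simp
      · rw [Matrix.vecMul_vecMul, ← Units.val_mul, inv_mul_cancel]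
        simp
  have : t = kronG A B * ((kronG A B)⁻¹ * t * kronG A B) * (kronG A B)⁻¹ := by group
  rw [this]
  exact M.mul_mem (M.mul_mem hg hs) (M.inv_mem hg)

/-- Scalar `α`: the element is a root element of `NN`. -/
theorem RM_scalar (M : Subgroup (GL (Fin a × Fin b) F)) (hNM : NN a b F ≤ M)
    {w ψ : Fin b → F} (h : ψ ⬝ᵥ w = 0) (c : F) :
    RM M (c • (1 : Matrix (Fin a) (Fin a) F)) w ψ := by
  intro t ht
  have h' : (c • ψ) ⬝ᵥ w = 0 := by rw [smul_dotProduct, h, smul_zero]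
  have : t = rootG (a := a) w (c • ψ) h' := by
    apply Units.ext
    rw [ht, rootG_val, kv_smul, kv_smul_right]
  rw [this]
  exact hNM (rootG_mem_NN w (c • ψ) h')

/-- From `RM` to `TM` (transvections with pure centre and pure axis). -/
theorem TM_of_RM (M : Subgroup (GL (Fin a × Fin b) F)) {u φ : Fin a → F} {w ψ : Fin b → F}
    (h0 : (φ ⬝ᵥ u) * (ψ ⬝ᵥ w) = 0) (hR : RM M (vecMulVec u φ) w ψ) :
    TM M (pt u w) (pt φ ψ) := by
  refine ⟨by rw [pt_dotProduct_pt, h0], fun t ht => ?_⟩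
  apply hR
  rw [ht, tv_pt_pt]

/-- From `TM` to `RM`. -/
theorem RM_of_TM (M : Subgroup (GL (Fin a × Fin b) F)) {u φ : Fin a → F} {w ψ : Fin b → F}
    (hT : TM M (pt u w) (pt φ ψ)) : RM M (vecMulVec u φ) w ψ := by
  intro t ht
  apply hT.2
  rw [ht, tv_pt_pt]

end Cfsg.Agent.Lib.Helper71.TP
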