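import Mathlib
import Cfsg.Prelude.Def_GeometricClasses
import Cfsg.Agent.Lib.Helper71.OK1
import Cfsg.Agent.Lib.Helper52.Siegel
import Cfsg.Agent.Lib.Helper55.OKA1

/-!
# S5701 piece H3: Eichler transformations `ρ_{a v, b z}` for orthogonal singular `v`, `z` (helper71)
-/

set_option autoImplicit false
set_option linter.unusedVariables false
set_option linter.unusedSectionVars false

namespace Cfsg.Agent.Lib.Helper71.OKH3

open Matrix Cfsg.Agent.Lib.Helper71.SpK Cfsg.Agent.Lib.Helper71.OK Cfsg.Agent.Lib.Helper55.OKA1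

section Calc

variable {ι : Type} [Fintype ι] [DecidableEq ι] {F : Type*} [Field F]

/-- The matrix `ρ_{x,y} - 1`. -/
def NN (Q : QuadraticForm F (ι → F)) (x y : ι → F) : Matrix ι ι F :=
  Cfsg.Agent.Lib.Helper52.eichMat Q x y - 1

lemma NN_mulVec (Q : QuadraticForm F (ι → F)) {x y : ι → F} (hy : Q y = 0) (t : ι → F) :
    NN Q x y *ᵥ t = QuadraticMap.polar ⇑Q y t • x - QuadraticMap.polar ⇑Q x t • y := by
  unfold NN
  rw [Matrix.sub_mulVec, Matrix.one_mulVec, Cfsg.Agent.Lib.Helper52.eichMat_mulVec, hy, zero_mul,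
    zero_smul]
  abel

/-- `1 + X` is the matrix of an element of `M`. -/
def PMat (M : Subgroup (GL ι F)) (X : Matrix ι ι F) : Prop :=
  ∃ γ ∈ M, (γ : Matrix ι ι F) = 1 + X

/-- `X` has image in `U` and kills `U`. -/
def UN (U : Submodule F (ι → F)) (X : Matrix ι ι F) : Prop :=
  (∀ t, X *ᵥ t ∈ U) ∧ (∀ y ∈ U, X *ᵥ y = 0)

lemma UN_mul {U : Submodule F (ι → F)} {X Y : Matrix ι ι F} (hX : UN U X) (hY : UN U Y) :
    X * Y = 0 := by
  apply Matrix.mulVec_injective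
  funext t
  rw [← Matrix.mulVec_mulVec, hX.2 _ (hY.1 t), Matrix.zero_mulVec]

lemma UN_zero (U : Submodule F (ι → F)) : UN U (0 : Matrix ι ι F) :=
  ⟨fun t => by rw [Matrix.zero_mulVec]; exact U.zero_mem, fun y _ => Matrix.zero_mulVec y⟩

lemma UN_add {U : Submodule F (ι → F)} {X Y : Matrix ι ι F} (hX : UN U X) (hY : UN U Y) :
    UN U (X + Y) :=
  ⟨fun t => by rw [Matrix.add_mulVec]; exact U.add_mem (hX.1 t) (hY.1 t),
    fun y hy => by rw [Matrix.add_mulVec, hX.2 y hy, hY.2 y hy, add_zero]⟩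

lemma UN_neg {U : Submodule F (ι → F)} {X : Matrix ι ι F} (hX : UN U X) : UN U (-X) :=
  ⟨fun t => by rw [Matrix.neg_mulVec]; exact U.neg_mem (hX.1 t),
    fun y hy => by rw [Matrix.neg_mulVec, hX.2 y hy, neg_zero]⟩

lemma UN_sum {U : Submodule F (ι → F)} {κ : Type*} (s : Finset κ)
    (f : κ → Matrix ι ι F) (h : ∀ i ∈ s, UN U (f i)) : UN U (∑ i ∈ s, f i) :=
  Finset.sum_induction f (UN U) (fun _ _ ha hb => UN_add ha hb) (UN_zero U) h

/-- `X` is in the additive group of the `ρ - 1`, `ρ ∈ M`, supported on `U`. -/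
def MM (M : Subgroup (GL ι F)) (U : Submodule F (ι → F)) (X : Matrix ι ι F) : Prop :=
  UN U X ∧ PMat M X

lemma MM_zero (M : Subgroup (GL ι F)) (U : Submodule F (ι → F)) : MM M U 0 :=
  ⟨UN_zero U, 1, M.one_mem, by rw [Units.val_one, add_zero]⟩

lemma MM_add {M : Subgroup (GL ι F)} {U : Submodule F (ι → F)} {X Y : Matrix ι ι F}
    (hX : MM M U X) (hY : MM M U Y) : MM M U (X + Y) := by
  refine ⟨UN_add hX.1 hY.1, ?_⟩
  obtain ⟨γ, hγ, hγX⟩ := hX.2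
  obtain ⟨δ, hδ, hδY⟩ := hY.2
  refine ⟨γ * δ, M.mul_mem hγ hδ, ?_⟩
  rw [Units.val_mul, hγX, hδY]
  have h0 := UN_mul hX.1 hY.1
  calc (1 + X) * (1 + Y) = 1 + X + Y + X * Y := by noncomm_ring
    _ = 1 + (X + Y) := by rw [h0, add_zero, add_assoc]

lemma MM_neg {M : Subgroup (GL ι F)} {U : Submodule F (ι → F)} {X : Matrix ι ι F}
    (hX : MM M U X) : MM M U (-X) := by
  refine ⟨UN_neg hX.1, ?_⟩
  obtain ⟨γ, hγ, hγX⟩ := hX.2
  refine ⟨γ⁻¹, M.inv_mem hγ, ?_⟩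
  have h0 := UN_mul hX.1 hX.1
  have h1 : ((γ⁻¹ : GL ι F) : Matrix ι ι F) * (γ : Matrix ι ι F) = 1 := by
    rw [← Units.val_mul, inv_mul_cancel, Units.val_one]
  have h2 : (γ : Matrix ι ι F) * (1 + -X) = 1 := by
    rw [hγX]
    calc (1 + X) * (1 + -X) = 1 - X * X := by noncomm_ring
      _ = 1 := by rw [h0, sub_zero]
  calc ((γ⁻¹ : GL ι F) : Matrix ι ι F)
      = ((γ⁻¹ : GL ι F) : Matrix ι ι F) * ((γ : Matrix ι ι F) * (1 + -X)) := by
        rw [h2, mul_one]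
    _ = 1 + -X := by rw [← mul_assoc, h1, one_mul]

lemma MM_sub {M : Subgroup (GL ι F)} {U : Submodule F (ι → F)} {X Y : Matrix ι ι F}
    (hX : MM M U X) (hY : MM M U Y) : MM M U (X - Y) := by
  rw [sub_eq_add_neg]
  exact MM_add hX (MM_neg hY)

lemma MM_sum {M : Subgroup (GL ι F)} {U : Submodule F (ι → F)} {κ : Type*} (s : Finset κ)
    (f : κ → Matrix ι ι F) (h : ∀ i ∈ s, MM M U (f i)) : MM M U (∑ i ∈ s, f i) :=
  Finset.sum_induction f (MM M U) (fun _ _ ha hb => MM_add ha hb) (MM_zero M U) h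

end Calc

theorem EM_orth_of_ZW {ι : Type} [Fintype ι] [DecidableEq ι] {F : Type*} [Field F] [Finite F]
    {Q : QuadraticForm F (ι → F)} {L : Type*} [Field L] [Algebra F L] [FiniteDimensional F L]
    (S : KO (QuadraticMap.polar ⇑Q) L) (h2 : (2 : F) ≠ 0)
    (hQ : (QuadraticMap.polarBilin Q).Nondegenerate)
    (hr : (Module.finrank F L).Prime) (hd : 4 * Module.finrank F L ≤ Fintype.card ι) (M : Subgroup (GL ι F)) (hNM : S.NO Q ≤ M) (hMΩ : M ≤ Cfsg.Geo.omegaGL ⇑Q) (hZ : ∀ v : ι → F, v ≠ 0 → S.B v v = 0 → S.ZW M v)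
    {v z : ι → F} (hv0 : v ≠ 0) (hv : S.B v v = 0) (hz : S.B z z = 0) (hvz : S.B v z = 0)
    (hzv : z ∉ S.line v) (a b : L) : EM Q M (S.φ a *ᵥ v) (S.φ b *ᵥ z) := by
  classical
  have hzv' : S.B z v = 0 := by rw [S.B_symm, hvz]
  have hz0 : z ≠ 0 := by
    rintro rfl
    exact hzv (Submodule.zero_mem _)
  -- the totally singular subspace U = L v + L z
  obtain ⟨U, hUdef⟩ : ∃ U : Submodule F (ι → F), U = S.line v ⊔ S.line z := ⟨_, rfl⟩
  have hvU : ∀ k : L, S.φ k *ᵥ v ∈ U := fun k => by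
    rw [hUdef]; exact Submodule.mem_sup_left (S.act_mem_line k v)
  have hzU : ∀ k : L, S.φ k *ᵥ z ∈ U := fun k => by
    rw [hUdef]; exact Submodule.mem_sup_right (S.act_mem_line k z)
  have hUB : ∀ x ∈ U, ∀ y ∈ U, S.B x y = 0 := by
    intro x hx y hy
    rw [hUdef] at hx hy
    obtain ⟨x₁, hx₁, x₂, hx₂, rfl⟩ := Submodule.mem_sup.mp hx
    obtain ⟨y₁, hy₁, y₂, hy₂, rfl⟩ := Submodule.mem_sup.mp hy
    obtain ⟨a₁, rfl⟩ := S.mem_line.mp hx₁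
    obtain ⟨a₂, rfl⟩ := S.mem_line.mp hx₂
    obtain ⟨b₁, rfl⟩ := S.mem_line.mp hy₁
    obtain ⟨b₂, rfl⟩ := S.mem_line.mp hy₂
    simp only [S.B_add, S.B_add_right, S.B_act, S.B_act_right, hv, hz, hvz, hzv', mul_zero,
      add_zero]
  have hUf : ∀ x ∈ U, ∀ y ∈ U, QuadraticMap.polar ⇑Q x y = 0 := by
    intro x hx y hy
    rw [← S.β_B, hUB x hx y hy, map_zero]
  have hUQ : ∀ x ∈ U, Q x = 0 := fun x hx => S.Q_eq_zero h2 (hUB x hx x hx)
  have hNNU : ∀ x ∈ U, ∀ y ∈ U, UN U (NN Q x y) := by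
    intro x hx y hy
    constructor
    · intro t
      rw [NN_mulVec Q (hUQ y hy)]
      exact U.sub_mem (U.smul_mem _ hx) (U.smul_mem _ hy)
    · intro t ht
      rw [NN_mulVec Q (hUQ y hy), hUf y hy t ht, hUf x hx t ht, zero_smul, zero_smul, sub_zero]
  have hEM : ∀ x y : ι → F, EM Q M x y → PMat M (NN Q x y) := by
    rintro x y ⟨γ, hγ, hγe⟩
    exact ⟨γ, hγ, by rw [hγe, NN]; abel⟩
  have hEM' : ∀ x y : ι → F, PMat M (NN Q x y) → EM Q M x y := by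
    rintro x y ⟨γ, hγ, hγe⟩
    exact ⟨γ, hγ, by rw [hγe, NN]; abel⟩
  -- (i)
  have hi : ∀ a b c : L, MM M U (NN Q (S.φ a *ᵥ v) (S.φ (b * c) *ᵥ z) -
      NN Q (S.φ b *ᵥ v) (S.φ (a * c) *ᵥ z)) := by
    intro a b c
    have hw0 : v + S.φ c *ᵥ z ≠ 0 := by
      intro h0
      by_cases hc : c = 0
      · rw [hc, S.φ_zero_mulVec, add_zero] at h0
        exact hv0 h0
      · apply hzv
        refine ⟨-c⁻¹, ?_⟩
        show S.φ (-c⁻¹) *ᵥ v = z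
        have h1 : v = -(S.φ c *ᵥ z) := eq_neg_of_add_eq_zero_left h0
        rw [h1, Matrix.mulVec_neg, S.φ_neg_mulVec, neg_neg, S.φ_inv_cancel hc]
    have hww : S.B (v + S.φ c *ᵥ z) (v + S.φ c *ᵥ z) = 0 :=
      hUB _ (U.add_mem (by simpa [S.φ_one_mulVec] using hvU 1) (hzU c)) _
        (U.add_mem (by simpa [S.φ_one_mulVec] using hvU 1) (hzU c))
    have hw := hZ _ hw0 hww a b
    have h1 := hZ v hv0 hv a b
    have h2' := hZ z hz0 hz (a * c) (b * c)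
    have e1 : S.φ a *ᵥ (v + S.φ c *ᵥ z) = S.φ a *ᵥ v + S.φ (a * c) *ᵥ z := by
      rw [S.φ_mulVec_add, S.φ_mul_mulVec]
    have e2 : S.φ b *ᵥ (v + S.φ c *ᵥ z) = S.φ b *ᵥ v + S.φ (b * c) *ᵥ z := by
      rw [S.φ_mulVec_add, S.φ_mul_mulVec]
    rw [e1, e2] at hw
    have hA : MM M U (NN Q (S.φ a *ᵥ v + S.φ (a * c) *ᵥ z) (S.φ b *ᵥ v + S.φ (b * c) *ᵥ z)) :=
      ⟨hNNU _ (U.add_mem (hvU a) (hzU _)) _ (U.add_mem (hvU b) (hzU _)), hEM _ _ hw⟩
    have hB : MM M U (NN Q (S.φ a *ᵥ v) (S.φ b *ᵥ v)) :=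
      ⟨hNNU _ (hvU a) _ (hvU b), hEM _ _ h1⟩
    have hC : MM M U (NN Q (S.φ (a * c) *ᵥ z) (S.φ (b * c) *ᵥ z)) :=
      ⟨hNNU _ (hzU _) _ (hzU _), hEM _ _ h2'⟩
    have hid : NN Q (S.φ a *ᵥ v) (S.φ (b * c) *ᵥ z) - NN Q (S.φ b *ᵥ v) (S.φ (a * c) *ᵥ z) =
        NN Q (S.φ a *ᵥ v + S.φ (a * c) *ᵥ z) (S.φ b *ᵥ v + S.φ (b * c) *ᵥ z) -
          NN Q (S.φ a *ᵥ v) (S.φ b *ᵥ v) - NN Q (S.φ (a * c) *ᵥ z) (S.φ (b * c) *ᵥ z) := by
      apply Matrix.mulVec_injective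
      funext t
      simp only [Matrix.sub_mulVec]
      rw [NN_mulVec Q (hUQ _ (hzU _)), NN_mulVec Q (hUQ _ (hzU _)),
        NN_mulVec Q (hUQ _ (U.add_mem (hvU b) (hzU _))), NN_mulVec Q (hUQ _ (hvU b)),
        NN_mulVec Q (hUQ _ (hzU _))]
      simp only [QuadraticMap.polar_add_left]
      module
    rw [hid]
    exact MM_sub (MM_sub hA hB) hC
  -- a basis of L and its β-dual
  let bs := Module.finBasis F L
  have hdual : ∀ i, ∃ c : L, ∀ l, bs.repr l i = S.β (c * l) := fun i => S.β_repr (bs.coord i)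
  choose bd hbd using hdual
  have hD1 : ∀ x : L, ∑ i, S.β (bd i * x) • bs i = x := by
    intro x
    conv_rhs => rw [← bs.sum_repr x]
    exact Finset.sum_congr rfl (fun i _ => by rw [hbd i x])
  have hD2 : ∀ y : L, ∑ i, S.β (bs i * y) • bd i = y := by
    intro y
    apply S.β_ext
    intro l
    rw [Finset.mul_sum, map_sum]
    have h1 : ∀ i, S.β (l * S.β (bs i * y) • bd i) = S.β (bs.repr l i • (bs i * y)) := by
      intro i
      rw [mul_smul_comm, map_smul, map_smul, hbd i l, smul_eq_mul, smul_eq_mul, mul_comm l,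
        mul_comm]
    rw [Finset.sum_congr rfl (fun i _ => h1 i), ← map_sum]
    congr 1
    conv_rhs => rw [← bs.sum_repr l]
    rw [Finset.sum_mul]
    exact Finset.sum_congr rfl (fun i _ => by rw [smul_mul_assoc])
  -- κ₀ and the trace
  obtain ⟨κ₀, hκ₀def⟩ : ∃ κ₀ : L, κ₀ = ∑ i, bs i * bd i := ⟨_, rfl⟩
  have hκtr : ∀ x : L, S.β (κ₀ * x) = Algebra.trace F L x := by
    intro x
    rw [Algebra.trace_eq_matrix_trace bs, Matrix.trace, hκ₀def, Finset.sum_mul, map_sum]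
    apply Finset.sum_congr rfl
    intro i _
    rw [Matrix.diag_apply, Algebra.leftMulMatrix_eq_repr_mul, hbd i]
    congr 1
    ring
  have hκ₀ : κ₀ ≠ 0 := by
    intro h0
    obtain ⟨x, hx⟩ := Algebra.trace_surjective F L 1
    rw [← hκtr, h0, zero_mul, map_zero] at hx
    exact zero_ne_one hx
  -- (ii) the L-Eichler map
  have hφsum : ∀ (c : Fin (Module.finrank F L) → F) (e : Fin (Module.finrank F L) → L)
      (w : ι → F), S.φ (∑ i, c i • e i) *ᵥ w = ∑ i, c i • (S.φ (e i) *ᵥ w) := by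
    intro c e w
    rw [map_sum, Matrix.sum_mulVec]
    exact Finset.sum_congr rfl (fun i _ => S.φ_smul_mulVec _ _ _)
  have hii : ∀ m : L, MM M U (∑ i, NN Q (S.φ (bs i) *ᵥ v) (S.φ (bd i * m) *ᵥ z)) := by
    intro m
    refine ⟨UN_sum Finset.univ _ (fun i _ => hNNU _ (hvU _) _ (hzU _)), ?_⟩
    obtain ⟨γ, hγ, hγρ⟩ := exists_rho S h2 hQ hr hd (u := v) (z := S.φ m *ᵥ z) hv
      (by rw [S.B_act_right, hvz, mul_zero])
    refine ⟨γ, hNM hγ, ?_⟩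
    apply Matrix.mulVec_injective
    funext t
    rw [hγρ, Matrix.add_mulVec, Matrix.one_mulVec, Matrix.sum_mulVec]
    have h1 : ∀ i, NN Q (S.φ (bs i) *ᵥ v) (S.φ (bd i * m) *ᵥ z) *ᵥ t =
        S.β (bd i * (m * S.B z t)) • (S.φ (bs i) *ᵥ v) -
          S.β (bs i * S.B v t) • (S.φ (bd i) *ᵥ (S.φ m *ᵥ z)) := by
      intro i
      rw [NN_mulVec Q (hUQ _ (hzU _)), S.f_act, S.f_act, mul_assoc, S.φ_mul_mulVec]
    rw [Finset.sum_congr rfl (fun i _ => h1 i), Finset.sum_sub_distrib, ← hφsum, ← hφsum,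
      hD1, hD2]
    unfold KO.rho
    rw [S.B_act_right, S.B_act, S.B_act_right, hz, mul_zero, mul_zero, zero_mul,
      S.φ_zero_mulVec, smul_zero, sub_zero, S.B_symm t z, S.B_symm t v]
    abel
  -- (iii)
  have hiii : ∀ a c : L, MM M U (NN Q (S.φ a *ᵥ v) (S.φ c *ᵥ z) -
      NN Q (S.φ 1 *ᵥ v) (S.φ (a * c) *ᵥ z)) := by
    intro a c
    have h := hi a 1 c
    rwa [one_mul] at h
  have hGsum : ∀ e : Fin (Module.finrank F L) → L,
      NN Q (S.φ 1 *ᵥ v) (S.φ (∑ i, e i) *ᵥ z) = ∑ i, NN Q (S.φ 1 *ᵥ v) (S.φ (e i) *ᵥ z) := by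
    intro e
    apply Matrix.mulVec_injective
    funext t
    rw [Matrix.sum_mulVec, NN_mulVec Q (hUQ _ (hzU _))]
    have h1 : ∀ i, NN Q (S.φ 1 *ᵥ v) (S.φ (e i) *ᵥ z) *ᵥ t =
        S.β (e i * S.B z t) • (S.φ 1 *ᵥ v) -
          QuadraticMap.polar ⇑Q (S.φ 1 *ᵥ v) t • (S.φ (e i) *ᵥ z) := by
      intro i
      rw [NN_mulVec Q (hUQ _ (hzU _)), S.f_act]
    rw [Finset.sum_congr rfl (fun i _ => h1 i), Finset.sum_sub_distrib, ← Finset.sum_smul,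
      ← Finset.smul_sum, S.f_act, Finset.sum_mul, map_sum, map_sum, Matrix.sum_mulVec]
  -- (iv)
  have hiv : ∀ m : L, MM M U (NN Q (S.φ 1 *ᵥ v) (S.φ (κ₀ * m) *ᵥ z)) := by
    intro m
    have e : NN Q (S.φ 1 *ᵥ v) (S.φ (κ₀ * m) *ᵥ z) =
        (∑ i, NN Q (S.φ (bs i) *ᵥ v) (S.φ (bd i * m) *ᵥ z)) -
          ∑ i, (NN Q (S.φ (bs i) *ᵥ v) (S.φ (bd i * m) *ᵥ z) -
            NN Q (S.φ 1 *ᵥ v) (S.φ (bs i * (bd i * m)) *ᵥ z)) := by
      rw [Finset.sum_sub_distrib, sub_sub_cancel, ← hGsum, hκ₀def, Finset.sum_mul]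
      congr 3
      exact Finset.sum_congr rfl (fun i _ => mul_assoc _ _ _)
    rw [e]
    exact MM_sub (hii m) (MM_sum Finset.univ _ (fun i _ => hiii (bs i) (bd i * m)))
  -- (v)
  apply hEM'
  have h5 := hiv (κ₀⁻¹ * (a * b))
  rw [mul_inv_cancel_left₀ hκ₀] at h5
  have h6 := MM_add (hiii a b) h5
  rw [sub_add_cancel] at h6
  exact h6.2

end Cfsg.Agent.Lib.Helper71.OKH3
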