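import Mathlib
import Cfsg.Prelude.Def_GeometricClasses

/-! Maximal subgroups of `SL_n(F)` in prime dimension (S5793, S5808, S5853): foundation
(transvections, dual vectors, the maximality step).  helper71. -/

set_option autoImplicit false

namespace Cfsg.Agent.Lib.Helper71.SLP

open Matrix Cfsg.Geo

variable {n : ℕ} {F : Type*} [Field F]

/-- The matrix of the map `v ↦ v + φ(v) w`. -/
def tvm (w φ : Fin n → F) : Matrix (Fin n) (Fin n) F := 1 + Matrix.vecMulVec w φ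

theorem tvm_mulVec (w φ v : Fin n → F) : tvm w φ *ᵥ v = v + (φ ⬝ᵥ v) • w := by
  unfold tvm
  rw [Matrix.add_mulVec, Matrix.one_mulVec, Matrix.vecMulVec_mulVec]
  congr 1
  ext i
  simp [mul_comm]

theorem tvm_mul_neg (w φ : Fin n → F) (h : φ ⬝ᵥ w = 0) : tvm w φ * tvm (-w) φ = 1 := by
  unfold tvm
  have h1 : Matrix.vecMulVec w φ * Matrix.vecMulVec w φ = 0 := by
    rw [Matrix.vecMulVec_mul_vecMulVec, h, zero_smul]
    ext i j
    simp [Matrix.vecMulVec_apply]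
  rw [Matrix.neg_vecMulVec, add_mul, mul_add, mul_add, one_mul, mul_one, one_mul, Matrix.mul_neg, h1]
  abel

theorem tvm_neg_mul (w φ : Fin n → F) (h : φ ⬝ᵥ w = 0) : tvm (-w) φ * tvm w φ = 1 := by
  have h' : φ ⬝ᵥ (-w) = 0 := by rw [dotProduct_neg, h, neg_zero]
  have := tvm_mul_neg (-w) φ h'
  rwa [neg_neg] at this

/-- The transvection `v ↦ v + φ(v) w` (with `φ(w) = 0`) as an element of `GL`. -/
def tv (w φ : Fin n → F) (h : φ ⬝ᵥ w = 0) : GL (Fin n) F :=
  ⟨tvm w φ, tvm (-w) φ, tvm_mul_neg w φ h, tvm_neg_mul w φ h⟩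

theorem tv_val (w φ : Fin n → F) (h : φ ⬝ᵥ w = 0) : (tv w φ h).1 = tvm w φ := rfl

theorem tv_inv_val (w φ : Fin n → F) (h : φ ⬝ᵥ w = 0) :
    ((tv w φ h)⁻¹ : GL (Fin n) F).1 = tvm (-w) φ := rfl

theorem tv_mulVec (w φ : Fin n → F) (h : φ ⬝ᵥ w = 0) (v : Fin n → F) :
    (tv w φ h).1 *ᵥ v = v + (φ ⬝ᵥ v) • w := tvm_mulVec w φ v

theorem tv_inv_mulVec (w φ : Fin n → F) (h : φ ⬝ᵥ w = 0) (v : Fin n → F) :
    ((tv w φ h)⁻¹ : GL (Fin n) F).1 *ᵥ v = v - (φ ⬝ᵥ v) • w := by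
  rw [tv_inv_val, tvm_mulVec, smul_neg, sub_eq_add_neg]

theorem mem_specialLinear_iff (g : GL (Fin n) F) :
    g ∈ specialLinear (Fin n) F ↔ g.1.det = 1 := by
  unfold specialLinear
  rw [MonoidHom.mem_ker]
  constructor
  · intro h
    have := congrArg Units.val h
    simpa using this
  · intro h
    apply Units.ext
    simpa using h

theorem tv_mem_specialLinear (w φ : Fin n → F) (h : φ ⬝ᵥ w = 0) :
    tv w φ h ∈ specialLinear (Fin n) F := by
  rw [mem_specialLinear_iff, tv_val]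
  unfold tvm
  rw [Matrix.vecMulVec_eq Unit, Matrix.det_one_add_replicateCol_mul_replicateRow, h, add_zero]

/-- Every linear functional on `Fin n → F` is a dot product. -/
theorem exists_dot_eq (f : Module.Dual F (Fin n → F)) : ∃ φ : Fin n → F, ∀ v, f v = φ ⬝ᵥ v := by
  refine ⟨fun i => f (Pi.single i 1), fun v => ?_⟩
  rw [LinearMap.pi_apply_eq_sum_univ f v]
  simp only [dotProduct, smul_eq_mul]
  refine Finset.sum_congr rfl fun i _ => ?_
  rw [mul_comm]
  congr 2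
  ext j
  simp [Pi.single_apply, eq_comm]

/-- A dual vector vanishing on a subspace `E` and taking the value `1` at `u ∉ E`. -/
theorem exists_dual (E : Submodule F (Fin n → F)) (u : Fin n → F) (hu : u ∉ E) :
    ∃ φ : Fin n → F, φ ⬝ᵥ u = 1 ∧ ∀ v ∈ E, φ ⬝ᵥ v = 0 := by
  obtain ⟨f, hf, hE⟩ := Submodule.exists_dual_map_eq_bot_of_notMem hu inferInstance
  obtain ⟨φ, hφ⟩ := exists_dot_eq f
  refine ⟨(f u)⁻¹ • φ, ?_, fun v hv => ?_⟩
  · rw [smul_dotProduct, ← hφ, smul_eq_mul, inv_mul_cancel₀ hf]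
  · have h0 : f v = 0 := by
      have : f v ∈ E.map f := Submodule.mem_map_of_mem hv
      rw [hE] at this
      simpa using this
    rw [smul_dotProduct, ← hφ, h0, smul_zero]

/-- A non-zero dual vector vanishing on a proper subspace. -/
theorem exists_dual_ne_zero (E : Submodule F (Fin n → F)) (hE : E ≠ ⊤) :
    ∃ φ : Fin n → F, φ ≠ 0 ∧ ∀ v ∈ E, φ ⬝ᵥ v = 0 := by
  obtain ⟨u, hu⟩ : ∃ u, u ∉ E := by
    by_contra h
    push Not at h
    exact hE (eq_top_iff.mpr fun u _ => h u)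
  obtain ⟨φ, h1, h2⟩ := exists_dual E u hu
  refine ⟨φ, ?_, h2⟩
  rintro rfl
  simp at h1

/-- The maximality step: a maximal subgroup of `SL` contained in `M ⊉ SL` equals `M ⊓ SL`. -/
theorem eq_inf_of_maximal {H M : Subgroup (GL (Fin n) F)}
    (hH : IsMaximalIn (specialLinear (Fin n) F) H) (hHM : H ≤ M)
    (hM : ¬ specialLinear (Fin n) F ≤ M) : H = M ⊓ specialLinear (Fin n) F := by
  rcases hH.2 (M ⊓ specialLinear (Fin n) F) (le_inf hHM hH.1.le) inf_le_right with h | h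
  · exact h.symm
  · exact absurd (h ▸ inf_le_left) hM

end Cfsg.Agent.Lib.Helper71.SLP
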