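import Mathlib
import Cfsg.Prelude.Def_GeometricClasses
import Cfsg.Prelude.Def_LieClassical
import Cfsg.Agent.Lib.Helper71.Asch0
import Cfsg.Agent.Lib.Helper71.Asch5
import Cfsg.Agent.Lib.Helper71.Asch8
import Cfsg.Agent.Lib.Helper71.TIFT1a
import Cfsg.Agent.Lib.Helper10.TIFT1b
import Cfsg.Agent.Lib.Helper94.TIFT1c
import Cfsg.Agent.Lib.Helper32.TIFT1d
import Cfsg.Agent.Lib.Helper68.TIFTG
import Cfsg.Agent.Lib.Helper33.TIFT2a
import Cfsg.Agent.Lib.Helper34.TIFT2b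
import Cfsg.Agent.Lib.Helper30.TIFT2c
import Cfsg.Agent.Lib.Helper88.TIFT3x
import Cfsg.Agent.Lib.Helper91.TIFT3y
import Cfsg.Agent.Lib.Helper56.TIFT3b
import Cfsg.Agent.Lib.Helper69.TIFT3c
import Cfsg.Agent.Lib.Helper77.TIFT4
import Cfsg.Agent.Lib.Helper67.TIFT5
import Cfsg.Agent.Lib.Helper80.TIFT6a
import Cfsg.Agent.Lib.Helper42.TIFT6b
import Cfsg.Agent.Lib.Helper91.TIFT6s
import Cfsg.Agent.Lib.Helper47.TIFT6m

/-! Project SPG (helper71), sub-project TIF: the tensor-induced branch for groups of isometries of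
a symplectic form.  The pieces are proved by the team (see the imports and the restatements below); assembly of `TIF`. -/

set_option autoImplicit false

namespace Cfsg.Agent.Lib.Helper71.SPGTIF

open Matrix Cfsg.Geo Cfsg.Agent.Lib.Helper71.Asch

variable {n : ℕ} {F : Type*} [Field F] [Fintype F]

/-- the matrix permuting the `k` tensor factors according to `σ` (as in `IsFactorPermutation`) -/
def permM (m : ℕ) {k : ℕ} (σ : Equiv.Perm (Fin k)) : Matrix (Fin k → Fin m) (Fin k → Fin m) F :=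
  Matrix.of fun x y => if y = x ∘ σ then 1 else 0

/-! ## Pieces (restated; proofs in the imported team modules) -/

/-- T1a: the tensor decomposition with rectangular base change matrices (the first half of the
proof of `Helper86.ASB8Main.B8_of`, as in `Helper28.SPPB8D`). -/
theorem T1a (hn : 3 ≤ n) (H L : Subgroup (GL (Fin n) F))
    (hLa : ActsAbsolutelyIrreducibly (matrixSet L))
    (k : ℕ) (Ps : Fin k → Subgroup (GL (Fin n) F)) (hk : 2 ≤ k)
    (hns : ∀ i, ¬ Ps i ≤ scalars (Fin n) F)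
    (hcomm : ∀ i j, i ≠ j → ∀ x ∈ Ps i, ∀ y ∈ Ps j, x * y = y * x)
    (hsup : L = ⨆ i, Ps i)
    (hperm : ∀ h ∈ H, ∃ σ : Equiv.Perm (Fin k), ∀ i,
      (Ps i).map (MulAut.conj h).toMonoidHom = Ps (σ i))
    (htrans : ∀ i j, ∃ h ∈ H, (Ps i).map (MulAut.conj h).toMonoidHom = Ps j) :
    ∃ (m : ℕ) (P : Matrix (Fin n) (Fin k → Fin m) F) (Q : Matrix (Fin k → Fin m) (Fin n) F),
      2 ≤ m ∧ P * Q = 1 ∧ Q * P = 1 ∧
      ∀ i (X : Matrix (Fin n) (Fin n) F), X ∈ Submodule.span F (matrixSet (Ps i)) ↔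
        ∃ A : Matrix (Fin m) (Fin m) F, X = P * iota i A * Q := by
  exact Cfsg.Agent.Lib.Helper71.TIFT1a.T1a hn H L hLa k Ps hk hns hcomm hsup hperm htrans

/-- T1b: the factor group `R` of a subgroup `S` whose span is `P * iota i (M_m(F)) * Q`. -/
theorem T1b {m k : ℕ} (P : Matrix (Fin n) (Fin k → Fin m) F)
    (Q : Matrix (Fin k → Fin m) (Fin n) F) (hPQ : P * Q = 1) (hQP : Q * P = 1) (i : Fin k)
    (S : Subgroup (GL (Fin n) F))
    (hsP : ∀ X : Matrix (Fin n) (Fin n) F, X ∈ Submodule.span F (matrixSet S) ↔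
      ∃ A : Matrix (Fin m) (Fin m) F, X = P * iota i A * Q) :
    ∃ R : Subgroup (GL (Fin m) F), Submodule.span F (matrixSet R) = ⊤ ∧
      (∀ A ∈ R, ∃ x ∈ S, x.1 = P * iota i A.1 * Q) ∧
      (∀ x ∈ S, ∃ A ∈ R, x.1 = P * iota i A.1 * Q) := by
  exact Cfsg.Agent.Lib.Helper10.TIFT1b.T1b P Q hPQ hQP i S hsP

/-- T1c: an element permuting the factors `Ps i` according to `σ` is `P * g * Q` with
`g = pure tensor * factor permutation of σ` (proof of `Helper86.ASB8Main.norm_wreath` and the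
end of `B8_of`, with the witnesses exposed). -/
theorem T1c {m k : ℕ} (hm : 2 ≤ m) (hk : 2 ≤ k) (P : Matrix (Fin n) (Fin k → Fin m) F)
    (Q : Matrix (Fin k → Fin m) (Fin n) F) (hPQ : P * Q = 1) (hQP : Q * P = 1)
    (Ps : Fin k → Subgroup (GL (Fin n) F))
    (hsP : ∀ i (X : Matrix (Fin n) (Fin n) F), X ∈ Submodule.span F (matrixSet (Ps i)) ↔
      ∃ A : Matrix (Fin m) (Fin m) F, X = P * iota i A * Q)
    (h : GL (Fin n) F) (σ : Equiv.Perm (Fin k))
    (hσ : ∀ i, (Ps i).map (MulAut.conj h).toMonoidHom = Ps (σ i)) :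
    ∃ (g : GL (Fin k → Fin m) F) (cs : Fin k → GL (Fin m) F), g ∈ tensorWreathStandard m k F ∧
      h.1 = P * g.1 * Q ∧ g.1 = pt (fun i => (cs i).1) * permM m σ := by
  exact Cfsg.Agent.Lib.Helper94.TIFT1c.T1c hm hk P Q hPQ hQP Ps hsP h σ hσ

/-- T1d: the factors are pairwise distinct. -/
theorem T1d {m k : ℕ} (hm : 2 ≤ m) (P : Matrix (Fin n) (Fin k → Fin m) F)
    (Q : Matrix (Fin k → Fin m) (Fin n) F) (hPQ : P * Q = 1) (hQP : Q * P = 1)
    (Ps : Fin k → Subgroup (GL (Fin n) F))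
    (hcomm : ∀ i j, i ≠ j → ∀ x ∈ Ps i, ∀ y ∈ Ps j, x * y = y * x)
    (hsP : ∀ i (X : Matrix (Fin n) (Fin n) F), X ∈ Submodule.span F (matrixSet (Ps i)) ↔
      ∃ A : Matrix (Fin m) (Fin m) F, X = P * iota i A * Q) :
    Function.Injective Ps := by
  exact Cfsg.Agent.Lib.Helper32.TIFT1d.T1d hm P Q hPQ hQP Ps hcomm hsP

/-- TG: the Gram matrix of a symplectic form in rectangular coordinates. -/
theorem TG (hn : 1 ≤ n) (f : (Fin n → F) → (Fin n → F) → F) (hf : IsSymplecticForm f) {I : Type}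
    [Fintype I] [DecidableEq I] (P : Matrix (Fin n) I F) (Q : Matrix I (Fin n) F)
    (hPQ : P * Q = 1) (hQP : Q * P = 1) :
    ∃ G : Matrix I I F, G ≠ 0 ∧ Gᵀ = -G ∧ (∀ a, G a a = 0) ∧
      (∀ x y : I → F, f (P *ᵥ x) (P *ᵥ y) = ∑ a, ∑ b, x a * G a b * y b) ∧
      (∀ (h : Matrix (Fin n) (Fin n) F) (g : Matrix I I F),
        (∀ u v, f (h *ᵥ u) (h *ᵥ v) = f u v) → Q * h * P = g → gᵀ * G * g = G) := by
  exact Cfsg.Agent.Lib.Helper68.TIFTG.TG hn f hf P Q hPQ hQP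

/-- T2a: the bilinear forms invariant under a group spanning the full matrix algebra are the
multiples of one non-degenerate form, which is symmetric or skew. -/
theorem T2a {m : ℕ} (R : Subgroup (GL (Fin m) F)) (hspan : Submodule.span F (matrixSet R) = ⊤) :
    ∃ G₀ : Matrix (Fin m) (Fin m) F, G₀.det ≠ 0 ∧ (G₀ᵀ = G₀ ∨ G₀ᵀ = -G₀) ∧
      ∀ M : Matrix (Fin m) (Fin m) F, (∀ A ∈ R, A.1ᵀ * M * A.1 = M) → ∃ c : F, M = c • G₀ := by
  exact Cfsg.Agent.Lib.Helper33.TIFT2a.T2a R hspan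

/-- T2b: a matrix on the tensor power each of whose `i`-slices is a multiple of `Gs i` is a
multiple of the tensor product of the `Gs i`. -/
theorem T2b {m k : ℕ} (G : Matrix (Fin k → Fin m) (Fin k → Fin m) F) (hG : G ≠ 0)
    (Gs : Fin k → Matrix (Fin m) (Fin m) F) (hdet : ∀ i, (Gs i).det ≠ 0)
    (hfac : ∀ i (a b : Fin k → Fin m), ∃ c : F, ∀ u v,
      G (Function.update a i u) (Function.update b i v) = c * Gs i u v) :
    ∃ c : F, c ≠ 0 ∧ ∀ a b, G a b = c * ∏ i, Gs i (a i) (b i) := by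
  exact Cfsg.Agent.Lib.Helper34.TIFT2b.T2b G hG Gs hdet hfac

/-- T2c: the `i`-slices of a matrix invariant under `iota i A` are invariant under `A`. -/
theorem T2c {m k : ℕ} (i : Fin k) (A : Matrix (Fin m) (Fin m) F)
    (G : Matrix (Fin k → Fin m) (Fin k → Fin m) F) (a b : Fin k → Fin m)
    (h : (iota i A)ᵀ * G * iota i A = G) :
    Aᵀ * (Matrix.of fun u v => G (Function.update a i u) (Function.update b i v)) * A =
      Matrix.of fun u v => G (Function.update a i u) (Function.update b i v) := by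
  exact Cfsg.Agent.Lib.Helper30.TIFT2c.T2c i A G a b h

/-- T3x: congruence of a tensor product form by `pure tensor * factor permutation`. -/
theorem T3x {m k : ℕ} (c : F) (Gs : Fin k → Matrix (Fin m) (Fin m) F)
    (G : Matrix (Fin k → Fin m) (Fin k → Fin m) F)
    (hG : ∀ a b, G a b = c * ∏ i, Gs i (a i) (b i)) (cs : Fin k → Matrix (Fin m) (Fin m) F)
    (σ : Equiv.Perm (Fin k)) (a b : Fin k → Fin m) :
    ((pt cs * permM m σ)ᵀ * G * (pt cs * permM m σ) :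
        Matrix (Fin k → Fin m) (Fin k → Fin m) F) a b =
      c * ∏ i, ((cs (σ i))ᵀ * Gs (σ i) * cs (σ i)) (a i) (b i) := by
  exact Cfsg.Agent.Lib.Helper88.TIFT3x.T3x c Gs G hG cs σ a b

/-- T3y: equal tensor products of non-zero matrices have proportional factors. -/
theorem T3y {m k : ℕ} (M N : Fin k → Matrix (Fin m) (Fin m) F) (hN : ∀ i, ∃ u v, N i u v ≠ 0)
    (h : ∀ a b : Fin k → Fin m, ∏ i, M i (a i) (b i) = ∏ i, N i (a i) (b i)) :
    ∀ i, ∃ μ : F, μ ≠ 0 ∧ M i = μ • N i := by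
  exact Cfsg.Agent.Lib.Helper91.TIFT3y.T3y M N hN h

/-- T3b: `q` odd: the factor forms are all skew and the number of factors is odd. -/
theorem T3b {m k : ℕ} (hm : 1 ≤ m) (h2 : (2 : F) ≠ 0) (c : F) (hc : c ≠ 0)
    (Gs : Fin k → Matrix (Fin m) (Fin m) F) (hdet : ∀ i, (Gs i).det ≠ 0)
    (hsym : ∀ i, (Gs i)ᵀ = Gs i ∨ (Gs i)ᵀ = -Gs i)
    (hconj : ∀ i j, ∃ (μ : F) (B : GL (Fin m) F), μ ≠ 0 ∧ B.1ᵀ * Gs j * B.1 = μ • Gs i)
    (G : Matrix (Fin k → Fin m) (Fin k → Fin m) F)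
    (hG : ∀ a b, G a b = c * ∏ i, Gs i (a i) (b i)) (hskew : Gᵀ = -G) :
    Odd k ∧ ∀ i, (Gs i)ᵀ = -Gs i := by
  exact Cfsg.Agent.Lib.Helper56.TIFT3b.T3b hm h2 c hc Gs hdet hsym hconj G hG hskew

/-- T3c: `q` even: the factor forms are all symmetric with zero diagonal. -/
theorem T3c {m k : ℕ} (h2 : (2 : F) = 0) (c : F) (hc : c ≠ 0)
    (Gs : Fin k → Matrix (Fin m) (Fin m) F) (hdet : ∀ i, (Gs i).det ≠ 0)
    (hsym : ∀ i, (Gs i)ᵀ = Gs i ∨ (Gs i)ᵀ = -Gs i)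
    (hconj : ∀ i j, ∃ (μ : F) (B : GL (Fin m) F), μ ≠ 0 ∧ B.1ᵀ * Gs j * B.1 = μ • Gs i)
    (G : Matrix (Fin k → Fin m) (Fin k → Fin m) F)
    (hG : ∀ a b, G a b = c * ∏ i, Gs i (a i) (b i)) (hdiag : ∀ a, G a a = 0) :
    (∀ i, (Gs i)ᵀ = Gs i) ∧ ∀ i u, Gs i u u = 0 := by
  exact Cfsg.Agent.Lib.Helper69.TIFT3c.T3c h2 c hc Gs hdet hsym hconj G hG hdiag

/-- T4: `q` odd: normalisation of the factor forms to a single symplectic form; the tensor power
form structure and the tensor-wreath subgroup. -/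
theorem T4 (f : (Fin n → F) → (Fin n → F) → F) (hf : IsSymplecticForm f)
    (H : Subgroup (GL (Fin n) F)) {m k : ℕ} (hm : 2 ≤ m) (hk : 2 ≤ k)
    (P : Matrix (Fin n) (Fin k → Fin m) F) (Q : Matrix (Fin k → Fin m) (Fin n) F)
    (hPQ : P * Q = 1) (hQP : Q * P = 1) (c : F) (hc : c ≠ 0)
    (Gs : Fin k → Matrix (Fin m) (Fin m) F) (hdet : ∀ i, (Gs i).det ≠ 0)
    (hskew : ∀ i, (Gs i)ᵀ = -Gs i) (hdiag : ∀ i u, Gs i u u = 0)
    (hconj : ∀ i j, ∃ (μ : F) (B : GL (Fin m) F), μ ≠ 0 ∧ B.1ᵀ * Gs j * B.1 = μ • Gs i)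
    (hform : ∀ x y : (Fin k → Fin m) → F,
      f (P *ᵥ x) (P *ᵥ y) = ∑ a, ∑ b, x a * (c * ∏ i, Gs i (a i) (b i)) * y b)
    (hH : ∀ h ∈ H, ∃ g : GL (Fin k → Fin m) F, g ∈ tensorWreathStandard m k F ∧
      h.1 = P * g.1 * Q) :
    ∃ (e : Fin n ≃ (Fin k → Fin m)) (P' : GL (Fin n) F) (f₁ : (Fin m → F) → (Fin m → F) → F),
      IsSymplecticForm f₁ ∧ IsTensorPowerFormStructure id f f₁ e P' ∧
      H ≤ tensorWreathSubgroup m k e P' := by
  exact Cfsg.Agent.Lib.Helper77.TIFT4.T4 f hf H hm hk P Q hPQ hQP c hc Gs hdet hskew hdiag hconj hform hH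

/-- T5: over the field with three elements the factors cannot have dimension 2 (`L` is perfect,
and `GL_2(3)` is solvable). -/
theorem T5 (hq3 : Fintype.card F = 3) (L : Subgroup (GL (Fin n) F)) (hc : ⁅L, L⁆ = L)
    (k : ℕ) (Ps : Fin k → Subgroup (GL (Fin n) F)) (hk : 2 ≤ k)
    (hns : ∀ i, ¬ Ps i ≤ scalars (Fin n) F)
    (hsup : L = ⨆ i, Ps i)
    (P : Matrix (Fin n) (Fin k → Fin 2) F) (Q : Matrix (Fin k → Fin 2) (Fin n) F)
    (hPQ : P * Q = 1) (hQP : Q * P = 1)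
    (hPs : ∀ i, ∀ x ∈ Ps i, ∃ A : GL (Fin 2) F, x.1 = P * iota i A.1 * Q) : False := by
  exact Cfsg.Agent.Lib.Helper67.TIFT5.T5 hq3 L hc k Ps hk hns hsup P Q hPQ hQP hPs

/-- T6a: `q` even: a quadratic form on the tensor power with the tensor product form as polar
form and vanishing on pure tensors. -/
theorem T6a {m k : ℕ} (h2 : (2 : F) = 0) (hk : 2 ≤ k) (c : F)
    (Gs : Fin k → Matrix (Fin m) (Fin m) F) (hsym : ∀ i, (Gs i)ᵀ = Gs i)
    (hdiag : ∀ i u, Gs i u u = 0) :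
    ∃ q₀ : ((Fin k → Fin m) → F) → F, (∀ (t : F) x, q₀ (t • x) = t ^ 2 * q₀ x) ∧
      (∀ x y, q₀ (x + y) = q₀ x + q₀ y + ∑ a, ∑ b, x a * (c * ∏ i, Gs i (a i) (b i)) * y b) ∧
      ∀ w : Fin k → Fin m → F, q₀ (fun a => ∏ i, w i (a i)) = 0 := by
  exact Cfsg.Agent.Lib.Helper80.TIFT6a.T6a h2 hk c Gs hsym hdiag

/-- T6b: `pure tensor * factor permutation` maps pure tensors to pure tensors. -/
theorem T6b {m k : ℕ} (cs : Fin k → Matrix (Fin m) (Fin m) F) (σ : Equiv.Perm (Fin k))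
    (w : Fin k → Fin m → F) :
    ∃ w' : Fin k → Fin m → F,
      (pt cs * permM m σ) *ᵥ (fun a => ∏ i, w i (a i)) = fun a => ∏ i, w' i (a i) := by
  exact Cfsg.Agent.Lib.Helper42.TIFT6b.T6b cs σ w

/-- T6s: the pure tensors span the tensor power. -/
theorem T6s {m k : ℕ} :
    Submodule.span F {x : (Fin k → Fin m) → F | ∃ w : Fin k → Fin m → F,
      x = fun a => ∏ i, w i (a i)} = ⊤ := by
  exact Cfsg.Agent.Lib.Helper91.TIFT6s.T6s

/-- T6m: a quadratic form in rectangular coordinates with polar form `f`, vanishing on a spanning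
set stable under `H`, is `H`-invariant. -/
theorem T6m (f : (Fin n → F) → (Fin n → F) → F) (hf : IsSymplecticForm f)
    (H : Subgroup (GL (Fin n) F)) (hfix : FixesForm (matrixSet H) f) {I : Type} [Fintype I]
    [DecidableEq I] (P : Matrix (Fin n) I F) (Q : Matrix I (Fin n) F) (hPQ : P * Q = 1)
    (hQP : Q * P = 1) (G : Matrix I I F)
    (hform : ∀ x y : I → F, f (P *ᵥ x) (P *ᵥ y) = ∑ a, ∑ b, x a * G a b * y b)
    (q₀ : (I → F) → F) (hq1 : ∀ (t : F) x, q₀ (t • x) = t ^ 2 * q₀ x)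
    (hq2 : ∀ x y, q₀ (x + y) = q₀ x + q₀ y + ∑ a, ∑ b, x a * G a b * y b)
    (S : Set (I → F)) (hS : Submodule.span F S = ⊤) (hq3 : ∀ w ∈ S, q₀ w = 0)
    (hH : ∀ h ∈ H, ∀ w ∈ S, (Q * h.1 * P) *ᵥ w ∈ S) :
    ∃ Qf : (Fin n → F) → F, IsNondegenerateQuadraticForm Qf ∧
      (∀ u v : Fin n → F, QuadraticMap.polar Qf u v = f u v) ∧ H ≤ quadSimilarityGroup Qf := by
  exact Cfsg.Agent.Lib.Helper47.TIFT6m.T6m f hf H hfix P Q hPQ hQP G hform q₀ hq1 hq2 S hS hq3 hH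

/-! ## Assembly (helper71) -/

/-- T2: a bilinear form on the tensor power invariant under factor groups spanning the full
matrix algebras is a scalar multiple of a tensor product of invariant forms on the factors. -/
theorem T2 {m k : ℕ} (G : Matrix (Fin k → Fin m) (Fin k → Fin m) F) (hG : G ≠ 0)
    (R : Fin k → Subgroup (GL (Fin m) F)) (hspan : ∀ i, Submodule.span F (matrixSet (R i)) = ⊤)
    (hinv : ∀ i, ∀ A ∈ R i, (iota i A.1)ᵀ * G * iota i A.1 = G) :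
    ∃ (c : F) (Gs : Fin k → Matrix (Fin m) (Fin m) F), c ≠ 0 ∧ (∀ i, (Gs i).det ≠ 0) ∧
      (∀ i, (Gs i)ᵀ = Gs i ∨ (Gs i)ᵀ = -Gs i) ∧
      ∀ a b, G a b = c * ∏ i, Gs i (a i) (b i) := by
  classical
  have h1 := fun i => T2a (R i) (hspan i)
  choose Gs hdet hsym huniq using h1
  have hfac : ∀ i (a b : Fin k → Fin m), ∃ c : F, ∀ u v,
      G (Function.update a i u) (Function.update b i v) = c * Gs i u v := by
    intro i a b
    obtain ⟨c, hc⟩ := huniq i (Matrix.of fun u v => G (Function.update a i u)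
      (Function.update b i v)) (fun A hA => T2c i A.1 G a b (hinv i A hA))
    refine ⟨c, fun u v => ?_⟩
    have h3 := congrFun (congrFun hc u) v
    simpa using h3
  obtain ⟨c, hc, hG'⟩ := T2b G hG Gs hdet hfac
  exact ⟨c, Gs, hc, hdet, hsym, hG'⟩

/-- T3: an element `pure tensor * factor permutation` fixing a tensor product form conjugates the
factor forms into each other up to scalars. -/
theorem T3 {m k : ℕ} (c : F) (hc : c ≠ 0) (Gs : Fin k → Matrix (Fin m) (Fin m) F)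
    (hdet : ∀ i, (Gs i).det ≠ 0) (G : Matrix (Fin k → Fin m) (Fin k → Fin m) F)
    (hG : ∀ a b, G a b = c * ∏ i, Gs i (a i) (b i)) (cs : Fin k → GL (Fin m) F)
    (σ : Equiv.Perm (Fin k))
    (hinv : (pt (fun i => (cs i).1) * permM m σ)ᵀ * G * (pt (fun i => (cs i).1) * permM m σ) = G) :
    ∀ i, ∃ μ : F, μ ≠ 0 ∧ (cs (σ i)).1ᵀ * Gs (σ i) * (cs (σ i)).1 = μ • Gs i := by
  classical
  rcases Nat.eq_zero_or_pos m with rfl | hm
  · intro i
    exact ⟨1, one_ne_zero, Subsingleton.elim _ _⟩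
  · have hN : ∀ i, ∃ u v, Gs i u v ≠ 0 := by
      intro i
      by_contra hcon
      have h0 : Gs i = 0 := by
        ext u v
        by_contra huv
        exact hcon ⟨u, v, huv⟩
      apply hdet i
      rw [h0]
      have : Nonempty (Fin m) := ⟨⟨0, hm⟩⟩
      exact Matrix.det_zero
    have hprod : ∀ a b : Fin k → Fin m,
        ∏ i, ((cs (σ i)).1ᵀ * Gs (σ i) * (cs (σ i)).1) (a i) (b i) = ∏ i, Gs i (a i) (b i) := by
      intro a b
      have h1 := congrFun (congrFun hinv a) b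
      rw [T3x c Gs G hG (fun i => (cs i).1) σ a b, hG a b] at h1
      exact mul_left_cancel₀ hc h1
    exact T3y _ Gs hN hprod

/-- T6: `q` even: the quadratic form vanishing on pure tensors. -/
theorem T6 (h2 : (2 : F) = 0) (f : (Fin n → F) → (Fin n → F) → F)
    (hf : IsSymplecticForm f) (H : Subgroup (GL (Fin n) F)) (hfix : FixesForm (matrixSet H) f)
    {m k : ℕ} (hk : 2 ≤ k) (P : Matrix (Fin n) (Fin k → Fin m) F)
    (Q : Matrix (Fin k → Fin m) (Fin n) F) (hPQ : P * Q = 1) (hQP : Q * P = 1) (c : F)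
    (Gs : Fin k → Matrix (Fin m) (Fin m) F) (hsym : ∀ i, (Gs i)ᵀ = Gs i)
    (hdiag : ∀ i u, Gs i u u = 0)
    (hform : ∀ x y : (Fin k → Fin m) → F,
      f (P *ᵥ x) (P *ᵥ y) = ∑ a, ∑ b, x a * (c * ∏ i, Gs i (a i) (b i)) * y b)
    (hH : ∀ h ∈ H, ∃ (σ : Equiv.Perm (Fin k)) (cs : Fin k → GL (Fin m) F),
      Q * h.1 * P = pt (fun i => (cs i).1) * permM m σ) :
    ∃ Qf : (Fin n → F) → F, IsNondegenerateQuadraticForm Qf ∧
      (∀ u v : Fin n → F, QuadraticMap.polar Qf u v = f u v) ∧ H ≤ quadSimilarityGroup Qf := by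
  classical
  obtain ⟨q₀, hq1, hq2, hq3⟩ := T6a h2 hk c Gs hsym hdiag
  refine T6m f hf H hfix P Q hPQ hQP (Matrix.of fun a b => c * ∏ i, Gs i (a i) (b i))
    hform q₀ hq1 hq2 {x : (Fin k → Fin m) → F | ∃ w : Fin k → Fin m → F,
      x = fun a => ∏ i, w i (a i)} T6s ?_ ?_
  · rintro _ ⟨w, rfl⟩
    exact hq3 w
  · rintro h hh _ ⟨w, rfl⟩
    obtain ⟨σ, cs, hdec⟩ := hH h hh
    rw [hdec]
    exact T6b (fun i => (cs i).1) σ w

/-- TIF: the tensor-induced branch. -/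
theorem TIF (hn : 4 ≤ n) (f : (Fin n → F) → (Fin n → F) → F) (hf : IsSymplecticForm f)
    (H L : Subgroup (GL (Fin n) F)) (hfix : FixesForm (matrixSet H) f) (hL : IsMinNS H L)
    (hLa : ActsAbsolutelyIrreducibly (matrixSet L)) (hc : ⁅L, L⁆ = L)
    (k : ℕ) (Ps : Fin k → Subgroup (GL (Fin n) F)) (hk : 2 ≤ k)
    (hns : ∀ i, ¬ Ps i ≤ scalars (Fin n) F)
    (hcomm : ∀ i j, i ≠ j → ∀ x ∈ Ps i, ∀ y ∈ Ps j, x * y = y * x)
    (hsup : L = ⨆ i, Ps i)
    (hperm : ∀ h ∈ H, ∃ σ : Equiv.Perm (Fin k), ∀ i,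
      (Ps i).map (MulAut.conj h).toMonoidHom = Ps (σ i))
    (htrans : ∀ i j, ∃ h ∈ H, (Ps i).map (MulAut.conj h).toMonoidHom = Ps j) :
    (Odd (Fintype.card F) ∧ ∃ (d t : ℕ) (e : Fin n ≃ (Fin t → Fin d)) (P : GL (Fin n) F)
      (f₁ : (Fin d → F) → (Fin d → F) → F), Odd t ∧ 3 ≤ t ∧ ¬ (Fintype.card F = 3 ∧ d = 2) ∧
      IsSymplecticForm f₁ ∧ IsTensorPowerFormStructure id f f₁ e P ∧
      H ≤ tensorWreathSubgroup d t e P) ∨
    (¬ Odd (Fintype.card F) ∧ ∃ Q : (Fin n → F) → F, IsNondegenerateQuadraticForm Q ∧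
      (∀ u v : Fin n → F, QuadraticMap.polar Q u v = f u v) ∧ H ≤ quadSimilarityGroup Q) := by
  classical
  obtain ⟨m, P, Q, hm, hPQ, hQP, hsP⟩ :=
    T1a (by omega) H L hLa k Ps hk hns hcomm hsup hperm htrans
  have hR := fun i => T1b P Q hPQ hQP i (Ps i) (hsP i)
  choose R hspan hR1 hR2 using hR
  have hinj : Function.Injective Ps := T1d hm P Q hPQ hQP Ps hcomm hsP
  have hshape : ∀ h ∈ H, ∃ σ : Equiv.Perm (Fin k),
      (∀ i, (Ps i).map (MulAut.conj h).toMonoidHom = Ps (σ i)) ∧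
      ∃ (g : GL (Fin k → Fin m) F) (cs : Fin k → GL (Fin m) F), g ∈ tensorWreathStandard m k F ∧
        h.1 = P * g.1 * Q ∧ Q * h.1 * P = pt (fun i => (cs i).1) * permM m σ := by
    intro h hh
    obtain ⟨σ, hσ⟩ := hperm h hh
    obtain ⟨g, cs, hg, hhg, hgs⟩ := T1c hm hk P Q hPQ hQP Ps hsP h σ hσ
    refine ⟨σ, hσ, g, cs, hg, hhg, ?_⟩
    rw [← hgs, hhg]
    calc Q * (P * g.1 * Q) * P = (Q * P) * g.1 * (Q * P) := by simp only [Matrix.mul_assoc]
      _ = g.1 := by rw [hQP, Matrix.one_mul, Matrix.mul_one]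
  have hHg : ∀ h ∈ H, ∃ g : GL (Fin k → Fin m) F, g ∈ tensorWreathStandard m k F ∧
      h.1 = P * g.1 * Q := by
    intro h hh
    obtain ⟨σ, -, g, cs, hg, hhg, -⟩ := hshape h hh
    exact ⟨g, hg, hhg⟩
  have hHd : ∀ h ∈ H, ∃ (σ : Equiv.Perm (Fin k)) (cs : Fin k → GL (Fin m) F),
      Q * h.1 * P = pt (fun i => (cs i).1) * permM m σ := by
    intro h hh
    obtain ⟨σ, -, g, cs, -, -, hdec⟩ := hshape h hh
    exact ⟨σ, cs, hdec⟩
  have hHt : ∀ i j, ∃ h ∈ H, ∃ (σ : Equiv.Perm (Fin k)) (cs : Fin k → GL (Fin m) F), σ i = j ∧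
      Q * h.1 * P = pt (fun i => (cs i).1) * permM m σ := by
    intro i j
    obtain ⟨h, hh, hij⟩ := htrans i j
    obtain ⟨σ, hσ, g, cs, -, -, hdec⟩ := hshape h hh
    refine ⟨h, hh, σ, cs, hinj ?_, hdec⟩
    rw [← hσ i, hij]
  obtain ⟨G, hG0, hGskew, hGdiag, hGform, hGinv⟩ := TG (by omega) f hf P Q hPQ hQP
  have hPsL : ∀ i, Ps i ≤ L := fun i => by rw [hsup]; exact le_iSup Ps i
  have hfixx : ∀ x ∈ H, ∀ u v, f (x.1 *ᵥ u) (x.1 *ᵥ v) = f u v :=
    fun x hx u v => hfix _ ⟨x, hx, rfl⟩ u v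
  have hinv : ∀ i, ∀ A ∈ R i, (iota i A.1)ᵀ * G * iota i A.1 = G := by
    intro i A hA
    obtain ⟨x, hx, hxA⟩ := hR1 i A hA
    apply hGinv x.1 _ (hfixx x (hL.le (hPsL i hx)))
    rw [hxA]
    calc Q * (P * iota i A.1 * Q) * P = (Q * P) * iota i A.1 * (Q * P) := by
          simp only [Matrix.mul_assoc]
      _ = iota i A.1 := by rw [hQP, Matrix.one_mul, Matrix.mul_one]
  obtain ⟨c, Gs, hc0, hdet, hsym, hGprod⟩ := T2 G hG0 R hspan hinv
  have hconj : ∀ i j, ∃ (μ : F) (B : GL (Fin m) F), μ ≠ 0 ∧ B.1ᵀ * Gs j * B.1 = μ • Gs i := by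
    intro i j
    obtain ⟨h, hh, σ, cs, hσ, hdec⟩ := hHt i j
    have hinv' := hGinv h.1 _ (hfixx h hh) hdec
    obtain ⟨μ, hμ, hμe⟩ := T3 c hc0 Gs hdet G hGprod cs σ hinv' i
    rw [hσ] at hμe
    exact ⟨μ, cs j, hμ, hμe⟩
  have hform : ∀ x y : (Fin k → Fin m) → F,
      f (P *ᵥ x) (P *ᵥ y) = ∑ a, ∑ b, x a * (c * ∏ i, Gs i (a i) (b i)) * y b := by
    intro x y
    rw [hGform]
    refine Finset.sum_congr rfl fun a _ => Finset.sum_congr rfl fun b _ => ?_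
    rw [hGprod]
  by_cases hq : Odd (Fintype.card F)
  · left
    have h2 : (2 : F) ≠ 0 := by
      intro h20
      have hchar : ringChar F ∣ 2 := (ringChar.spec F 2).mp (by exact_mod_cast h20)
      obtain ⟨p, hp⟩ := CharP.exists F
      have hpp : p.Prime := CharP.char_is_prime F p
      have hrc : ringChar F = p := ringChar.eq F p
      rw [hrc] at hchar
      have hp2 : p = 2 := (Nat.prime_dvd_prime_iff_eq hpp Nat.prime_two).1 hchar
      subst hp2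
      obtain ⟨j, -, hj⟩ := FiniteField.card F 2
      rw [hj] at hq
      have hj0 : (j : ℕ) ≠ 0 := j.ne_zero
      exact (Nat.not_even_iff_odd.mpr hq) ((Nat.even_pow.mpr ⟨even_two, hj0⟩))
    obtain ⟨hkodd, hskew⟩ := T3b (by omega) h2 c hc0 Gs hdet hsym hconj G hGprod hGskew
    have hdiag : ∀ i u, Gs i u u = 0 := by
      intro i u
      have h1 := congrFun (congrFun (hskew i) u) u
      rw [Matrix.transpose_apply, Matrix.neg_apply] at h1
      have h3 : (2 : F) * Gs i u u = 0 := by linear_combination h1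
      rcases mul_eq_zero.1 h3 with h4 | h4
      · exact absurd h4 h2
      · exact h4
    have hk3 : 3 ≤ k := by
      rcases hkodd with ⟨j, hj⟩
      omega
    have hex : ¬ (Fintype.card F = 3 ∧ m = 2) := by
      rintro ⟨hq3, rfl⟩
      refine T5 hq3 L hc k Ps hk hns hsup P Q hPQ hQP ?_
      intro i x hx
      obtain ⟨A, -, hA⟩ := hR2 i x hx
      exact ⟨A, hA⟩
    obtain ⟨e, P', f₁, hf₁, htp, hHW⟩ :=
      T4 f hf H hm hk P Q hPQ hQP c hc0 Gs hdet hskew hdiag hconj hform hHg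
    exact ⟨hq, m, k, e, P', f₁, hkodd, hk3, hex, hf₁, htp, hHW⟩
  · right
    have h2 : (2 : F) = 0 := by
      obtain ⟨p, hp⟩ := CharP.exists F
      have hpp : p.Prime := CharP.char_is_prime F p
      have : Fact p.Prime := ⟨hpp⟩
      obtain ⟨j, -, hj⟩ := FiniteField.card F p
      have hev : Even (Fintype.card F) := Nat.not_odd_iff_even.mp hq
      rw [hj] at hev
      have h2p : 2 ∣ p := Nat.Prime.dvd_of_dvd_pow Nat.prime_two hev.two_dvd
      have hp2 : p = 2 := ((Nat.prime_dvd_prime_iff_eq Nat.prime_two hpp).mp h2p).symm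
      subst hp2
      exact_mod_cast CharP.cast_eq_zero F 2
    obtain ⟨hsym', hdiag⟩ := T3c h2 c hc0 Gs hdet hsym hconj G hGprod hGdiag
    exact ⟨hq, T6 h2 f hf H hfix hk P Q hPQ hQP c Gs hsym' hdiag hform hHd⟩

end Cfsg.Agent.Lib.Helper71.SPGTIF
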