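import Mathlib
import Cfsg.Prelude.Def_GeometricClasses
import Cfsg.Prelude.Def_LieClassical
import Cfsg.Agent.Lib.Helper71.Asch0
import Cfsg.Agent.Lib.Helper71.Asch5
import Cfsg.Agent.Lib.Helper57.ASCOREA
import Cfsg.Agent.Lib.Helper82.ASCOREB
import Cfsg.Agent.Lib.Helper46.ASB3s
import Cfsg.Agent.Lib.Helper46.ASB4
import Cfsg.Agent.Lib.Helper61.ASB6
import Cfsg.Agent.Lib.Helper67.ASNL
import Cfsg.Agent.Lib.Helper46.ASB7core
import Cfsg.Agent.Lib.Helper73.SLPC2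
import Cfsg.Agent.Lib.Helper16.SLPC3
import Cfsg.Agent.Lib.Helper29.SUPU6

import Cfsg.Agent.Lib.Helper28.OMPO1a
import Cfsg.Agent.Lib.Helper61.OMPO1b
import Cfsg.Agent.Lib.Helper82.OMPFK
import Cfsg.Agent.Lib.Helper29.OMPO3a
import Cfsg.Agent.Lib.Helper57.OMPO3b
import Cfsg.Agent.Lib.Helper23.OMPO3r
import Cfsg.Agent.Lib.Helper8.OMPO5
import Cfsg.Agent.Lib.Helper77.OMPO7
import Cfsg.Agent.Lib.Helper54.OMPO8a
import Cfsg.Agent.Lib.Helper14.OMPO8b
import Cfsg.Agent.Lib.Helper19.OMPOA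
import Cfsg.Agent.Lib.Helper46.OMPT0
import Cfsg.Agent.Lib.Helper79.OMPNO1
import Cfsg.Agent.Lib.Helper56.OMPO4
import Cfsg.Agent.Lib.Helper79.OMPNO2
import Cfsg.Agent.Lib.Helper83.OMPNO5
import Cfsg.Agent.Lib.Helper56.OMPOD
import Cfsg.Agent.Lib.Helper46.OMPT1
import Cfsg.Agent.Lib.Helper56.OMPT2
import Cfsg.Agent.Lib.Helper75.OMPT5
import Cfsg.Agent.Lib.Helper4.OMPTRa
import Cfsg.Agent.Lib.Helper63.OMPTRb

/-! Project OMP (helper71): the maximal subgroups of `Ω_n(q)`, `n = 2m+1` an odd prime `≥ 7`, `q` odd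
(statements S5814 = omega7, S5859 = omega11): assembly of the pieces proved by the team under
`Cfsg.Agent.Lib.<Seat>.OMP*` into the generic theorems `genO`, `finalO`. -/

set_option autoImplicit false

namespace Cfsg.Agent.Lib.Helper71.OMPMain

open Matrix Cfsg.Geo Cfsg.Agent.Lib.Helper71.Asch
open Cfsg.Agent.Lib.Helper57.ASCOREA (coreA)
open Cfsg.Agent.Lib.Helper82.ASCOREB (coreB)
open Cfsg.Agent.Lib.Helper46.ASB3s (B3s B3a)
open Cfsg.Agent.Lib.Helper46.ASB4 (B4)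
open Cfsg.Agent.Lib.Helper61.ASB6 (B6)
open Cfsg.Agent.Lib.Helper67.ASNL (NL_core exists_subfield_aut)
open Cfsg.Agent.Lib.Helper46.ASB7core (B7core)
open Cfsg.Agent.Lib.Helper73.SLPC2 (C2)
open Cfsg.Agent.Lib.Helper16.SLPC3 (C3)
open Cfsg.Agent.Lib.Helper29.SUPU6 (U6)
open Cfsg.Agent.Lib.Helper28.OMPO1a (O1a)
open Cfsg.Agent.Lib.Helper61.OMPO1b (O1b)
open Cfsg.Agent.Lib.Helper82.OMPFK (FK)
open Cfsg.Agent.Lib.Helper29.OMPO3a (O3a)
open Cfsg.Agent.Lib.Helper57.OMPO3b (O3b)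
open Cfsg.Agent.Lib.Helper23.OMPO3r (O3r)
open Cfsg.Agent.Lib.Helper8.OMPO5 (O5)
open Cfsg.Agent.Lib.Helper77.OMPO7 (O7)
open Cfsg.Agent.Lib.Helper54.OMPO8a (O8a)
open Cfsg.Agent.Lib.Helper14.OMPO8b (O8b)
open Cfsg.Agent.Lib.Helper19.OMPOA (OA)
open Cfsg.Agent.Lib.Helper79.OMPNO1 (NO1)
open Cfsg.Agent.Lib.Helper56.OMPO4 (O4)
open Cfsg.Agent.Lib.Helper79.OMPNO2 (NO2)
open Cfsg.Agent.Lib.Helper83.OMPNO5 (NO5)
open Cfsg.Agent.Lib.Helper56.OMPOD (OD1 OD2)

variable {n : ℕ} {F : Type*} [Field F] [Fintype F]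


/-! ## Transport along `e : κ ≃ Fin n` -/

section Transport

variable {κ : Type} [Fintype κ] [DecidableEq κ]

/-- transport of vectors: `v ↦ v ∘ e.symm` -/
def tv (e : κ ≃ Fin n) : (κ → F) ≃ₗ[F] (Fin n → F) := LinearEquiv.funCongrLeft F F e.symm

/-- the transported quadratic form on `Fin n → F` -/
def tQ (e : κ ≃ Fin n) (Q : (κ → F) → F) : (Fin n → F) → F := fun v => Q (v ∘ e)

/-- the transported subspace -/
def tW (e : κ ≃ Fin n) (W' : Submodule F (Fin n → F)) : Submodule F (κ → F) :=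
  W'.comap (tv e).toLinearMap

/-- T0a -/
theorem T0a (e : κ ≃ Fin n) (Q : (κ → F) → F) (hQ : IsNondegenerateQuadraticForm Q) :
    IsNondegenerateQuadraticForm (tQ e Q) :=
  Cfsg.Agent.Lib.Helper46.OMPT0.T0a e Q hQ

/-- T0b -/
theorem T0b (e : κ ≃ Fin n) (Q : (κ → F) → F) (H : Subgroup (GL κ F))
    (hH : H ≤ omegaGL Q) :
    FixesQuadForm (matrixSet (H.map (glReindex e).toMonoidHom)) (tQ e Q) :=
  Cfsg.Agent.Lib.Helper46.OMPT0.T0b e Q H hH

/-- T0c -/
theorem T0c (e : κ ≃ Fin n) (Q : (κ → F) → F) :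
    (gramMatrix (QuadraticMap.polar (tQ e Q))).det = (gramMatrix (QuadraticMap.polar Q)).det :=
  Cfsg.Agent.Lib.Helper46.OMPT0.T0c e Q

/-- T1 -/
theorem T1 (e : κ ≃ Fin n) (Q : (κ → F) → F) (H : Subgroup (GL κ F))
    (W' : Submodule F (Fin n → F)) :
    (H.map (glReindex e).toMonoidHom ≤ subspaceStabilizer W' → H ≤ subspaceStabilizer (tW e W')) ∧
    (W' ≠ ⊥ → tW e W' ≠ ⊥) ∧ (W' ≠ ⊤ → tW e W' ≠ ⊤) ∧
    Module.finrank F (tW e W') = Module.finrank F W' ∧
    (IsTotallySingularQuad (tQ e Q) W' → IsTotallySingularQuad Q (tW e W')) ∧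
    (IsNondegenerateOn (QuadraticMap.polar (tQ e Q)) W' →
      IsNondegenerateOn (QuadraticMap.polar Q) (tW e W')) ∧
    (IsPlusTypeOn Q (tW e W') → IsPlusTypeOn (tQ e Q) W') :=
  Cfsg.Agent.Lib.Helper46.OMPT1.T1 e Q H W'

/-- T2 -/
theorem T2 (e : κ ≃ Fin n) (Q : (κ → F) → F) (H : Subgroup (GL κ F)) {t : ℕ}
    (D' : Fin t → Submodule F (Fin n → F)) :
    (H.map (glReindex e).toMonoidHom ≤ decompositionStabilizer D' →
      H ≤ decompositionStabilizer (fun i => tW e (D' i))) ∧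
    (IsOrthogonalMDecomposition (tQ e Q) 1 D' →
      IsOrthogonalMDecomposition Q 1 (fun i => tW e (D' i))) :=
  Cfsg.Agent.Lib.Helper56.OMPT2.T2 e Q H D'

/-- T5 -/
theorem T5 (e : κ ≃ Fin n) (Q : (κ → F) → F) (H : Subgroup (GL κ F)) (F₀ : Subfield F)
    (P' : GL (Fin n) F) :
    (H.map (glReindex e).toMonoidHom ≤ subfieldSubgroup F₀ P' →
      H ≤ subfieldSubgroup F₀ ((glReindex e).symm P')) ∧
    (IsQuadFormRationalStructure (tQ e Q) F₀ P' →
      IsQuadFormRationalStructure Q F₀ ((glReindex e).symm P')) :=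
  Cfsg.Agent.Lib.Helper75.OMPT5.T5 e Q H F₀ P'

/-- TRa -/
theorem TRa (e : κ ≃ Fin n) (H : Subgroup (GL κ F)) (P' : Subgroup (GL (Fin n) F))
    (h : IsResidualCore (H.map (glReindex e).toMonoidHom) P') :
    IsResidualCore H (P'.comap (glReindex e).toMonoidHom) :=
  Cfsg.Agent.Lib.Helper4.OMPTRa.TRa e H P' h

/-- TRb -/
theorem TRb (e : κ ≃ Fin n) (P' : Subgroup (GL (Fin n) F))
    (h : ∃ (σ : F ≃+* F) (f : (κ → F) → (κ → F) → F), IsUnitaryForm σ f ∧
      FixesForm (matrixSet (P'.comap (glReindex e).toMonoidHom)) f) :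
    ∃ (σ : F ≃+* F) (f' : (Fin n → F) → (Fin n → F) → F), IsUnitaryForm σ f' ∧
      FixesForm (matrixSet P') f' :=
  Cfsg.Agent.Lib.Helper63.OMPTRb.TRb e P' h


end Transport


/-! ## Assembly (helper71) -/

/-- an irreducible group is not scalar (`n ≥ 2`) -/
theorem not_scalar_of_irr (hn : 2 ≤ n) (H : Subgroup (GL (Fin n) F))
    (h : ActsIrreducibly (matrixSet H)) : ¬ H ≤ scalars (Fin n) F := by
  classical
  intro hs
  set W : Submodule F (Fin n → F) := Submodule.span F {Pi.single (⟨0, by omega⟩ : Fin n) (1 : F)}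
    with hW
  have hinv : ∀ s ∈ matrixSet H, W.map (Matrix.toLin' s) ≤ W := by
    rintro _ ⟨g, hg, rfl⟩ w hw
    obtain ⟨u, hu, rfl⟩ := Submodule.mem_map.mp hw
    obtain ⟨c, hc⟩ := (mem_scalars_iff g).mp (hs hg)
    show Matrix.toLin' g.1 u ∈ W
    rw [Matrix.toLin'_apply, hc, Matrix.smul_mulVec, Matrix.one_mulVec]
    exact W.smul_mem _ hu
  rcases h W hinv with h0 | h1
  · have : Pi.single (⟨0, by omega⟩ : Fin n) (1 : F) ∈ W := Submodule.mem_span_singleton_self _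
    rw [h0, Submodule.mem_bot] at this
    have h3 := congrFun this ⟨0, by omega⟩
    simp at h3
  · have : Pi.single (⟨1, by omega⟩ : Fin n) (1 : F) ∈ W := by rw [h1]; trivial
    obtain ⟨c, hc⟩ := Submodule.mem_span_singleton.mp this
    have h3 := congrFun hc ⟨1, by omega⟩
    have hne : (⟨1, by omega⟩ : Fin n) ≠ ⟨0, by omega⟩ := by
      intro h; simpa using congrArg Fin.val h
    simp [hne] at h3

/-- isometries of `Q` are isometries of its polar form -/
theorem fixes_polar {Q : (Fin n → F) → F} {L : Subgroup (GL (Fin n) F)}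
    (hfix : FixesQuadForm (matrixSet L) Q) : FixesForm (matrixSet L) (QuadraticMap.polar Q) := by
  intro s hs u v
  unfold QuadraticMap.polar
  rw [← Matrix.mulVec_add, hfix s hs, hfix s hs, hfix s hs]

/-- GENO: the structure of a group of isometries of a non-degenerate quadratic form in odd prime
dimension `n ≥ 5` over a finite field of odd characteristic. -/
theorem genO (hn : 5 ≤ n) (hp : n.Prime) (Q : (Fin n → F) → F)
    (hQ : IsNondegenerateQuadraticForm Q) (h2 : (2 : F) ≠ 0)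
    (hdisc : ∃ c : F, c ≠ 0 ∧ (gramMatrix (QuadraticMap.polar Q)).det = -2 * c ^ 2)
    (H : Subgroup (GL (Fin n) F)) (hfix : FixesQuadForm (matrixSet H) Q) :
    (∃ W : Submodule F (Fin n → F), W ≠ ⊥ ∧ W ≠ ⊤ ∧ IsTotallySingularQuad Q W ∧
      H ≤ subspaceStabilizer W) ∨
    (∃ W : Submodule F (Fin n → F), W ≠ ⊥ ∧ W ≠ ⊤ ∧ Even (Module.finrank F W) ∧
      IsNondegenerateOn (QuadraticMap.polar Q) W ∧
      ¬ (Fintype.card F = 3 ∧ Module.finrank F W = 2 ∧ IsPlusTypeOn Q W) ∧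
      H ≤ subspaceStabilizer W) ∨
    (∃ (D : Fin n → Submodule F (Fin n → F)) (P : GL (Fin n) F),
      IsOrthogonalMDecomposition Q 1 D ∧ H ≤ decompositionStabilizer D ∧
      ∀ F₀ : Subfield F, IsQuadFormRationalStructure Q F₀ P ∧ H ≤ subfieldSubgroup F₀ P) ∨
    (∃ (F₀ : Subfield F) (r : ℕ) (P : GL (Fin n) F), r.Prime ∧
      Fintype.card F = Nat.card F₀ ^ r ∧ IsQuadFormRationalStructure Q F₀ P ∧
      H ≤ subfieldSubgroup F₀ P) ∨
    InOrthogonalResidualClass H := by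
  classical
  have hodd : Odd n := hp.odd_of_ne_two (by omega)
  have hsub : ∀ L : Subgroup (GL (Fin n) F), L ≤ H → FixesQuadForm (matrixSet L) Q := by
    rintro L hL _ ⟨g, hg, rfl⟩ v
    exact hfix _ ⟨g, hL hg, rfl⟩ v
  by_cases h1 : ActsIrreducibly (matrixSet H)
  · have h2a : ActsAbsolutelyIrreducibly (matrixSet H) := by
      by_contra hna
      obtain ⟨K, hK, hKc⟩ := FK hp H h1 hna
      exact not_scalar_of_irr (by omega) H h1 (O4 Q hQ h2 hodd H hfix K hK hKc)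
    obtain ⟨L, hL⟩ := B4 (by omega) H h2a
    have hLfix : FixesQuadForm (matrixSet L) Q := hsub L hL.le
    -- Clifford
    have hcase : ActsAbsolutelyIrreducibly (matrixSet L) ∨
        (∃ (D : Fin n → Submodule F (Fin n → F)) (P : GL (Fin n) F),
          IsOrthogonalMDecomposition Q 1 D ∧ H ≤ decompositionStabilizer D ∧
          ∀ F₀ : Subfield F, IsQuadFormRationalStructure Q F₀ P ∧ H ≤ subfieldSubgroup F₀ P) := by
      rcases coreA (by omega) H L h1 hL.le hL.nrm with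
        ⟨t, m, D, hD, hHD, hiso, hinv⟩ | ⟨d, k, e, P, R, hR, hR1, hR2⟩
      · have htm := C2 D hD
        have ht2 := hD.two_le
        have htn : t = n := by
          have hdvd : t ∣ n := ⟨m, htm.symm⟩
          rcases (Nat.dvd_prime hp).1 hdvd with h | h
          · omega
          · exact h
        subst htn
        have hm1 : m = 1 := by
          have ht0 : 0 < t := by omega
          have : t * m = t * 1 := by rw [htm, mul_one]
          exact Nat.eq_of_mul_eq_mul_left ht0 this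
        subst hm1
        have hND := O3a Q hQ h2 hodd H L hfix h1 hL.le D hD hHD hiso hinv
        have hiso' := O3b Q H hfix h1 D hD hHD
        have hOD : IsOrthogonalMDecomposition Q 1 D := ⟨hND, hiso'⟩
        obtain ⟨P, hP1, hP2⟩ := O3r Q hQ h2 hodd hdisc D hOD
        refine Or.inr ⟨D, P, hOD, hHD, fun F₀ => ⟨hP1 F₀, ?_⟩⟩
        intro g hg
        exact hP2 F₀ g (hHD hg) (fun v => hfix _ ⟨g, hg, rfl⟩ v)
      · have hcard : n = d * k := by
          have := Fintype.card_congr e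
          simpa using this
        have hdn : d = 1 ∨ d = n := (Nat.dvd_prime hp).1 ⟨k, hcard⟩
        rcases hdn with hd | hd
        · subst hd
          exact absurd (B3s e P R L hR1) hL.ns
        · have hk1 : k = 1 := by
            have hd0 : 0 < d := by omega
            have : d * k = d * 1 := by rw [← hcard, mul_one, hd]
            exact Nat.eq_of_mul_eq_mul_left hd0 this
          subst hk1
          by_cases hRa : ActsAbsolutelyIrreducibly (matrixSet R)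
          · exact Or.inl (B3a e P R L hRa hR2)
          · obtain ⟨r, K, hr, hK, hHK, hKc⟩ :=
              coreB (by omega) H L hL.le hL.nrm e P R hR hR1 hR2 hRa
            have hrn : r = n := by
              rcases (Nat.dvd_prime hp).1 (C3 (by omega) r K hK) with h | h
              · exact absurd h hr.one_lt.ne'
              · exact h
            subst hrn
            exact absurd (O4 Q hQ h2 hodd L hLfix K hK hKc) hL.ns
    rcases hcase with hLa | hfr
    · rcases hL.min ⁅L, L⁆ (commutator_le_self L) hL.nrm.commutator with hc | hc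
      · exact (O5 Q hQ (by omega) hodd L hLa hLfix hc).elim
      · rcases B6 H L hL hc with ⟨hs, hna⟩ | ⟨k, Ps, hk, hns, hcomm, hsup, -, -⟩
        · by_cases hsubf : ∃ F₀ : Subfield F, F₀ ≠ ⊤ ∧ RealisableOver F₀ (matrixSet L)
          · obtain ⟨F₀, hF₀, hreal⟩ := hsubf
            obtain ⟨F₁, r, τ, hr, hcard, hle, hfixτ⟩ := exists_subfield_aut F₀ hF₀
            obtain ⟨B, hB⟩ := hreal
            have hB₁ : ∀ s ∈ matrixSet L, ∀ i j, (B.1 * s * (B⁻¹ : GL (Fin n) F).1) i j ∈ F₁ :=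
              fun s hs i j => hle (hB s hs i j)
            have hHle : H ≤ subfieldSubgroup F₁ B⁻¹ := by
              intro h hh
              have key := NL_core L hLa F₁ τ hfixτ B hB₁ h (fun x hx => hL.nrm h hh x hx)
              unfold subfieldSubgroup
              refine ⟨B * h * B⁻¹, key, ?_⟩
              show B⁻¹ * (B * h * B⁻¹) * B⁻¹⁻¹ = h
              group
            obtain ⟨ζ, hζ, hrat⟩ := O8a (by omega) L hLa (QuadraticMap.polar Q)
              hQ.polar_bilinear hQ.nondegenerate (fixes_polar hLfix) F₁ τ hfixτ B hB₁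
            obtain ⟨P', hP', hsg⟩ := O8b Q hQ h2 hodd hdisc F₁ r hr hcard B⁻¹ ζ hζ hrat
            exact Or.inr (Or.inr (Or.inr (Or.inl
              ⟨F₁, r, P', hr, hcard, hP', by rw [hsg]; exact hHle⟩)))
          · refine Or.inr (Or.inr (Or.inr (Or.inr
              ⟨L, B7core H L hL.le hL.nrm hLa hc hs hna ?_, ?_⟩)))
            · intro F₀ hF₀ hreal
              exact hsubf ⟨F₀, hF₀, hreal⟩
            · rintro ⟨σ, f, hf, hffix⟩
              exact hsubf (O7 (by omega) L hLa (QuadraticMap.polar Q) hQ.polar_bilinear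
                hQ.nondegenerate (fixes_polar hLfix) σ f hf hffix)
        · exact (U6 hp L hLa k Ps hk hns hcomm hsup).elim
    · exact Or.inr (Or.inr (Or.inl hfr))
  · rcases O1a Q hQ h2 hodd H hfix h1 with ⟨W, h0, htop, hts, hle⟩ | ⟨W, h0, htop, hev, hnd, hle⟩
    · exact Or.inl ⟨W, h0, htop, hts, hle⟩
    · by_cases hex : Fintype.card F = 3 ∧ Module.finrank F W = 2 ∧ IsPlusTypeOn Q W
      · obtain ⟨W₂, h0', htop', hev', hne2, hnd', hle'⟩ :=
          O1b Q hQ h2 hodd hn hex.1 H hfix W hnd hex.2.1 hex.2.2 hle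
        exact Or.inr (Or.inl ⟨W₂, h0', htop', hev', hnd', fun h => hne2 h.2.1, hle'⟩)
      · exact Or.inr (Or.inl ⟨W, h0, htop, hev, hnd, hex, hle⟩)

/-- TR (assembly): the residual class transports back. -/
theorem TR {κ : Type} [Fintype κ] [DecidableEq κ] (e : κ ≃ Fin n) (H : Subgroup (GL κ F))
    (h : InOrthogonalResidualClass (H.map (glReindex e).toMonoidHom)) :
    InOrthogonalResidualClass H := by
  obtain ⟨P', hcore, hnu⟩ := h
  exact ⟨P'.comap (glReindex e).toMonoidHom, TRa e H P' hcore, fun hu => hnu (TRb e P' hu)⟩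

/-- `IsMaximalIn K H`, `H ≤ M`, `¬ K ≤ M` give `H = M ⊓ K`. -/
theorem eq_inf_of_max' {κ : Type} [Fintype κ] [DecidableEq κ] {K H M : Subgroup (GL κ F)}
    (hH : IsMaximalIn K H) (hHM : H ≤ M) (hM : ¬ K ≤ M) : H = M ⊓ K := by
  rcases hH.2 (M ⊓ K) (le_inf hHM hH.1.le) inf_le_right with h | h
  · exact h.symm
  · exact absurd (h ▸ inf_le_left) hM

/-- FINAL: the maximal subgroups of `Ω_{2m+1}(q)`, `q` odd, `m` odd, `2m+1 ≥ 7` prime. -/
theorem finalO (m n : ℕ) (hnm : n = 2 * m + 1) (hp : n.Prime) (hn : 5 ≤ n) (hm : Odd m)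
    (hodd : Odd (Fintype.card F)) (H : Subgroup (GL (Unit ⊕ (Fin m ⊕ Fin m)) F))
    (hH : IsMaximalIn (omegaGL (Cfsg.quadFormOdd m F)) H) :
    (∃ W : Submodule F (Unit ⊕ (Fin m ⊕ Fin m) → F), W ≠ ⊥ ∧
      IsTotallySingularQuad (Cfsg.quadFormOdd m F) W ∧
      H = subspaceStabilizer W ⊓ omegaGL (Cfsg.quadFormOdd m F)) ∨
    (∃ W : Submodule F (Unit ⊕ (Fin m ⊕ Fin m) → F), W ≠ ⊥ ∧ Even (Module.finrank F W) ∧
      IsNondegenerateOn (QuadraticMap.polar (Cfsg.quadFormOdd m F)) W ∧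
      ¬ (Fintype.card F = 3 ∧ Module.finrank F W = 2 ∧ IsPlusTypeOn (Cfsg.quadFormOdd m F) W) ∧
      H = subspaceStabilizer W ⊓ omegaGL (Cfsg.quadFormOdd m F)) ∨
    ((Fintype.card F).Prime ∧ ∃ D : Fin n → Submodule F (Unit ⊕ (Fin m ⊕ Fin m) → F),
      IsOrthogonalMDecomposition (Cfsg.quadFormOdd m F) 1 D ∧
      H = decompositionStabilizer D ⊓ omegaGL (Cfsg.quadFormOdd m F)) ∨
    (∃ (F₀ : Subfield F) (r : ℕ) (P : GL (Unit ⊕ (Fin m ⊕ Fin m)) F), r.Prime ∧
      Fintype.card F = Nat.card F₀ ^ r ∧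
      IsQuadFormRationalStructure (Cfsg.quadFormOdd m F) F₀ P ∧
      H = subfieldSubgroup F₀ P ⊓ omegaGL (Cfsg.quadFormOdd m F)) ∨
    InOrthogonalResidualClass H := by
  classical
  set Q₀ := Cfsg.quadFormOdd m F with hQ₀
  have hcardκ : Fintype.card (Unit ⊕ (Fin m ⊕ Fin m)) = n := by
    simp [hnm]; ring
  have hk5 : 5 ≤ Fintype.card (Unit ⊕ (Fin m ⊕ Fin m)) := by rw [hcardκ]; exact hn
  let e : Unit ⊕ (Fin m ⊕ Fin m) ≃ Fin n := Fintype.equivFinOfCardEq hcardκ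
  have hQnd : IsNondegenerateQuadraticForm Q₀ := OD1 hodd m
  have h2 : (2 : F) ≠ 0 := by
    intro h
    have hch : ringChar F ∣ 2 := (ringChar.spec F 2).mp (by exact_mod_cast h)
    have hdc : ringChar F ∣ Fintype.card F := by
      have := (ringChar.spec F (Fintype.card F)).mp (by simp)
      exact this
    have hpr : (ringChar F).Prime := CharP.char_is_prime F (ringChar F)
    have h2' : ringChar F = 2 := (Nat.prime_dvd_prime_iff_eq hpr Nat.prime_two).mp hch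
    rw [h2'] at hdc
    exact (Nat.not_even_iff_odd.mpr hodd) (even_iff_two_dvd.mpr hdc)
  have hdisc : ∃ c : F, c ≠ 0 ∧
      (gramMatrix (QuadraticMap.polar (tQ e Q₀))).det = -2 * c ^ 2 := by
    refine ⟨1, one_ne_zero, ?_⟩
    rw [T0c, OD2, hm.neg_one_pow]
    ring
  have hfix' := T0b e Q₀ H hH.1.le
  have hne : ∀ (F₀ : Subfield F) (r : ℕ), r.Prime → Fintype.card F = Nat.card F₀ ^ r →
      F₀ ≠ ⊤ := by
    intro F₁ r hr hcard htop
    rw [htop] at hcard
    have h1 : Nat.card (⊤ : Subfield F) = Fintype.card F := by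
      rw [← Nat.card_eq_fintype_card]
      exact Nat.card_congr Subfield.topEquiv.toEquiv
    rw [h1] at hcard
    have h2 : 1 < Fintype.card F := Fintype.one_lt_card
    have h3 : Fintype.card F ^ 1 < Fintype.card F ^ r :=
      Nat.pow_lt_pow_right h2 hr.one_lt
    rw [pow_one] at h3
    omega
  rcases genO hn hp (tQ e Q₀) (T0a e Q₀ hQnd) h2 hdisc _ hfix' with
    ⟨W', h0, htop, hts, hle⟩ | ⟨W', h0, htop, hev, hnd, hex, hle⟩ | ⟨D', P', hOD, hle, hrat⟩ |
    ⟨F₀, r, P', hr, hcard, hrat, hle⟩ | hres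
  · obtain ⟨t1, t2, t3, t4, t5, t6, t7⟩ := T1 e Q₀ H W'
    exact Or.inl ⟨tW e W', t2 h0, t5 hts,
      eq_inf_of_max' hH (t1 hle) (NO1 Q₀ hQnd hodd hk5 _ (t2 h0) (t3 htop))⟩
  · obtain ⟨t1, t2, t3, t4, t5, t6, t7⟩ := T1 e Q₀ H W'
    refine Or.inr (Or.inl ⟨tW e W', t2 h0, by rw [t4]; exact hev, t6 hnd, ?_,
      eq_inf_of_max' hH (t1 hle) (NO1 Q₀ hQnd hodd hk5 _ (t2 h0) (t3 htop))⟩)
    rintro ⟨hc3, hd2, hpl⟩
    exact hex ⟨hc3, by rw [← t4]; exact hd2, t7 hpl⟩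
  · by_cases hprime : (Fintype.card F).Prime
    · obtain ⟨s1, s2⟩ := T2 e Q₀ H D'
      have hD := s2 hOD
      exact Or.inr (Or.inr (Or.inl ⟨hprime, _, hD,
        eq_inf_of_max' hH (s1 hle) (NO2 Q₀ hQnd hodd hk5 _ hD.decomp)⟩))
    · obtain ⟨F₀, r, hr, hcard⟩ := OA hprime
      obtain ⟨u1, u2⟩ := T5 e Q₀ H F₀ P'
      exact Or.inr (Or.inr (Or.inr (Or.inl ⟨F₀, r, _, hr, hcard, u2 (hrat F₀).1,
        eq_inf_of_max' hH (u1 (hrat F₀).2) (NO5 Q₀ hQnd hodd hk5 F₀ (hne F₀ r hr hcard) _)⟩)))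
  · obtain ⟨u1, u2⟩ := T5 e Q₀ H F₀ P'
    exact Or.inr (Or.inr (Or.inr (Or.inl ⟨F₀, r, _, hr, hcard, u2 hrat,
      eq_inf_of_max' hH (u1 hle) (NO5 Q₀ hQnd hodd hk5 F₀ (hne F₀ r hr hcard) _)⟩)))
  · exact Or.inr (Or.inr (Or.inr (Or.inr (TR e H hres))))

end Cfsg.Agent.Lib.Helper71.OMPMain
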