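import Mathlib
import Cfsg.Prelude.Def_GeometricClasses
import Cfsg.Prelude.Def_LieClassical
import Cfsg.Agent.Lib.Helper71.Asch0
import Cfsg.Agent.Lib.Helper71.Asch5
import Cfsg.Agent.Lib.Helper71.SLP0
import Cfsg.Agent.Lib.Helper57.ASCOREA
import Cfsg.Agent.Lib.Helper82.ASCOREB
import Cfsg.Agent.Lib.Helper46.ASB3s
import Cfsg.Agent.Lib.Helper46.ASB4
import Cfsg.Agent.Lib.Helper61.ASB6
import Cfsg.Agent.Lib.Helper67.ASNL
import Cfsg.Agent.Lib.Helper46.ASB7core
import Cfsg.Agent.Lib.Helper73.SLPC2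
import Cfsg.Agent.Lib.Helper16.SLPC3
import Cfsg.Agent.Lib.Helper21.SUPU1
import Cfsg.Agent.Lib.Helper37.SUPU2
import Cfsg.Agent.Lib.Helper1.SUPU3
import Cfsg.Agent.Lib.Helper20.SUPU4
import Cfsg.Agent.Lib.Helper29.SUPU5
import Cfsg.Agent.Lib.Helper29.SUPU6
import Cfsg.Agent.Lib.Helper19.SUPU7
import Cfsg.Agent.Lib.Helper89.SUPU8a
import Cfsg.Agent.Lib.Helper46.SUPU8b
import Cfsg.Agent.Lib.Helper46.SUPU8c
import Cfsg.Agent.Lib.Helper34.SUPU9
import Cfsg.Agent.Lib.Helper39.SUPNU1
import Cfsg.Agent.Lib.Helper39.SUPNU2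
import Cfsg.Agent.Lib.Helper28.SUPNU3
import Cfsg.Agent.Lib.Helper79.SUPNU5
import Cfsg.Agent.Lib.Helper65.SUPNU6

/-! Project SUP (helper71): the maximal subgroups of `SU_n(q)`, `n` an odd prime `≥ 5`
(statements S5811 = su7, S5856 = su11): assembly of the pieces `U1`-`U9`, `NU1`-`NU6`
(proved by the team under `Cfsg.Agent.Lib.<Seat>.SUP*`) into the generic theorem `genU`. -/

set_option autoImplicit false

namespace Cfsg.Agent.Lib.Helper71.SUPMain

open Matrix Cfsg.Geo Cfsg.Agent.Lib.Helper71.Asch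
open Cfsg.Agent.Lib.Helper57.ASCOREA (coreA)
open Cfsg.Agent.Lib.Helper82.ASCOREB (coreB)
open Cfsg.Agent.Lib.Helper46.ASB3s (B3s B3a)
open Cfsg.Agent.Lib.Helper46.ASB4 (B4)
open Cfsg.Agent.Lib.Helper61.ASB6 (B6)
open Cfsg.Agent.Lib.Helper67.ASNL (NL_core exists_subfield_aut)
open Cfsg.Agent.Lib.Helper46.ASB7core (B7core)
open Cfsg.Agent.Lib.Helper73.SLPC2 (C2)
open Cfsg.Agent.Lib.Helper16.SLPC3 (C3)
open Cfsg.Agent.Lib.Helper21.SUPU1 (U1)
open Cfsg.Agent.Lib.Helper37.SUPU2 (U2)
open Cfsg.Agent.Lib.Helper1.SUPU3 (U3)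
open Cfsg.Agent.Lib.Helper20.SUPU4 (U4)
open Cfsg.Agent.Lib.Helper29.SUPU5 (U5)
open Cfsg.Agent.Lib.Helper29.SUPU6 (U6)
open Cfsg.Agent.Lib.Helper19.SUPU7 (U7)
open Cfsg.Agent.Lib.Helper89.SUPU8a (U8a)
open Cfsg.Agent.Lib.Helper46.SUPU8b (U8b)
open Cfsg.Agent.Lib.Helper46.SUPU8c (U8c)
open Cfsg.Agent.Lib.Helper34.SUPU9 (U9)
open Cfsg.Agent.Lib.Helper39.SUPNU1 (NU1)
open Cfsg.Agent.Lib.Helper39.SUPNU2 (NU2)
open Cfsg.Agent.Lib.Helper28.SUPNU3 (NU3)
open Cfsg.Agent.Lib.Helper79.SUPNU5 (NU5)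
open Cfsg.Agent.Lib.Helper65.SUPNU6 (NU6)

variable {n : ℕ} {F : Type*} [Field F] [Fintype F] {q : ℕ}

/-! ## Assembly (helper71) -/

/-- `IsMaximalIn K H`, `H ≤ M`, `¬ K ≤ M` give `H = M ⊓ K`. -/
theorem eq_inf_of_max {K H M : Subgroup (GL (Fin n) F)} (hH : IsMaximalIn K H) (hHM : H ≤ M)
    (hM : ¬ K ≤ M) : H = M ⊓ K := by
  rcases hH.2 (M ⊓ K) (le_inf hHM hH.1.le) inf_le_right with h | h
  · exact h.symm
  · exact absurd (h ▸ inf_le_left) hM

/-- Elements of a subgroup of `GU` fix the hermitian form. -/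
theorem fixes_of_le {L : Subgroup (GL (Fin n) F)} (hL : L ≤ Cfsg.GU n F q) :
    FixesForm (matrixSet L) (Cfsg.hermForm n F q) := by
  rintro _ ⟨g, hg, rfl⟩ u v
  exact hL hg u v

/-- U8 (assembly): an absolutely irreducible normal subgroup realisable over a proper subfield
puts `H` in a subfield class with a rational form (`n` odd). -/
theorem U8 (hF : Fintype.card F = q ^ 2) (hodd : Odd n) (hn : 2 ≤ n)
    (H L : Subgroup (GL (Fin n) F)) (hH : H ≤ Cfsg.GU n F q) (hLH : L ≤ H) (hN : Nrm H L)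
    (hLa : ActsAbsolutelyIrreducibly (matrixSet L)) (F₀ : Subfield F) (hF₀ : F₀ ≠ ⊤)
    (hreal : RealisableOver F₀ (matrixSet L)) :
    (∃ (F₁ : Subfield F) (r : ℕ) (P : GL (Fin n) F), r.Prime ∧ Odd r ∧
      Fintype.card F = Nat.card F₁ ^ r ∧ IsFormRationalStructure (Cfsg.hermForm n F q) F₁ 1 P ∧
      H ≤ subfieldSubgroup F₁ P) ∨
    (Odd q ∧ ∃ (F₁ : Subfield F) (P : GL (Fin n) F), Fintype.card F = Nat.card F₁ ^ 2 ∧
      IsFormRationalStructure (Cfsg.hermForm n F q) F₁ 1 P ∧ H ≤ subfieldSubgroup F₁ P) := by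
  classical
  obtain ⟨F₁, r, τ, hr, hcard, hle, hfix⟩ := exists_subfield_aut F₀ hF₀
  obtain ⟨B, hB⟩ := hreal
  have hB₁ : ∀ s ∈ matrixSet L, ∀ i j, (B.1 * s * (B⁻¹ : GL (Fin n) F).1) i j ∈ F₁ :=
    fun s hs i j => hle (hB s hs i j)
  have hHle : H ≤ subfieldSubgroup F₁ B⁻¹ := by
    intro h hh
    have key := NL_core L hLa F₁ τ hfix B hB₁ h (fun x hx => hN h hh x hx)
    unfold subfieldSubgroup
    refine ⟨B * h * B⁻¹, key, ?_⟩
    show B⁻¹ * (B * h * B⁻¹) * B⁻¹⁻¹ = h
    group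
  have hLGU : L ≤ Cfsg.GU n F q := hLH.trans hH
  obtain ⟨ζ, hζ, hrat⟩ := U8a hF (by omega) L hLGU hLa F₁ τ hfix B hB₁
  rcases hr.eq_two_or_odd' with h2 | hro
  · subst h2
    obtain ⟨hrat1, hq⟩ := U8c hF hodd hn L hLGU hLa F₁ hcard B hB₁ ζ hζ hrat
    right
    exact ⟨hq, F₁, B⁻¹, hcard, hrat1, hHle⟩
  · obtain ⟨P', hP', hsub⟩ := U8b hF (by omega) F₁ r hro hcard B⁻¹ ζ hζ hrat
    left
    exact ⟨F₁, r, P', hr, hro, hcard, hP', by rw [hsub]; exact hHle⟩

/-- The hermitian form does not vanish identically. -/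
theorem not_ts_top (hn : 1 ≤ n) : ¬ IsTotallySingularFor (Cfsg.hermForm n F q) (⊤ : Submodule F (Fin n → F)) := by
  intro h
  have h1 := h (Pi.single (⟨0, by omega⟩ : Fin n) 1) Submodule.mem_top
    (Pi.single (⟨0, by omega⟩ : Fin n) 1) Submodule.mem_top
  unfold Cfsg.hermForm at h1
  rw [Finset.sum_eq_single (⟨0, by omega⟩ : Fin n)] at h1
  · simp at h1
  · intro b _ hb
    simp [hb]
  · simp

/-- GENU: the maximal subgroups of `SU_n(q)`, `n ≥ 5` an odd prime, in normal form. -/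
theorem genU (hF : Fintype.card F = q ^ 2) (hn : 5 ≤ n) (hp : n.Prime)
    (H : Subgroup (GL (Fin n) F))
    (hH : IsMaximalIn (Cfsg.GU n F q ⊓ specialLinear (Fin n) F) H) :
    (∃ W : Submodule F (Fin n → F), W ≠ ⊥ ∧ IsTotallySingularFor (Cfsg.hermForm n F q) W ∧
      H = subspaceStabilizer W ⊓ (Cfsg.GU n F q ⊓ specialLinear (Fin n) F)) ∨
    (∃ W : Submodule F (Fin n → F), W ≠ ⊥ ∧ IsNondegenerateOn (Cfsg.hermForm n F q) W ∧
      2 * Module.finrank F W < n ∧
      H = subspaceStabilizer W ⊓ (Cfsg.GU n F q ⊓ specialLinear (Fin n) F)) ∨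
    (∃ D : Fin n → Submodule F (Fin n → F),
      IsNondegenerateMDecomposition (Cfsg.hermForm n F q) 1 D ∧
      H = decompositionStabilizer D ⊓ (Cfsg.GU n F q ⊓ specialLinear (Fin n) F)) ∨
    (∃ K : Subalgebra F (Matrix (Fin n) (Fin n) F), IsFieldSubalgebra n K ∧
      IsAdjointClosedFor (Cfsg.hermForm n F q) K ∧
      H = subalgebraNormalizer K ⊓ (Cfsg.GU n F q ⊓ specialLinear (Fin n) F)) ∨
    (∃ (F₀ : Subfield F) (r : ℕ) (P : GL (Fin n) F), r.Prime ∧ Odd r ∧
      Fintype.card F = Nat.card F₀ ^ r ∧ IsFormRationalStructure (Cfsg.hermForm n F q) F₀ 1 P ∧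
      H = subfieldSubgroup F₀ P ⊓ (Cfsg.GU n F q ⊓ specialLinear (Fin n) F)) ∨
    (Odd q ∧ ∃ (F₀ : Subfield F) (P : GL (Fin n) F), Fintype.card F = Nat.card F₀ ^ 2 ∧
      IsFormRationalStructure (Cfsg.hermForm n F q) F₀ 1 P ∧
      H = subfieldSubgroup F₀ P ⊓ (Cfsg.GU n F q ⊓ specialLinear (Fin n) F)) ∨
    (∃ (p e : ℕ) (R : Subgroup (GL (Fin n) F)), IsMinimalFieldFor n p e F ∧
      IsSymplecticTypeGroup n R ∧ ActsAbsolutelyIrreducibly (matrixSet R) ∧
      R ≤ Cfsg.GU n F q ∧ Nat.card R = n ^ 3 ∧ Nat.card (Subgroup.center R) = n ∧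
      H = subgroupNormalizer R ⊓ (Cfsg.GU n F q ⊓ specialLinear (Fin n) F)) ∨
    InUnitaryResidualClass H := by
  classical
  have hHS : H ≤ Cfsg.GU n F q ⊓ specialLinear (Fin n) F := hH.1.le
  have hHGU : H ≤ Cfsg.GU n F q := hHS.trans inf_le_left
  have hodd : Odd n := hp.odd_of_ne_two (by omega)
  -- the subfield alternative
  have sub : ∀ L : Subgroup (GL (Fin n) F), L ≤ H → Nrm H L →
      ActsAbsolutelyIrreducibly (matrixSet L) → ∀ F₀ : Subfield F, F₀ ≠ ⊤ →
      RealisableOver F₀ (matrixSet L) →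
      (∃ (F₀ : Subfield F) (r : ℕ) (P : GL (Fin n) F), r.Prime ∧ Odd r ∧
        Fintype.card F = Nat.card F₀ ^ r ∧
        IsFormRationalStructure (Cfsg.hermForm n F q) F₀ 1 P ∧
        H = subfieldSubgroup F₀ P ⊓ (Cfsg.GU n F q ⊓ specialLinear (Fin n) F)) ∨
      (Odd q ∧ ∃ (F₀ : Subfield F) (P : GL (Fin n) F), Fintype.card F = Nat.card F₀ ^ 2 ∧
        IsFormRationalStructure (Cfsg.hermForm n F q) F₀ 1 P ∧
        H = subfieldSubgroup F₀ P ⊓ (Cfsg.GU n F q ⊓ specialLinear (Fin n) F)) := by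
    intro L hLH hN hLa F₀ hF₀ hreal
    have hne : ∀ (F₁ : Subfield F) (r : ℕ), r.Prime → Fintype.card F = Nat.card F₁ ^ r →
        F₁ ≠ ⊤ := by
      intro F₁ r hr hcard htop
      rw [htop] at hcard
      have h1 : Nat.card (⊤ : Subfield F) = Fintype.card F := by
        rw [← Nat.card_eq_fintype_card]
        exact Nat.card_congr Subfield.topEquiv.toEquiv
      rw [h1] at hcard
      have h2 : 1 < Fintype.card F := Fintype.one_lt_card
      have h3 : Fintype.card F ^ 1 < Fintype.card F ^ r :=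
        Nat.pow_lt_pow_right h2 hr.one_lt
      rw [pow_one] at h3
      omega
    rcases U8 hF hodd (by omega) H L hHGU hLH hN hLa F₀ hF₀ hreal with
      ⟨F₁, r, P, hr, hro, hcard, hrat, hle⟩ | ⟨hq, F₁, P, hcard, hrat, hle⟩
    · left
      exact ⟨F₁, r, P, hr, hro, hcard, hrat,
        eq_inf_of_max hH hle (NU5 hF (by omega) F₁ (hne F₁ r hr hcard) P)⟩
    · right
      exact ⟨hq, F₁, P, hcard, hrat,
        eq_inf_of_max hH hle (NU5 hF (by omega) F₁ (hne F₁ 2 Nat.prime_two hcard) P)⟩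
  by_cases h1 : ActsIrreducibly (matrixSet H)
  · by_cases h2 : ActsAbsolutelyIrreducibly (matrixSet H)
    · obtain ⟨L, hL⟩ := B4 (by omega) H h2
      have hLGU : L ≤ Cfsg.GU n F q := hL.le.trans hHGU
      -- Clifford trichotomy
      have hcase : ActsAbsolutelyIrreducibly (matrixSet L) ∨
          (∃ D : Fin n → Submodule F (Fin n → F),
            IsNondegenerateMDecomposition (Cfsg.hermForm n F q) 1 D ∧
            H = decompositionStabilizer D ⊓ (Cfsg.GU n F q ⊓ specialLinear (Fin n) F)) ∨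
          (∃ K : Subalgebra F (Matrix (Fin n) (Fin n) F), IsFieldSubalgebra n K ∧
            IsAdjointClosedFor (Cfsg.hermForm n F q) K ∧
            H = subalgebraNormalizer K ⊓ (Cfsg.GU n F q ⊓ specialLinear (Fin n) F)) := by
        rcases coreA (by omega) H L h1 hL.le hL.nrm with
          ⟨t, m, D, hD, hHD, hiso, hinv⟩ | ⟨d, k, e, P, R, hR, hR1, hR2⟩
        · have htm := C2 D hD
          have ht2 := hD.two_le
          have htn : t = n := by
            have hdvd : t ∣ n := ⟨m, htm.symm⟩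
            rcases (Nat.dvd_prime hp).1 hdvd with h | h
            · omega
            · exact h
          subst htn
          have hm1 : m = 1 := by
            have ht0 : 0 < t := by omega
            have : t * m = t * 1 := by rw [htm, mul_one]
            exact Nat.eq_of_mul_eq_mul_left ht0 this
          subst hm1
          have hND := U3 hF hodd H L hHGU h1 hL.le D hD hHD hiso hinv
          exact Or.inr (Or.inl ⟨D, hND, eq_inf_of_max hH hHD (NU2 hF (by omega) D hND)⟩)
        · have hcard : n = d * k := by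
            have := Fintype.card_congr e
            simpa using this
          have hdn : d = 1 ∨ d = n := (Nat.dvd_prime hp).1 ⟨k, hcard⟩
          rcases hdn with hd | hd
          · subst hd
            exact absurd (B3s e P R L hR1) hL.ns
          · have hk1 : k = 1 := by
              have hd0 : 0 < d := by omega
              have : d * k = d * 1 := by rw [← hcard, mul_one, hd]
              exact Nat.eq_of_mul_eq_mul_left hd0 this
            subst hk1
            by_cases hRa : ActsAbsolutelyIrreducibly (matrixSet R)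
            · exact Or.inl (B3a e P R L hRa hR2)
            · obtain ⟨r, K, hr, hK, hHK, hKc⟩ :=
                coreB (by omega) H L hL.le hL.nrm e P R hR hR1 hR2 hRa
              have hrn : r = n := by
                rcases (Nat.dvd_prime hp).1 (C3 (by omega) r K hK) with h | h
                · exact absurd h hr.one_lt.ne'
                · exact h
              subst hrn
              have hadj := U4 hF (by omega) L hLGU K hK hKc
              exact Or.inr (Or.inr ⟨K, hK, hadj,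
                eq_inf_of_max hH hHK (NU3 hF (by omega) r (by omega) K hK)⟩)
      rcases hcase with hLa | hDc | hKc
      · rcases hL.min ⁅L, L⁆ (commutator_le_self L) hL.nrm.commutator with hc | hc
        · -- symplectic type
          have hsym : SymT H L := ⟨hL, hLa, hc⟩
          rcases U5 hp (by omega) H L hsym with ⟨F₁, hF₁, hreal⟩ |
            ⟨p, e, hst, hnp, hmin, hcardL, hcen⟩
          · rcases sub L hL.le hL.nrm hLa F₁ hF₁ hreal with h | h
            · exact Or.inr (Or.inr (Or.inr (Or.inr (Or.inl h))))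
            · exact Or.inr (Or.inr (Or.inr (Or.inr (Or.inr (Or.inl h)))))
          · refine Or.inr (Or.inr (Or.inr (Or.inr (Or.inr (Or.inr (Or.inl
              ⟨p, e, L, hmin, hst, hLa, hLGU, hcardL, hcen, ?_⟩))))))
            have hu := U9 L n p hst.pGroup hmin.1 hp hmin.2.1 hnp
            refine eq_inf_of_max hH ?_ (NU6 hF hn L hLGU hc hL.ns hu)
            intro h hh
            unfold subgroupNormalizer
            rw [Subgroup.mem_normalizer_iff]
            intro x
            constructor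
            · intro hx
              exact hL.nrm h hh x hx
            · intro hx
              have := hL.nrm h⁻¹ (H.inv_mem hh) _ hx
              have h3 : h⁻¹ * (h * x * h⁻¹) * h⁻¹⁻¹ = x := by group
              rwa [h3] at this
        · rcases B6 H L hL hc with ⟨hs, hna⟩ | ⟨k, Ps, hk, hns, hcomm, hsup, -, -⟩
          · by_cases hsubf : ∃ F₀ : Subfield F, F₀ ≠ ⊤ ∧ RealisableOver F₀ (matrixSet L)
            · obtain ⟨F₀, hF₀, hreal⟩ := hsubf
              rcases sub L hL.le hL.nrm hLa F₀ hF₀ hreal with h | h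
              · exact Or.inr (Or.inr (Or.inr (Or.inr (Or.inl h))))
              · exact Or.inr (Or.inr (Or.inr (Or.inr (Or.inr (Or.inl h)))))
            · refine Or.inr (Or.inr (Or.inr (Or.inr (Or.inr (Or.inr (Or.inr
                ⟨L, B7core H L hL.le hL.nrm hLa hc hs hna ?_, ?_, ?_⟩))))))
              · intro F₀ hF₀ hreal
                exact hsubf ⟨F₀, hF₀, hreal⟩
              · rintro ⟨Q, hQ, hQfix⟩
                apply hsubf
                refine U7 hF (by omega) L hLGU hLa (QuadraticMap.polar Q) hQ.polar_bilinear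
                  hQ.nondegenerate ?_
                intro s hs u v
                unfold QuadraticMap.polar
                rw [← Matrix.mulVec_add, hQfix s hs, hQfix s hs, hQfix s hs]
              · rintro ⟨f, hf, hffix⟩
                exact hsubf (U7 hF (by omega) L hLGU hLa f hf.bilinear hf.nondegenerate hffix)
          · exact (U6 hp L hLa k Ps hk hns hcomm hsup).elim
      · exact Or.inr (Or.inr (Or.inl hDc))
      · exact Or.inr (Or.inr (Or.inr (Or.inl hKc)))
    · obtain ⟨K, hK, hadj, hHK⟩ := U2 hF hp H hHGU h1 h2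
      exact Or.inr (Or.inr (Or.inr (Or.inl ⟨K, hK, hadj,
        eq_inf_of_max hH hHK (NU3 hF (by omega) n (by omega) K hK)⟩)))
  · rcases U1 hF H hHGU h1 with ⟨W, h0, hts, hle⟩ | ⟨W, h0, hnd, hdim, hle⟩
    · have htop : W ≠ ⊤ := by
        rintro rfl
        exact not_ts_top (by omega) hts
      exact Or.inl ⟨W, h0, hts, eq_inf_of_max hH hle (NU1 hF (by omega) W h0 htop)⟩
    · have hlt : 2 * Module.finrank F W < n := by
        rcases hodd with ⟨j, hj⟩
        omega
      have htop : W ≠ ⊤ := by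
        rintro rfl
        rw [finrank_top, Module.finrank_fin_fun] at hlt
        omega
      exact Or.inr (Or.inl ⟨W, h0, hnd, hlt, eq_inf_of_max hH hle (NU1 hF (by omega) W h0 htop)⟩)

/-- `GU` lies in the similarity group of the hermitian form. -/
theorem GU_le_sim : Cfsg.GU n F q ≤ similarityGroup (Cfsg.hermForm n F q) := by
  intro g hg
  refine ⟨1, fun u v => ?_⟩
  rw [Units.val_one, one_mul]
  exact hg u v

end Cfsg.Agent.Lib.Helper71.SUPMain
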