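import Mathlib
import Cfsg.Prelude.Def_GeometricClasses
import Cfsg.Agent.Lib.Helper71.OK1
import Cfsg.Agent.Lib.Helper52.Siegel
import Cfsg.Agent.Lib.Helper55.OKA1
import Cfsg.Agent.Lib.Helper57.OKGEOM2

/-!
# S5701 piece B3: two distinct members of the orbit of singular `L`-lines meet (helper71)
-/

set_option autoImplicit false
set_option linter.unusedVariables false

namespace Cfsg.Agent.Lib.Helper71.OKB3

open Matrix Cfsg.Agent.Lib.Helper71.SpK Cfsg.Agent.Lib.Helper71.OK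

theorem exists_inter_pair {ι : Type} [Fintype ι] [DecidableEq ι] {F : Type*} [Field F] [Finite F]
    {Q : QuadraticForm F (ι → F)} {L : Type*} [Field L] [Algebra F L] [FiniteDimensional F L]
    (S : KO (QuadraticMap.polar ⇑Q) L) (h2 : (2 : F) ≠ 0)
    (hQ : (QuadraticMap.polarBilin Q).Nondegenerate)
    (hr : (Module.finrank F L).Prime) (hd : 4 * Module.finrank F L ≤ Fintype.card ι) (M : Subgroup (GL ι F)) (hNM : S.NO Q ≤ M) (hMΩ : M ≤ Cfsg.Geo.omegaGL ⇑Q) {g₀ : GL ι F} (hg₀ : g₀ ∈ M) {v₀ : ι → F} (hv₀ : v₀ ≠ 0)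
    (hv₀' : S.B v₀ v₀ = 0) (hnl : ∀ v', gim (S.line v₀) g₀ ≠ S.line v') :
    ∃ W₁ W₂, S.InW M W₁ ∧ S.InW M W₂ ∧ W₁ ≠ W₂ ∧ W₁ ⊓ W₂ ≠ ⊥ := by
  by_contra hcon
  push Not at hcon
  obtain ⟨W', hW'def⟩ : ∃ W' : Submodule F (ι → F), W' = gim (S.line v₀) g₀ := ⟨_, rfl⟩
  have hW' : S.InW M W' := ⟨g₀, hg₀, v₀, hv₀, hv₀', hW'def⟩
  have hPS : ∀ W, S.InW M W → ∀ x : ι → F, x ≠ 0 → x ∈ W → x ∈ W' → W = W' := by
    intro W hW x hx0 hxW hxW'
    by_contra hne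
    have h0 := hcon W W' hW hW' hne
    have hx : x ∈ W ⊓ W' := ⟨hxW, hxW'⟩
    rw [h0, Submodule.mem_bot] at hx
    exact hx0 hx
  -- (1) no singular vectors in W'
  have h1 : ∀ x ∈ W', S.B x x = 0 → x = 0 := by
    intro x hx hxx
    by_contra hx0
    have := hPS _ (S.InW_line M hx0 hxx) x hx0 (S.self_mem_line x) hx
    exact hnl x (by rw [← hW'def]; exact this.symm)
  -- (2) a non-zero vector of W'
  have hrk : Module.finrank F ↥W' = Module.finrank F L := S.InW_finrank hW'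
  have hpos : 0 < Module.finrank F ↥W' := by rw [hrk]; exact hr.pos
  obtain ⟨⟨x₁, hx₁⟩, hx₁ne⟩ := Module.finrank_pos_iff_exists_ne_zero.mp hpos
  have hx₁0 : x₁ ≠ 0 := fun h => hx₁ne (Subtype.ext h)
  have hx₁x₁ : S.B x₁ x₁ ≠ 0 := fun h => hx₁0 (h1 x₁ hx₁ h)
  have hfix : ∀ g ∈ S.NO Q, (g : Matrix ι ι F) *ᵥ x₁ = x₁ → ∀ y ∈ W',
      (g : Matrix ι ι F) *ᵥ y ∈ W' := by
    intro g hg hgx y hy
    have hWg : S.InW M (gim W' g) := S.InW_gim hW' (hNM hg)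
    have hx₁g : x₁ ∈ gim W' g := mem_gim'.mpr ⟨x₁, hx₁, hgx⟩
    have heq := hPS _ hWg x₁ hx₁0 hx₁g hx₁
    have := mulVec_mem_gim g hy
    rwa [heq] at this
  -- (3) a singular vector orthogonal to x₁ and the Eichler maps
  obtain ⟨u, hu, huu, hux₁⟩ :=
    Cfsg.Agent.Lib.Helper57.OKGEOM2.exists_sing_perp S h2 hQ hr hd hx₁x₁
  have hx₁u : S.B x₁ u = 0 := by rw [S.B_symm, hux₁]
  have hrho : ∀ z : ι → F, S.B z u = 0 → S.B z x₁ = 0 → ∀ y ∈ W', S.rho u z y ∈ W' := by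
    intro z hzu hzx y hy
    obtain ⟨g, hg, hgρ⟩ := Cfsg.Agent.Lib.Helper55.OKA1.exists_rho S h2 hQ hr hd (u := u) (z := z)
      huu (by rw [S.B_symm, hzu])
    have hgx : (g : Matrix ι ι F) *ᵥ x₁ = x₁ := by
      rw [hgρ, S.rho_of_perp hx₁u, S.B_symm, hzx, S.φ_zero_mulVec, add_zero]
    have := hfix g hg hgx y hy
    rwa [hgρ] at this
  have hd' : ∀ z : ι → F, S.B z u = 0 → S.B z x₁ = 0 → ∀ y ∈ W',
      S.φ (S.B y z) *ᵥ u - S.φ (S.B y u) *ᵥ z - (2⁻¹ : F) • (S.φ (S.B z z * S.B y u) *ᵥ u) ∈ W' := by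
    intro z hzu hzx y hy
    have h := W'.sub_mem (hrho z hzu hzx y hy) hy
    have e : S.rho u z y - y =
        S.φ (S.B y z) *ᵥ u - S.φ (S.B y u) *ᵥ z - (2⁻¹ : F) • (S.φ (S.B z z * S.B y u) *ᵥ u) := by
      unfold KO.rho
      abel
    rwa [e] at h
  -- (4) W' is orthogonal to u
  have hcardι : Module.finrank F (ι → F) = Fintype.card ι := Module.finrank_fintype_fun_eq_card F
  obtain ⟨z₀, hz₀u, hz₀x, hz₀l⟩ : ∃ z₀ : ι → F, S.B z₀ u = 0 ∧ S.B z₀ x₁ = 0 ∧ z₀ ∉ S.line u := by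
    have hf1 := Cfsg.Agent.Lib.Helper57.OKGEOM1.finrank_perp_ge S h2 hQ hr hd ⊤ u
    have hf2 := Cfsg.Agent.Lib.Helper57.OKGEOM1.finrank_perp_ge S h2 hQ hr hd (S.perp ⊤ u) x₁
    rw [finrank_top, hcardι] at hf1
    have hlt : Module.finrank F ↥(S.line u) < Module.finrank F ↥(S.perp (S.perp ⊤ u) x₁) := by
      rw [S.finrank_line hu]
      have := hr.pos
      omega
    have hnle : ¬ S.perp (S.perp ⊤ u) x₁ ≤ S.line u := fun hle =>
      absurd (Submodule.finrank_mono hle) (not_le.mpr hlt)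
    obtain ⟨z₀, hz₀P, hz₀l⟩ := SetLike.not_le_iff_exists.mp hnle
    rw [S.mem_perp, S.mem_perp] at hz₀P
    exact ⟨z₀, hz₀P.1.2, hz₀P.2, hz₀l⟩
  have h2L : (2⁻¹ : F) • (1 : F) + (2⁻¹ : F) • (1 : F) = 1 := by
    rw [smul_eq_mul, mul_one, ← two_mul, mul_inv_cancel₀ h2]
  have hyu : ∀ y ∈ W', S.B y u = 0 := by
    intro y hy
    by_contra hne
    have hp := hd' z₀ hz₀u hz₀x y hy
    have hm := hd' (-z₀) (by rw [S.B_neg_left, hz₀u, neg_zero])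
      (by rw [S.B_neg_left, hz₀x, neg_zero]) y hy
    have hsum := W'.add_mem hp hm
    have e : (S.φ (S.B y z₀) *ᵥ u - S.φ (S.B y u) *ᵥ z₀ -
          (2⁻¹ : F) • (S.φ (S.B z₀ z₀ * S.B y u) *ᵥ u)) +
        (S.φ (S.B y (-z₀)) *ᵥ u - S.φ (S.B y u) *ᵥ (-z₀) -
          (2⁻¹ : F) • (S.φ (S.B (-z₀) (-z₀) * S.B y u) *ᵥ u)) =
        S.φ (-(S.B z₀ z₀ * S.B y u)) *ᵥ u := by
      rw [S.B_neg_right, S.B_neg_right, S.B_neg_left, neg_neg, S.φ_neg_mulVec, Matrix.mulVec_neg,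
        S.φ_neg_mulVec]
      have h3 : (2⁻¹ : F) • (S.φ (S.B z₀ z₀ * S.B y u) *ᵥ u) +
          (2⁻¹ : F) • (S.φ (S.B z₀ z₀ * S.B y u) *ᵥ u) = S.φ (S.B z₀ z₀ * S.B y u) *ᵥ u := by
        rw [← add_smul, ← two_mul, mul_inv_cancel₀ h2, one_smul]
      linear_combination (norm := module) (-1 : F) • h3
    rw [e] at hsum
    have hs0 := h1 _ hsum (by rw [S.B_act, S.B_act_right, huu, mul_zero, mul_zero])
    have hz₀z₀ : S.B z₀ z₀ = 0 := by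
      have h4 := S.φ_eq_zero hu hs0
      rcases mul_eq_zero.mp (neg_eq_zero.mp h4) with h5 | h5
      · exact h5
      · exact absurd h5 hne
    rw [hz₀z₀, zero_mul, S.φ_zero_mulVec, smul_zero, sub_zero] at hp
    have huz₀ : S.B u z₀ = 0 := by rw [S.B_symm, hz₀u]
    have hp0 := h1 _ hp (by
      simp only [S.B_sub_left, S.B_sub_right, S.B_act, S.B_act_right, huu, hz₀z₀, hz₀u, huz₀,
        mul_zero, sub_zero])
    apply hz₀l
    refine ⟨(S.B y u)⁻¹ * S.B y z₀, ?_⟩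
    show S.φ ((S.B y u)⁻¹ * S.B y z₀) *ᵥ u = z₀
    rw [S.φ_mul_mulVec, sub_eq_zero.mp hp0, S.φ_inv_cancel hne]
  -- (5) W' ⊆ L u + L x₁
  have hyz : ∀ y ∈ W', ∀ z : ι → F, S.B z u = 0 → S.B z x₁ = 0 → S.B y z = 0 := by
    intro y hy z hzu hzx
    have hp := hd' z hzu hzx y hy
    rw [hyu y hy, mul_zero, S.φ_zero_mulVec, S.φ_zero_mulVec, smul_zero, sub_zero, sub_zero] at hp
    have hp0 := h1 _ hp (by rw [S.B_act, S.B_act_right, huu, mul_zero, mul_zero])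
    exact S.φ_eq_zero hu hp0
  have hrep : ∀ y ∈ W', ∃ a b : L, S.φ a *ᵥ u + S.φ b *ᵥ x₁ = y := by
    intro y hy
    by_contra hne
    push Not at hne
    obtain ⟨z, hzu, hzx, hzy⟩ := S.exists_dual2 hQ (u := u) (w := x₁) (y := y) hne
    have := hyz y hy z (by rw [S.B_symm, hzu]) (by rw [S.B_symm, hzx])
    rw [this] at hzy
    exact zero_ne_one hzy
  -- (6) the coordinate map
  have hByy : ∀ y ∈ W', ∀ y' ∈ W', S.B y y' = S.B y x₁ * S.B y' x₁ * (S.B x₁ x₁)⁻¹ := by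
    intro y hy y' hy'
    obtain ⟨a, b, rfl⟩ := hrep y hy
    obtain ⟨a', b', rfl⟩ := hrep y' hy'
    simp only [S.B_add, S.B_add_right, S.B_act, S.B_act_right, huu, hux₁, hx₁u, mul_zero,
      zero_add, add_zero]
    field_simp
  let cL : ↥W' →ₗ[F] L := (S.Bl x₁).comp W'.subtype
  have hcL : ∀ y : ↥W', cL y = S.B (y : ι → F) x₁ := fun y => rfl
  have hinj : Function.Injective cL := by
    rw [← LinearMap.ker_eq_bot, LinearMap.ker_eq_bot']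
    intro y hy
    rw [hcL] at hy
    have hyy : S.B (y : ι → F) (y : ι → F) = 0 := by
      rw [hByy _ y.2 _ y.2, hy, zero_mul, zero_mul]
    exact Subtype.ext (h1 _ y.2 hyy)
  have hsurj : Function.Surjective cL :=
    (LinearMap.injective_iff_surjective_of_finrank_eq_finrank hrk).mp hinj
  obtain ⟨l, hl⟩ := S.exists_β_ne
  obtain ⟨y, hy⟩ := hsurj l
  obtain ⟨y', hy'⟩ := hsurj (S.B x₁ x₁)
  have hpol := S.InW_polar hMΩ hW' y.2 y'.2
  rw [← S.β_B, hByy _ y.2 _ y'.2, ← hcL, ← hcL, hy, hy', mul_assoc, mul_inv_cancel₀ hx₁x₁,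
    mul_one] at hpol
  exact hl hpol

end Cfsg.Agent.Lib.Helper71.OKB3
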