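import Mathlib
import Cfsg.Prelude.Def_GeometricClasses
import Cfsg.Agent.Lib.Helper71.OK1
import Cfsg.Agent.Lib.Helper52.Siegel
import Cfsg.Agent.Lib.Helper55.OKA1

/-!
# S5701 piece E2a: the commutator `[h ρ_{u,z/c'} h⁻¹, ρ_{u,z'}]` on the perp of `u` (helper71)
-/

set_option autoImplicit false
set_option linter.unusedVariables false

namespace Cfsg.Agent.Lib.Helper71.OKE2a

open Matrix Cfsg.Agent.Lib.Helper71.SpK Cfsg.Agent.Lib.Helper71.OK Cfsg.Agent.Lib.Helper55.OKA1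

theorem cfg2_comm {ι : Type} [Fintype ι] [DecidableEq ι] {F : Type*} [Field F] [Finite F]
    {Q : QuadraticForm F (ι → F)} {L : Type*} [Field L] [Algebra F L] [FiniteDimensional F L]
    (S : KO (QuadraticMap.polar ⇑Q) L) (h2 : (2 : F) ≠ 0)
    (hQ : (QuadraticMap.polarBilin Q).Nondegenerate)
    (hr : (Module.finrank F L).Prime) (hd : 4 * Module.finrank F L ≤ Fintype.card ι) (M : Subgroup (GL ι F)) (hNM : S.NO Q ≤ M) (hMΩ : M ≤ Cfsg.Geo.omegaGL ⇑Q) {u : ι → F} {h : GL ι F} {c' : L} {z₀ : ι → F}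
    (hD : S.Cfg2D M u h c' z₀) {z z' : ι → F} (hz : S.B z u = 0)
    (hzW : ∀ y ∈ gim (S.line u) h⁻¹, S.B y z = 0) (hz' : S.B z' u = 0) :
    ∃ g ∈ M, ∀ x : ι → F, S.B x u = 0 → (g : Matrix ι ι F) *ᵥ x = x +
      S.φ (algebraMap F L (QuadraticMap.polar ⇑Q x z₀) *
            (S.B ((h : Matrix ι ι F) *ᵥ z) z' - algebraMap F L (Q z) * S.B z₀ z') -
          algebraMap F L (QuadraticMap.polar ⇑Q x ((h : Matrix ι ι F) *ᵥ z)) * S.B z₀ z') *ᵥ u := by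
  obtain ⟨⟨hhM, hu, huu, hperp, hfin⟩, hc', hz₀W, hz₀u, hdec, hform⟩ := hD
  have hhΩ := hMΩ hhM
  -- the vector z₂ = c'⁻¹ z
  obtain ⟨z₂, hz₂def⟩ : ∃ z₂ : ι → F, z₂ = S.φ c'⁻¹ *ᵥ z := ⟨_, rfl⟩
  have hcz : S.φ c' *ᵥ z₂ = z := by rw [hz₂def, S.φ_cancel_inv hc']
  have hz₂u : S.B z₂ u = 0 := by rw [hz₂def, S.B_act, hz, mul_zero]
  have huz₂ : S.B u z₂ = 0 := by rw [S.B_symm, hz₂u]
  have hz₂W : ∀ y ∈ gim (S.line u) h⁻¹, S.B y z₂ = 0 := by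
    intro y hy
    rw [hz₂def, S.B_act_right, hzW y hy, mul_zero]
  have huz' : S.B u z' = 0 := by rw [S.B_symm, hz']
  have hz₀u0 : S.B z₀ u = 0 := hperp z₀ hz₀W
  -- the four Eichler elements
  obtain ⟨gT, hgT, hT⟩ := exists_rho S h2 hQ hr hd (u := u) (z := z₂) huu huz₂
  obtain ⟨gTm, hgTm, hTm⟩ := exists_rho S h2 hQ hr hd (u := u) (z := -z₂) huu
    (by rw [S.B_neg_right, huz₂, neg_zero])
  obtain ⟨gT', hgT', hT'⟩ := exists_rho S h2 hQ hr hd (u := u) (z := z') huu huz'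
  obtain ⟨gT'm, hgT'm, hT'm⟩ := exists_rho S h2 hQ hr hd (u := u) (z := -z') huu
    (by rw [S.B_neg_right, huz', neg_zero])
  -- the linear map p and the vector s
  let pL : (ι → F) →ₗ[F] (ι → F) :=
    (Matrix.toLin' (h : Matrix ι ι F)) ∘ₗ (S.actL u) ∘ₗ (S.Bl z₂) ∘ₗ
      (Matrix.toLin' ((h⁻¹ : GL ι F) : Matrix ι ι F))
  have hpL : ∀ x, pL x = (h : Matrix ι ι F) *ᵥ
      (S.φ (S.B (((h⁻¹ : GL ι F) : Matrix ι ι F) *ᵥ x) z₂) *ᵥ u) := fun x => rfl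
  obtain ⟨s, hsdef⟩ : ∃ s : ι → F, s = (h : Matrix ι ι F) *ᵥ (S.φ (S.B z₂ z₂ * c') *ᵥ u) :=
    ⟨_, rfl⟩
  -- facts about hW
  have hB_hW_u : ∀ k : L, S.B ((h : Matrix ι ι F) *ᵥ (S.φ k *ᵥ u)) u = 0 := fun k =>
    hperp _ (mulVec_mem_gim h (S.act_mem_line k u))
  have hpol_line_z₀ : ∀ k : L, QuadraticMap.polar ⇑Q (S.φ k *ᵥ u) z₀ = 0 := by
    intro k
    rw [S.f_act, S.B_symm, hz₀u0, mul_zero, map_zero]
  have hpol_hW_z₀ : ∀ k : L,
      QuadraticMap.polar ⇑Q ((h : Matrix ι ι F) *ᵥ (S.φ k *ᵥ u)) z₀ = 0 := by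
    intro k
    obtain ⟨w, hw, hwz⟩ := mem_gim'.mp hz₀W
    rw [← hwz, omega_polar Q hhΩ]
    exact S.f_line_line huu (S.act_mem_line k u) hw
  have hB_Hz_u : S.B ((h : Matrix ι ι F) *ᵥ z) u = 0 := by
    apply S.B_eq_zero_of_f
    intro l
    rw [QuadraticMap.polar_comm, ← omega_polar_inv Q hhΩ, ← S.β_B,
      hzW _ (mulVec_mem_gim h⁻¹ (S.act_mem_line l u)), map_zero]
  have hpol_Hz_z₀ : QuadraticMap.polar ⇑Q ((h : Matrix ι ι F) *ᵥ z) z₀ = 0 := by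
    rw [QuadraticMap.polar_comm, ← omega_polar_inv Q hhΩ, QuadraticMap.polar_comm]
    exact S.f_of_line hz (mem_gim.mp hz₀W)
  have hB_hW_z' : ∀ k : L, S.B ((h : Matrix ι ι F) *ᵥ (S.φ k *ᵥ u)) z' =
      algebraMap F L (S.β (c' * k)) * S.B z₀ z' := by
    intro k
    obtain ⟨d, hd', hdk⟩ := hdec k
    have hd0 : S.B d z' = 0 := by
      rw [S.B_symm]
      exact S.B_of_line hz' hd'.1
    rw [hdk, S.B_add, hd0, zero_add, S.B_smul_left]
  -- facts about p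
  have hp_line : ∀ k : L, pL (S.φ k *ᵥ u) = 0 := by
    intro k
    rw [hpL, hz₂W _ (mulVec_mem_gim h⁻¹ (S.act_mem_line k u)), S.φ_zero_mulVec,
      Matrix.mulVec_zero]
  have hp_hW : ∀ k : L, pL ((h : Matrix ι ι F) *ᵥ (S.φ k *ᵥ u)) = 0 := by
    intro k
    rw [hpL, gl_inv_mulVec, S.B_act, huz₂, mul_zero, S.φ_zero_mulVec, Matrix.mulVec_zero]
  have hp_p : ∀ x, pL (pL x) = 0 := fun x => by rw [hpL x]; exact hp_hW _
  have hp_s : pL s = 0 := by rw [hsdef]; exact hp_hW _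
  have hp_Hz : pL ((h : Matrix ι ι F) *ᵥ z) = s := by
    rw [hpL, gl_inv_mulVec, hsdef, ← hcz, S.B_act, mul_comm]
  have hB_p_u : ∀ x, S.B (pL x) u = 0 := fun x => by rw [hpL x]; exact hB_hW_u _
  have hB_s_u : S.B s u = 0 := by rw [hsdef]; exact hB_hW_u _
  have hpol_p_z₀ : ∀ x, QuadraticMap.polar ⇑Q (pL x) z₀ = 0 := fun x => by
    rw [hpL x]; exact hpol_hW_z₀ _
  have hpol_s_z₀ : QuadraticMap.polar ⇑Q s z₀ = 0 := by rw [hsdef]; exact hpol_hW_z₀ _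
  have hB_p_z' : ∀ x, S.B (pL x) z' =
      algebraMap F L (QuadraticMap.polar ⇑Q x ((h : Matrix ι ι F) *ᵥ z)) * S.B z₀ z' := by
    intro x
    rw [hpL x, hB_hW_z', ← S.B_act_right c' _ z₂, hcz, S.β_B, omega_polar_inv Q hhΩ]
  have hB_s_z' : S.B s z' = algebraMap F L (2 * Q z) * S.B z₀ z' := by
    rw [hsdef, hB_hW_z', S.two_Q z]
    congr 2
    rw [← hcz, S.B_act, S.B_act_right]
    congr 1
    ring
  -- the conjugates on the perp of u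
  have hG1 : ∀ x, S.B x u = 0 →
      ((h * gT * h⁻¹ : GL ι F) : Matrix ι ι F) *ᵥ x =
        x + pL x - QuadraticMap.polar ⇑Q x z₀ • ((h : Matrix ι ι F) *ᵥ z + (2⁻¹ : F) • s) := by
    intro x hx
    rw [gl_mul_mulVec, gl_mul_mulVec, hT, hpL, hsdef]
    unfold KO.rho
    rw [hform x hx]
    have e1 : S.φ (algebraMap F L (QuadraticMap.polar ⇑Q x z₀) * c') *ᵥ z₂ =
        QuadraticMap.polar ⇑Q x z₀ • z := by
      rw [S.φ_mul_mulVec, hcz, S.φ_algebraMap_mulVec]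
    have e2 : S.φ (S.B z₂ z₂ * (algebraMap F L (QuadraticMap.polar ⇑Q x z₀) * c')) *ᵥ u =
        QuadraticMap.polar ⇑Q x z₀ • (S.φ (S.B z₂ z₂ * c') *ᵥ u) := by
      rw [show S.B z₂ z₂ * (algebraMap F L (QuadraticMap.polar ⇑Q x z₀) * c') =
        algebraMap F L (QuadraticMap.polar ⇑Q x z₀) * (S.B z₂ z₂ * c') by ring,
        S.φ_mul_mulVec, S.φ_algebraMap_mulVec]
    rw [e1, e2]
    simp only [Matrix.mulVec_sub, Matrix.mulVec_add, Matrix.mulVec_smul, gl_mulVec_inv']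
    module
  have hG1m : ∀ x, S.B x u = 0 →
      ((h * gTm * h⁻¹ : GL ι F) : Matrix ι ι F) *ᵥ x =
        x - pL x + QuadraticMap.polar ⇑Q x z₀ • ((h : Matrix ι ι F) *ᵥ z - (2⁻¹ : F) • s) := by
    intro x hx
    rw [gl_mul_mulVec, gl_mul_mulVec, hTm, hpL, hsdef]
    unfold KO.rho
    rw [hform x hx, S.B_neg_right, S.B_neg_right, S.B_neg_left, neg_neg]
    have e1 : S.φ (algebraMap F L (QuadraticMap.polar ⇑Q x z₀) * c') *ᵥ z₂ =
        QuadraticMap.polar ⇑Q x z₀ • z := by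
      rw [S.φ_mul_mulVec, hcz, S.φ_algebraMap_mulVec]
    have e2 : S.φ (S.B z₂ z₂ * (algebraMap F L (QuadraticMap.polar ⇑Q x z₀) * c')) *ᵥ u =
        QuadraticMap.polar ⇑Q x z₀ • (S.φ (S.B z₂ z₂ * c') *ᵥ u) := by
      rw [show S.B z₂ z₂ * (algebraMap F L (QuadraticMap.polar ⇑Q x z₀) * c') =
        algebraMap F L (QuadraticMap.polar ⇑Q x z₀) * (S.B z₂ z₂ * c') by ring,
        S.φ_mul_mulVec, S.φ_algebraMap_mulVec]
    rw [Matrix.mulVec_neg, e1, e2, S.φ_neg_mulVec]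
    simp only [Matrix.mulVec_sub, Matrix.mulVec_add, Matrix.mulVec_smul, Matrix.mulVec_neg,
      gl_mulVec_inv']
    module
  -- the commutator
  refine ⟨(h * gT * h⁻¹) * gT' * (h * gTm * h⁻¹) * gT'm, ?_, ?_⟩
  · have hγ : h * gT * h⁻¹ ∈ M := M.mul_mem (M.mul_mem hhM (hNM hgT)) (M.inv_mem hhM)
    have hγm : h * gTm * h⁻¹ ∈ M := M.mul_mem (M.mul_mem hhM (hNM hgTm)) (M.inv_mem hhM)
    exact M.mul_mem (M.mul_mem (M.mul_mem hγ (hNM hgT')) hγm) (hNM hgT'm)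
  · intro x hx
    -- x₁ = T'⁻¹ x
    have hx1 : (gT'm : Matrix ι ι F) *ᵥ x = x - S.φ (S.B x z') *ᵥ u := by
      rw [hT'm, S.rho_of_perp hx, S.B_neg_right, S.φ_neg_mulVec, sub_eq_add_neg]
    have hx1u : S.B (x - S.φ (S.B x z') *ᵥ u) u = 0 := by
      rw [S.B_sub_left, hx, S.B_act, huu, mul_zero, sub_zero]
    -- x₂ = γ⁻¹ x₁
    have hx2 : ((h * gTm * h⁻¹ : GL ι F) : Matrix ι ι F) *ᵥ (x - S.φ (S.B x z') *ᵥ u) =
        x - S.φ (S.B x z') *ᵥ u - pL x +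
          QuadraticMap.polar ⇑Q x z₀ • ((h : Matrix ι ι F) *ᵥ z - (2⁻¹ : F) • s) := by
      rw [hG1m _ hx1u, map_sub, hp_line, sub_zero, QuadraticMap.polar_sub_left, hpol_line_z₀,
        sub_zero]
    obtain ⟨x₂, hx₂def⟩ : ∃ x₂ : ι → F, x₂ = x - S.φ (S.B x z') *ᵥ u - pL x +
          QuadraticMap.polar ⇑Q x z₀ • ((h : Matrix ι ι F) *ᵥ z - (2⁻¹ : F) • s) := ⟨_, rfl⟩
    have hx2u : S.B x₂ u = 0 := by
      rw [hx₂def, S.B_add, S.B_sub_left, S.B_sub_left, hx, S.B_act, huu, hB_p_u,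
        S.B_smul_left, S.B_sub_left, hB_Hz_u, S.B_smul_left, hB_s_u]
      ring
    -- x₃ = T' x₂
    have hx3 : (gT' : Matrix ι ι F) *ᵥ x₂ = x₂ + S.φ (S.B x₂ z') *ᵥ u := by
      rw [hT', S.rho_of_perp hx2u]
    have hx3u : S.B (x₂ + S.φ (S.B x₂ z') *ᵥ u) u = 0 := by
      rw [S.B_add, hx2u, S.B_act, huu, mul_zero, add_zero]
    have hBx2z' : S.B x₂ z' = S.B x z' - S.B (pL x) z' +
        algebraMap F L (QuadraticMap.polar ⇑Q x z₀) *
          (S.B ((h : Matrix ι ι F) *ᵥ z) z' - algebraMap F L (2⁻¹ : F) * S.B s z') := by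
      rw [hx₂def, S.B_add, S.B_sub_left, S.B_sub_left, S.B_act, huz', mul_zero, sub_zero,
        S.B_smul_left, S.B_sub_left, S.B_smul_left]
    have hpx3 : pL (x₂ + S.φ (S.B x₂ z') *ᵥ u) = pL x + QuadraticMap.polar ⇑Q x z₀ • s := by
      rw [map_add, hp_line, add_zero, hx₂def, map_add, map_sub, map_sub, hp_line, hp_p,
        map_smul, map_sub, hp_Hz, map_smul, hp_s]
      module
    have hpolx3 : QuadraticMap.polar ⇑Q (x₂ + S.φ (S.B x₂ z') *ᵥ u) z₀ =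
        QuadraticMap.polar ⇑Q x z₀ := by
      rw [QuadraticMap.polar_add_left, hpol_line_z₀, add_zero, hx₂def,
        QuadraticMap.polar_add_left, QuadraticMap.polar_sub_left, QuadraticMap.polar_sub_left,
        hpol_line_z₀, hpol_p_z₀, QuadraticMap.polar_smul_left, QuadraticMap.polar_sub_left,
        hpol_Hz_z₀, QuadraticMap.polar_smul_left, hpol_s_z₀]
      simp
    rw [gl_mul_mulVec, gl_mul_mulVec, gl_mul_mulVec, hx1, hx2, ← hx₂def, hx3, hG1 _ hx3u,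
      hpx3, hpolx3]
    have hE : S.B x₂ z' - S.B x z' =
        algebraMap F L (QuadraticMap.polar ⇑Q x z₀) *
            (S.B ((h : Matrix ι ι F) *ᵥ z) z' - algebraMap F L (Q z) * S.B z₀ z') -
          algebraMap F L (QuadraticMap.polar ⇑Q x ((h : Matrix ι ι F) *ᵥ z)) * S.B z₀ z' := by
      rw [hBx2z', hB_p_z', hB_s_z']
      have h22 : algebraMap F L (2⁻¹ : F) * algebraMap F L (2 * Q z) = algebraMap F L (Q z) := by
        rw [← map_mul]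
        congr 1
        field_simp
      linear_combination (-(algebraMap F L (QuadraticMap.polar ⇑Q x z₀)) * S.B z₀ z') * h22
    rw [← hE, S.φ_sub_mulVec, hx₂def]
    have hs2 : s = (2⁻¹ : F) • s + (2⁻¹ : F) • s := by
      rw [← add_smul, ← two_mul, mul_inv_cancel₀ h2, one_smul]
    linear_combination (norm := module) (QuadraticMap.polar ⇑Q x z₀) • hs2

end Cfsg.Agent.Lib.Helper71.OKE2a
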