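import Mathlib
import Cfsg.Prelude.Def_GeometricClasses
import Cfsg.Agent.Lib.Helper71.OK1
import Cfsg.Agent.Lib.Helper52.Siegel
import Cfsg.Agent.Lib.Helper57.OKGEOM2
import Cfsg.Agent.Lib.Helper29.OKA3f
import Cfsg.Agent.Lib.Helper94.OKB2
import Cfsg.Agent.Lib.Helper21.OKC0
import Cfsg.Agent.Lib.Helper13.OKD1
import Cfsg.Agent.Lib.Helper8.OKE1
import Cfsg.Agent.Lib.Helper92.OKE2cMain
import Cfsg.Agent.Lib.Helper97.OKE3
import Cfsg.Agent.Lib.Helper73.OKG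
import Cfsg.Agent.Lib.Helper35.OKH2
import Cfsg.Agent.Lib.Helper71.OKH3
import Cfsg.Agent.Lib.Helper19.OKH4
import Cfsg.Agent.Lib.Helper77.OKH5
import Cfsg.Agent.Lib.Helper21.OKH6
import Cfsg.Agent.Lib.Helper71.OKB3
import Cfsg.Agent.Lib.Helper85.OKC3

/-!
# S5701: overgroups of the `L`-linear part of `Ω(Q)` (helper71; assembly of the job-board pieces)

If `NO ≤ M ≤ Ω(Q)` and `M` contains an element not normalising the image of `L`, then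
`M = Ω(Q)` (`L/F` of prime degree `r`, `4 r ≤ n`, `q` odd; for `r = 2` also `5 r ≤ n`).
Pieces: GEOM1/2 (helper57), A1 (helper55), A2, C2, C3 (helper85), A3, B1 (helper29), B2, S1
(helper94), C0, H6, S2, S3 (helper21), C1 (helper43), D1 (helper13), E1 (helper8),
B3, E2a, H3 (helper71), E2b, H1 (helper51), E2c (helper92), E3 (helper97), G (helper73),
H2 (helper35), H4 (helper19), H5 (helper77).
-/

set_option autoImplicit false
set_option linter.unusedVariables false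

namespace Cfsg.Agent.Lib.Helper71.OKMain

open Matrix Cfsg.Agent.Lib.Helper71.SpK Cfsg.Agent.Lib.Helper71.OK

theorem ZW_of_cfg2 {ι : Type} [Fintype ι] [DecidableEq ι] {F : Type*} [Field F] [Finite F]
    {Q : QuadraticForm F (ι → F)} {L : Type*} [Field L] [Algebra F L] [FiniteDimensional F L]
    (S : KO (QuadraticMap.polar ⇑Q) L) (h2 : (2 : F) ≠ 0)
    (hQ : (QuadraticMap.polarBilin Q).Nondegenerate)
    (hr : (Module.finrank F L).Prime) (hd : 4 * Module.finrank F L ≤ Fintype.card ι)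
    (M : Subgroup (GL ι F)) (hNM : S.NO Q ≤ M) (hMΩ : M ≤ Cfsg.Geo.omegaGL ⇑Q) {u : ι → F}
    {h : GL ι F} (hcfg : S.Cfg2 M u h) : S.ZW M u := by
  obtain ⟨c', z₀, hD⟩ := Cfsg.Agent.Lib.Helper8.OKE1.cfg2_setup S h2 hQ hr hd M hNM hMΩ hcfg
  by_cases hbad : ∀ z z' : ι → F, S.B z u = 0 → (∀ y ∈ gim (S.line u) h⁻¹, S.B y z = 0) →
      S.B z' u = 0 → (∀ y ∈ gim (S.line u) h, S.B y z' = 0) →
      S.B ((h : Matrix ι ι F) *ᵥ z) z' = 0
  · exact Cfsg.Agent.Lib.Helper97.OKE3.ZW_of_cfg2_bad S h2 hQ hr hd M hNM hMΩ hD hbad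
  · push Not at hbad
    obtain ⟨z, z', hz, hzW, hz', hz'W, hne⟩ := hbad
    exact Cfsg.Agent.Lib.Helper92.OKE2c.ZW_of_cfg2_good S h2 hQ hr hd M hNM hMΩ hD hz hzW hz'
      hz'W hne

theorem overgroup {ι : Type} [Fintype ι] [DecidableEq ι] {F : Type*} [Field F] [Finite F]
    {Q : QuadraticForm F (ι → F)} {L : Type*} [Field L] [Algebra F L] [FiniteDimensional F L]
    (S : KO (QuadraticMap.polar ⇑Q) L) (h2 : (2 : F) ≠ 0)
    (hQ : (QuadraticMap.polarBilin Q).Nondegenerate)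
    (hr : (Module.finrank F L).Prime) (hd : 4 * Module.finrank F L ≤ Fintype.card ι)
    (M : Subgroup (GL ι F)) (hNM : S.NO Q ≤ M) (hMΩ : M ≤ Cfsg.Geo.omegaGL ⇑Q)
    (h5 : Module.finrank F L = 2 → 5 * Module.finrank F L ≤ Fintype.card ι)
    {h : GL ι F} (hh : h ∈ M) (hhN : h ∉ Cfsg.Geo.subalgebraNormalizer S.φ.range) :
    Cfsg.Geo.omegaGL ⇑Q ≤ M := by
  -- B : an intersecting pair
  obtain ⟨g₀, hg₀, v₀, hv₀, hv₀', hnl⟩ :=
    Cfsg.Agent.Lib.Helper94.OKB2.exists_moved_line S h2 hQ hr hd M hNM hMΩ hh hhN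
  obtain ⟨W₁, W₁', hW₁, hW₁', hne₁, hint₁⟩ :=
    Cfsg.Agent.Lib.Helper71.OKB3.exists_inter_pair S h2 hQ hr hd M hNM hMΩ hg₀ hv₀ hv₀' hnl
  -- C0 : a maximal pair
  obtain ⟨u, W₂, hu, huu, hW₂, hne, -, hD, hmax⟩ :=
    Cfsg.Agent.Lib.Helper21.OKC0.exists_max_pair_gen S h2 hQ hr hd M hNM hMΩ (fun _ _ => True)
      (fun _ _ _ _ _ => trivial) ⟨W₁, W₁', hW₁, hW₁', hne₁, trivial, hint₁⟩
  have hmax' : ∀ W₃ W₄, S.InW M W₃ → S.InW M W₄ → W₃ ≠ W₄ →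
      Module.finrank F ↥(W₃ ⊓ W₄) ≤ Module.finrank F ↥(S.line u ⊓ W₂) :=
    fun W₃ W₄ h3 h4 h34 => hmax W₃ W₄ h3 h4 h34 trivial
  -- C3 : an orthogonal intersecting pair
  obtain ⟨W₃, W₄, hW₃, hW₄, hne₃, horth, hint₃⟩ :=
    Cfsg.Agent.Lib.Helper85.OKC3.exists_orth_pair_of_max S h2 hQ hr hd M hNM hMΩ hu huu hW₂ hne
      hD hmax'
  -- C0 again : a maximal orthogonal pair
  obtain ⟨u', W₂', hu', huu', hW₂', hne', horth', hD', hmaxo⟩ :=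
    Cfsg.Agent.Lib.Helper21.OKC0.exists_max_pair_gen S h2 hQ hr hd M hNM hMΩ (Orth Q)
      (fun g hg W W' hWW' => Orth_gim (hMΩ hg) hWW')
      ⟨W₃, W₄, hW₃, hW₄, hne₃, horth, hint₃⟩
  have hperp : ∀ y ∈ W₂', S.B y u' = 0 := S.Orth_line_iff.mp horth'
  -- D1 : the intersection is a hyperplane
  have hfin := Cfsg.Agent.Lib.Helper13.OKD1.orth_max_finrank S h2 hQ hr hd M hNM hMΩ hu' huu'
    hW₂' hne' hperp hD' hmaxo
  -- configuration (ii)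
  obtain ⟨g₂, hg₂, v₂, hv₂, hvv₂, hW₂eq⟩ := hW₂'
  obtain ⟨g', hg', c, hc, hg'u⟩ :=
    Cfsg.Agent.Lib.Helper29.OKA3.exists_NO_line S h2 hQ hr hd hu' huu' hv₂ hvv₂
  have hline : gim (S.line u') (g₂ * g') = W₂' := by
    rw [gim_mul, S.NO_line hg', hg'u, hW₂eq,
      S.line_eq_of_mem (S.act_mem_line c v₂) (S.φ_mulVec_ne_zero hc hv₂)]
  have hcfg : S.Cfg2 M u' (g₂ * g') := by
    refine ⟨M.mul_mem hg₂ (hNM hg'), hu', huu', ?_, ?_⟩
    · rw [hline]; exact hperp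
    · rw [hline]; exact hfin
  -- E : ZW at u', then everywhere
  have hZu' : S.ZW M u' := ZW_of_cfg2 S h2 hQ hr hd M hNM hMΩ hcfg
  have hZ : ∀ v : ι → F, v ≠ 0 → S.B v v = 0 → S.ZW M v := by
    intro v hv hvv
    obtain ⟨g, hg, c, hc, hgu⟩ :=
      Cfsg.Agent.Lib.Helper29.OKA3.exists_NO_line S h2 hQ hr hd hu' huu' hv hvv
    exact Cfsg.Agent.Lib.Helper73.OKG.ZW_of_NO S h2 hQ hr hd M hNM hMΩ hg hc hgu hZu'
  -- H : hyperbolic pairs, full points, Omega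
  have hHP : S.HP M := by
    by_cases hr3 : 3 ≤ Module.finrank F L
    · exact Cfsg.Agent.Lib.Helper35.OKH2.HP_of_ZW3 S h2 hQ hr hd M hNM hMΩ hr3 hZ
    · have hr2 : Module.finrank F L = 2 := by
        have := hr.two_le
        omega
      exact Cfsg.Agent.Lib.Helper19.OKH4.HP_of_ZW2_of S h2 M
        (fun hv0 hv hz hvz hzv a b =>
          Cfsg.Agent.Lib.Helper71.OKH3.EM_orth_of_ZW S h2 hQ hr hd M hNM hMΩ hZ hv0 hv hz hvz
            hzv a b)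
        (fun hv hv₂ hvv₂ =>
          Cfsg.Agent.Lib.Helper57.OKGEOM2.exists_hyp_perp S h2 hQ hr hd (h5 hr2) hv hv₂ hvv₂)
  exact Cfsg.Agent.Lib.Helper21.OKH6.omega_le_of_full S h2 hQ hr hd M hNM hMΩ
    (fun v hv hvv => Cfsg.Agent.Lib.Helper77.OKH5.EM_full S h2 hQ hr hd M hNM hMΩ hZ hHP hv hvv)

end Cfsg.Agent.Lib.Helper71.OKMain
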