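import Mathlib

set_option autoImplicit false

namespace Cfsg.Agent.Lib.Helper71.SLPA3

/-- A3: the minimal field for cube roots of unity (odd degree) is the prime field, `p ≡ 1 mod 3`. -/
theorem A3 (p e : ℕ) (hp : p.Prime) (he : Odd e) (hdvd : 3 ∣ p ^ e - 1)
    (hmin : ∀ d : ℕ, 0 < d → d < e → ¬ 3 ∣ p ^ d - 1) : e = 1 ∧ p % 3 = 1 := by
  have hpe1 : 1 ≤ p ^ e := Nat.one_le_pow _ _ hp.pos
  have hpe : p ^ e % 3 = 1 := by omega
  obtain ⟨k, rfl⟩ := he
  have h4 : 4 ^ k % 3 = 1 := by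
    rw [Nat.pow_mod]
    simp
  have hp3 : p % 3 = 1 := by
    rw [Nat.pow_mod] at hpe
    have h3 : p % 3 < 3 := Nat.mod_lt _ (by norm_num)
    interval_cases hpm : p % 3
    · rw [zero_pow (by omega)] at hpe
      simp at hpe
    · rfl
    · rw [pow_succ, pow_mul, Nat.mul_mod] at hpe
      norm_num at hpe
      omega
  refine ⟨?_, hp3⟩
  by_contra hne
  have hk : 0 < k := by omega
  apply hmin 1 (by norm_num) (by omega)
  rw [pow_one]
  have := hp.two_le
  omega

end Cfsg.Agent.Lib.Helper71.SLPA3
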