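import Mathlib
import Cfsg.Prelude.Def_GeometricClasses
import Cfsg.Agent.Lib.Helper71.Asch0
import Cfsg.Agent.Lib.Helper71.SLP0
import Cfsg.Agent.Lib.Helper71.AschMain
import Cfsg.Agent.Lib.Helper35.SLPN1
import Cfsg.Agent.Lib.Helper75.SLPN2
import Cfsg.Agent.Lib.Helper64.SLPN3
import Cfsg.Agent.Lib.Helper64.SLPN5
import Cfsg.Agent.Lib.Helper36.SLPN6
import Cfsg.Agent.Lib.Helper36.SLPN8u
import Cfsg.Agent.Lib.Helper8.SLPN8q
import Cfsg.Agent.Lib.Helper73.SLPC2
import Cfsg.Agent.Lib.Helper16.SLPC3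
import Cfsg.Agent.Lib.Helper31.SLPC6
import Cfsg.Agent.Lib.Helper31.SLPFR0
import Cfsg.Agent.Lib.Helper79.SLPFR2
import Cfsg.Agent.Lib.Helper79.SLPFR3
import Cfsg.Agent.Lib.Helper29.SLPFR4
import Cfsg.Agent.Lib.Helper61.SLPARI

/-! SLP (helper71): the maximal subgroups of `SL_n(F)`, `n` an odd prime, in normal form,
from `AschMain.main` and the SLP pieces N1–N8, C2, C3, C6, FR0–FR4 (job board). -/

set_option autoImplicit false

namespace Cfsg.Agent.Lib.Helper71.SLPMain

open Matrix Cfsg.Geo Cfsg.Agent.Lib.Helper71.Asch Cfsg.Agent.Lib.Helper71.SLP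
open Cfsg.Agent.Lib.Helper35.SLPN1 (N1)
open Cfsg.Agent.Lib.Helper75.SLPN2 (N2)
open Cfsg.Agent.Lib.Helper64.SLPN3 (N3)
open Cfsg.Agent.Lib.Helper64.SLPN5 (N5)
open Cfsg.Agent.Lib.Helper36.SLPN6 (N6)
open Cfsg.Agent.Lib.Helper36.SLPN8u (N8u)
open Cfsg.Agent.Lib.Helper8.SLPN8q (N8q)
open Cfsg.Agent.Lib.Helper73.SLPC2 (C2)
open Cfsg.Agent.Lib.Helper16.SLPC3 (C3)
open Cfsg.Agent.Lib.Helper31.SLPC6 (C6)
open Cfsg.Agent.Lib.Helper31.SLPFR0 (FR0)
open Cfsg.Agent.Lib.Helper79.SLPFR2 (FR2)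
open Cfsg.Agent.Lib.Helper79.SLPFR3 (FR3)
open Cfsg.Agent.Lib.Helper29.SLPFR4 (FR4)
open Cfsg.Agent.Lib.Helper61.SLPARI (A5 A7 A11)

variable {n : ℕ} {F : Type*} [Field F] [Fintype F]

/-! ## Generic assembly (helper71) -/

/-- GEN: the maximal subgroups of `SL_n(F)`, `n` an odd prime. -/
theorem gen (hn : 3 ≤ n) (hp : n.Prime) (H : Subgroup (GL (Fin n) F))
    (hH : IsMaximalIn (specialLinear (Fin n) F) H) :
    (∃ W : Submodule F (Fin n → F), W ≠ ⊥ ∧ W ≠ ⊤ ∧
      H = subspaceStabilizer W ⊓ specialLinear (Fin n) F) ∨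
    (5 ≤ Fintype.card F ∧ ∃ D : Fin n → Submodule F (Fin n → F), IsMDecomposition 1 D ∧
      H = decompositionStabilizer D ⊓ specialLinear (Fin n) F) ∨
    (∃ K : Subalgebra F (Matrix (Fin n) (Fin n) F), IsFieldSubalgebra n K ∧
      H = subalgebraNormalizer K ⊓ specialLinear (Fin n) F) ∨
    (∃ (F₀ : Subfield F) (r : ℕ) (P : GL (Fin n) F), r.Prime ∧
      Fintype.card F = Nat.card F₀ ^ r ∧ H = subfieldSubgroup F₀ P ⊓ specialLinear (Fin n) F) ∨
    ((∃ p e : ℕ, p.Prime ∧ CharP F p ∧ Fintype.card F = p ^ e ∧ Odd e ∧ n ∣ p ^ e - 1 ∧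
        ∀ d : ℕ, 0 < d → d < e → ¬ n ∣ p ^ d - 1) ∧
      ∃ R : Subgroup (GL (Fin n) F), IsLinearSymplecticTypeData n R ∧
        H = subgroupNormalizer R ⊓ specialLinear (Fin n) F) ∨
    (Odd (Fintype.card F) ∧ ∃ Q : (Fin n → F) → F, IsNondegenerateQuadraticForm Q ∧
      H = quadSimilarityGroup Q ⊓ specialLinear (Fin n) F) ∨
    (∃ (σ : F ≃+* F) (f : (Fin n → F) → (Fin n → F) → F), IsUnitaryForm σ f ∧
      H = similarityGroup f ⊓ specialLinear (Fin n) F) ∨
    InLinearResidualClass H := by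
  have hodd : Odd n := hp.odd_of_ne_two (by omega)
  rcases Cfsg.Agent.Lib.Helper71.AschMain.main hn H with ⟨M, hM, hHM⟩ | hres
  · rcases hM with ⟨W, h0, h1, rfl⟩ | ⟨W, U, h0, hWU, -, rfl⟩ | ⟨W, U, h0, hd, hs, hlt, rfl⟩ |
      ⟨t, m, D, hD, rfl⟩ | ⟨r, K, hr, hK, rfl⟩ | ⟨n₁, n₂, e, P, h2, hlt, rfl⟩ |
      ⟨F₀, r, P, hr, hcard, rfl⟩ | ⟨r, R, hR, rfl⟩ | ⟨m, t, e, P, hm, ht, rfl⟩ |
      ⟨f, hf, hev, -, rfl⟩ | ⟨σ, f, hf, -, rfl⟩ | ⟨Q, hQ, hoddq, -, rfl⟩
    · left
      exact ⟨W, h0, h1, eq_inf_of_maximal hH hHM (N1 (by omega) W h0 h1)⟩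
    · have h1 : W ≠ ⊤ := by
        rintro rfl
        exact not_top_lt hWU
      left
      exact ⟨W, h0, h1, eq_inf_of_maximal hH (hHM.trans inf_le_left) (N1 (by omega) W h0 h1)⟩
    · have h1 : W ≠ ⊤ := by
        rintro rfl
        have hU : U = ⊥ := by simpa using hd
        subst hU
        simp at hlt
      left
      exact ⟨W, h0, h1, eq_inf_of_maximal hH (hHM.trans inf_le_left) (N1 (by omega) W h0 h1)⟩
    · have htm := C2 D hD
      have ht2 := hD.two_le
      have hm1 : m = 1 := by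
        rcases (Nat.dvd_prime hp).mp (Dvd.intro_left t htm) with h | h
        · exact h
        · exfalso
          subst h
          have : t = 1 := by
            have hm0 : 0 < m := by omega
            exact Nat.eq_of_mul_eq_mul_right hm0 (by rw [htm, one_mul])
          omega
      subst hm1
      have htn : t = n := by omega
      subst htn
      by_cases hq : 5 ≤ Fintype.card F
      · right; left
        exact ⟨hq, D, hD, eq_inf_of_maximal hH hHM (N2 (by omega) D hD)⟩
      · obtain ⟨P, hP⟩ := FR0 D hD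
        have hq2 : 1 < Fintype.card F := Fintype.one_lt_card
        have h234 : Fintype.card F = 2 ∨ Fintype.card F = 3 ∨ Fintype.card F = 4 := by omega
        rcases h234 with h2 | h3 | h4
        · obtain ⟨W, h0, h1, hle⟩ := FR2 (by omega) h2 P _ hP
          left
          exact ⟨W, h0, h1, eq_inf_of_maximal hH (hHM.trans hle) (N1 (by omega) W h0 h1)⟩
        · obtain ⟨Q, hQ, hle⟩ := FR3 h3 P _ hP
          right; right; right; right; right; left
          exact ⟨by rw [h3]; decide, Q, hQ, eq_inf_of_maximal hH (hHM.trans hle) (N8q hn Q hQ)⟩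
        · obtain ⟨σ, f, hf, hle⟩ := FR4 h4 P _ hP
          right; right; right; right; right; right; left
          exact ⟨σ, f, hf, eq_inf_of_maximal hH (hHM.trans hle) (N8u hn σ f hf)⟩
    · have hrn : r = n := (Nat.prime_dvd_prime_iff_eq hr hp).mp (C3 (by omega) r K hK)
      subst hrn
      right; right; left
      exact ⟨K, hK, eq_inf_of_maximal hH hHM (N3 hn r hr K hK)⟩
    · exfalso
      have hc : n = n₁ * n₂ := by simpa using Fintype.card_congr e
      rcases (Nat.dvd_prime hp).mp (Dvd.intro n₂ hc.symm) with h | h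
      · omega
      · subst h
        have : n₂ = 1 := by
          have hn0 : 0 < n₁ := by omega
          exact Nat.eq_of_mul_eq_mul_left hn0 (by rw [← hc, mul_one])
        omega
    · have hF₀ : F₀ ≠ ⊤ := by
        rintro rfl
        have h1 : Nat.card (⊤ : Subfield F) = Fintype.card F := by
          rw [← Nat.card_eq_fintype_card]
          exact Nat.card_congr (Subfield.topEquiv (K := F)).toEquiv
        rw [h1] at hcard
        have h2 : 1 < Fintype.card F := Fintype.one_lt_card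
        have h3 : Fintype.card F ^ 1 < Fintype.card F ^ r :=
          Nat.pow_lt_pow_right h2 hr.one_lt
        rw [pow_one] at h3
        omega
      right; right; right; left
      exact ⟨F₀, r, P, hr, hcard, eq_inf_of_maximal hH hHM (N5 (by omega) F₀ hF₀ P)⟩
    · have hrn : r = n := (Nat.prime_dvd_prime_iff_eq hR.symplecticType.prime hp).mp (C6 hn r R hR)
      subst hrn
      obtain ⟨p, e, hrp, hmin, hcase⟩ := hR.field
      have hcase1 : Odd e ∧ Nat.card (Subgroup.center R) = r := by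
        rcases hcase with ⟨-, he, hc, -⟩ | ⟨h2, -⟩ | ⟨h2, -⟩
        · exact ⟨he, hc⟩
        · omega
        · omega
      rw [hcase1.2] at hmin
      obtain ⟨hpp, hchar, hcardF, hdvd, hminimal⟩ := hmin
      right; right; right; right; left
      exact ⟨⟨p, e, hpp, hchar, hcardF, hcase1.1, hdvd, hminimal⟩, R, hR,
        eq_inf_of_maximal hH hHM (N6 hn r R hR)⟩
    · exfalso
      have hc : n = m ^ t := by simpa using Fintype.card_congr e
      have ht0 : t ≠ 0 := by omega
      have hdvd : m ∣ n := by rw [hc]; exact dvd_pow_self m ht0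
      rcases (Nat.dvd_prime hp).mp hdvd with h | h
      · omega
      · subst h
        have h1 : m ^ 1 < m ^ t := Nat.pow_lt_pow_right (by omega) (by omega)
        rw [pow_one] at h1
        omega
    · exfalso
      exact (Nat.not_even_iff_odd.mpr hodd) hev
    · right; right; right; right; right; right; left
      exact ⟨σ, f, hf, eq_inf_of_maximal hH hHM (N8u hn σ f hf)⟩
    · right; right; right; right; right; left
      exact ⟨hoddq, Q, hQ, eq_inf_of_maximal hH hHM (N8q hn Q hQ)⟩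
  · right; right; right; right; right; right; right
    exact hres

end Cfsg.Agent.Lib.Helper71.SLPMain
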