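import Mathlib
import Cfsg.Prelude.Def_GeometricClasses
import Cfsg.Prelude.Def_LieClassical
import Cfsg.Agent.Lib.Helper71.Asch0
import Cfsg.Agent.Lib.Helper71.Asch5
import Cfsg.Agent.Lib.Helper82.ASCOREB
import Cfsg.Agent.Lib.Helper21.ASCOREC
import Cfsg.Agent.Lib.Helper46.ASB3s
import Cfsg.Agent.Lib.Helper46.ASB4
import Cfsg.Agent.Lib.Helper61.ASB6
import Cfsg.Agent.Lib.Helper67.ASNL
import Cfsg.Agent.Lib.Helper46.ASB7core
import Cfsg.Agent.Lib.Helper73.SLPC2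
import Cfsg.Agent.Lib.Helper16.SLPC3
import Cfsg.Agent.Lib.Helper1.SUPU3
import Cfsg.Agent.Lib.Helper77.OMPO7
import Cfsg.Agent.Lib.Helper54.OMPO8a
import Cfsg.Agent.Lib.Helper4.OMPTRa
import Cfsg.Agent.Lib.Helper63.OMPTRb
import Cfsg.Agent.Lib.Helper75.OMPT5
import Cfsg.Agent.Lib.Helper97.SpOver2
import Cfsg.Agent.Lib.Helper75.SPPEVEN
import Cfsg.Agent.Lib.Helper20.SPPEVENM
import Cfsg.Agent.Lib.Helper63.SPPS1
import Cfsg.Agent.Lib.Helper86.SPPCAP
import Cfsg.Agent.Lib.Helper76.SPPPAIRa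
import Cfsg.Agent.Lib.Helper39.SPPPAIRb
import Cfsg.Agent.Lib.Helper31.SPPPLN
import Cfsg.Agent.Lib.Helper32.SPPQ2
import Cfsg.Agent.Lib.Helper19.SPPQTI
import Cfsg.Agent.Lib.Helper83.SPPHOMP
import Cfsg.Agent.Lib.Helper10.SPPUNIQ
import Cfsg.Agent.Lib.Helper89.SPPADJ
import Cfsg.Agent.Lib.Helper66.SPPFLDp
import Cfsg.Agent.Lib.Helper14.SPPFLD2a
import Cfsg.Agent.Lib.Helper75.SPPFLD2b
import Cfsg.Agent.Lib.Helper40.SPPTF
import Cfsg.Agent.Lib.Helper40.SPPTFSW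
import Cfsg.Agent.Lib.Helper68.SPPTFS
import Cfsg.Agent.Lib.Helper29.SPPTEV
import Cfsg.Agent.Lib.Helper29.SPPT33
import Cfsg.Agent.Lib.Helper63.SPPSY
import Cfsg.Agent.Lib.Helper28.SPPB8D
import Cfsg.Agent.Lib.Helper39.SPPSQ
import Cfsg.Agent.Lib.Helper52.SPPNS1
import Cfsg.Agent.Lib.Helper86.SPPNS2
import Cfsg.Agent.Lib.Helper10.SPPNS3
import Cfsg.Agent.Lib.Helper46.SPPNS4
import Cfsg.Agent.Lib.Helper53.SPPNS5
import Cfsg.Agent.Lib.Helper52.SPPNS9
import Cfsg.Agent.Lib.Helper92.SPPTS0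
import Cfsg.Agent.Lib.Helper6.SPPTS1
import Cfsg.Agent.Lib.Helper75.SPPTS2
import Cfsg.Agent.Lib.Helper93.SPPTS3
import Cfsg.Agent.Lib.Helper93.SPPTS4
import Cfsg.Agent.Lib.Helper2.SPPTS5
import Cfsg.Agent.Lib.Helper54.SPPTS9
import Cfsg.Agent.Lib.Helper46.SPPTRq

/-! Project SPP (helper71): the maximal subgroups of `Sp_{2p}(q)`, `p` an odd prime
(statements S5805 = sp6, S5844 = sp10).  Pieces proved by the team (see the imports) + assembly. -/

set_option autoImplicit false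

namespace Cfsg.Agent.Lib.Helper71.SPPMain

open Matrix Cfsg.Geo Cfsg.Agent.Lib.Helper71.Asch
open scoped Kronecker
open Cfsg.Agent.Lib.Helper82.ASCOREB (coreB)
open Cfsg.Agent.Lib.Helper21.ASCOREC (coreC)
open Cfsg.Agent.Lib.Helper46.ASB3s (B3s B3a)
open Cfsg.Agent.Lib.Helper46.ASB4 (not_le_scalars)
open Cfsg.Agent.Lib.Helper61.ASB6 (B6)
open Cfsg.Agent.Lib.Helper67.ASNL (NL_core exists_subfield_aut)
open Cfsg.Agent.Lib.Helper46.ASB7core (B7core)
open Cfsg.Agent.Lib.Helper73.SLPC2 (C2)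
open Cfsg.Agent.Lib.Helper16.SLPC3 (C3)
open Cfsg.Agent.Lib.Helper1.SUPU3 (U3_even)
open Cfsg.Agent.Lib.Helper77.OMPO7 (O7)
open Cfsg.Agent.Lib.Helper54.OMPO8a (O8a)
open Cfsg.Agent.Lib.Helper4.OMPTRa (TRa)
open Cfsg.Agent.Lib.Helper63.OMPTRb (TRb)
open Cfsg.Agent.Lib.Helper75.SPPEVEN (EVEN)
open Cfsg.Agent.Lib.Helper20.SPPEVENM (EVENM)
open Cfsg.Agent.Lib.Helper63.SPPS1 (S1)
open Cfsg.Agent.Lib.Helper86.SPPCAP (CAP)
open Cfsg.Agent.Lib.Helper76.SPPPAIRa (PAIRa)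
open Cfsg.Agent.Lib.Helper39.SPPPAIRb (PAIRb)
open Cfsg.Agent.Lib.Helper31.SPPPLN (PLN)
open Cfsg.Agent.Lib.Helper32.SPPQ2 (Q2)
open Cfsg.Agent.Lib.Helper19.SPPQTI (QTI)
open Cfsg.Agent.Lib.Helper83.SPPHOMP (HOMP)
open Cfsg.Agent.Lib.Helper10.SPPUNIQ (UNIQ)
open Cfsg.Agent.Lib.Helper89.SPPADJ (ADJ)
open Cfsg.Agent.Lib.Helper66.SPPFLDp (FLDp)
open Cfsg.Agent.Lib.Helper14.SPPFLD2a (FLD2a)
open Cfsg.Agent.Lib.Helper75.SPPFLD2b (FLD2b)
open Cfsg.Agent.Lib.Helper40.SPPTF (TF)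
open Cfsg.Agent.Lib.Helper40.SPPTFSW (TFSW)
open Cfsg.Agent.Lib.Helper68.SPPTFS (TFS)
open Cfsg.Agent.Lib.Helper29.SPPTEV (TEV)
open Cfsg.Agent.Lib.Helper29.SPPT33 (T33)
open Cfsg.Agent.Lib.Helper63.SPPSY (SY)
open Cfsg.Agent.Lib.Helper28.SPPB8D (B8D)
open Cfsg.Agent.Lib.Helper39.SPPSQ (SQ)
open Cfsg.Agent.Lib.Helper52.SPPNS1 (NS1)
open Cfsg.Agent.Lib.Helper86.SPPNS2 (NS2)
open Cfsg.Agent.Lib.Helper10.SPPNS3 (NS3)
open Cfsg.Agent.Lib.Helper46.SPPNS4 (NS4)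
open Cfsg.Agent.Lib.Helper53.SPPNS5 (NS5)
open Cfsg.Agent.Lib.Helper52.SPPNS9 (NS9)

variable {n : ℕ} {F : Type*} [Field F] [Fintype F]

/-! ## Structure pieces: subgroups of `GL (Fin n) F` fixing a symplectic form `f` -/

/-! ## Transport along `e : κ ≃ Fin n` -/

section Transport

variable {κ : Type} [Fintype κ] [DecidableEq κ]

/-- transport of vectors: `v ↦ v ∘ e.symm` -/
def tv (e : κ ≃ Fin n) : (κ → F) ≃ₗ[F] (Fin n → F) := LinearEquiv.funCongrLeft F F e.symm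

/-- the transported two-argument form on `Fin n → F` -/
def tf (e : κ ≃ Fin n) (f : (κ → F) → (κ → F) → F) : (Fin n → F) → (Fin n → F) → F :=
  fun u v => f (u ∘ e) (v ∘ e)

/-- the transported subspace -/
def tW (e : κ ≃ Fin n) (W' : Submodule F (Fin n → F)) : Submodule F (κ → F) :=
  W'.comap (tv e).toLinearMap

/-- the transported subalgebra -/
def tK (e : κ ≃ Fin n) (K' : Subalgebra F (Matrix (Fin n) (Fin n) F)) :
    Subalgebra F (Matrix κ κ F) :=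
  K'.comap (Matrix.reindexAlgEquiv F F e).toAlgHom

/-- the quadratic form transported back to `κ → F` -/
def tQi (e : κ ≃ Fin n) (Q' : (Fin n → F) → F) : (κ → F) → F := fun v => Q' (v ∘ e.symm)

/-- TS0a -/
theorem TS0a (e : κ ≃ Fin n) (f : (κ → F) → (κ → F) → F) (hf : IsSymplecticForm f) :
    IsSymplecticForm (tf e f) :=
  Cfsg.Agent.Lib.Helper92.SPPTS0.TS0a e f hf

/-- TS0b -/
theorem TS0b (e : κ ≃ Fin n) (f : (κ → F) → (κ → F) → F) (H : Subgroup (GL κ F))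
    (hH : FixesForm (matrixSet H) f) :
    FixesForm (matrixSet (H.map (glReindex e).toMonoidHom)) (tf e f) :=
  Cfsg.Agent.Lib.Helper92.SPPTS0.TS0b e f H hH

/-- TS1 -/
theorem TS1 (e : κ ≃ Fin n) (f : (κ → F) → (κ → F) → F) (H : Subgroup (GL κ F))
    (W' : Submodule F (Fin n → F)) :
    (H.map (glReindex e).toMonoidHom ≤ subspaceStabilizer W' → H ≤ subspaceStabilizer (tW e W')) ∧
    (W' ≠ ⊥ → tW e W' ≠ ⊥) ∧
    Module.finrank F (tW e W') = Module.finrank F W' ∧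
    (IsTotallySingularFor (tf e f) W' → IsTotallySingularFor f (tW e W')) ∧
    (IsNondegenerateOn (tf e f) W' → IsNondegenerateOn f (tW e W')) :=
  Cfsg.Agent.Lib.Helper6.SPPTS1.TS1 e f H W'

/-- TS2 -/
theorem TS2 (e : κ ≃ Fin n) (f : (κ → F) → (κ → F) → F) (H : Subgroup (GL κ F)) {t m : ℕ}
    (D' : Fin t → Submodule F (Fin n → F)) :
    (H.map (glReindex e).toMonoidHom ≤ decompositionStabilizer D' →
      H ≤ decompositionStabilizer (fun i => tW e (D' i))) ∧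
    (IsMDecomposition m D' → IsMDecomposition m (fun i => tW e (D' i))) ∧
    (IsNondegenerateMDecomposition (tf e f) m D' →
      IsNondegenerateMDecomposition f m (fun i => tW e (D' i))) :=
  Cfsg.Agent.Lib.Helper75.SPPTS2.TS2 e f H D'

/-- TS3 -/
theorem TS3 (e : κ ≃ Fin n) (f : (κ → F) → (κ → F) → F) (H : Subgroup (GL κ F)) (r : ℕ)
    (K' : Subalgebra F (Matrix (Fin n) (Fin n) F)) :
    (H.map (glReindex e).toMonoidHom ≤ subalgebraNormalizer K' →
      H ≤ subalgebraNormalizer (tK e K')) ∧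
    (IsFieldSubalgebra r K' → IsFieldSubalgebra r (tK e K')) ∧
    (IsSelfAdjointFor (tf e f) K' ↔ IsSelfAdjointFor f (tK e K')) ∧
    (IsAdjointClosedFor (tf e f) K' → IsAdjointClosedFor f (tK e K')) ∧
    ((∀ k ∈ K', ∀ v : Fin n → F, tf e f (k *ᵥ v) v = 0) →
      ∀ k ∈ tK e K', ∀ v : κ → F, f (k *ᵥ v) v = 0) :=
  Cfsg.Agent.Lib.Helper93.SPPTS3.TS3 e f H r K'

/-- TS4 -/
theorem TS4 (e : κ ≃ Fin n) (f : (κ → F) → (κ → F) → F) (H : Subgroup (GL κ F)) {n₁ n₂ : ℕ}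
    (e' : Fin n ≃ Fin n₁ × Fin n₂) (P' : GL (Fin n) F)
    (f₁ : (Fin n₁ → F) → (Fin n₁ → F) → F) (f₂ : (Fin n₂ → F) → (Fin n₂ → F) → F) :
    (H.map (glReindex e).toMonoidHom ≤ tensorProductSubgroup n₁ n₂ e' P' →
      H ≤ tensorProductSubgroup n₁ n₂ (e.trans e') ((glReindex e).symm P')) ∧
    (IsTensorFormStructure id (tf e f) f₁ f₂ e' P' →
      IsTensorFormStructure id f f₁ f₂ (e.trans e') ((glReindex e).symm P')) :=
  Cfsg.Agent.Lib.Helper93.SPPTS4.TS4 e f H e' P' f₁ f₂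

/-- TS5 -/
theorem TS5 (e : κ ≃ Fin n) (f : (κ → F) → (κ → F) → F) (H : Subgroup (GL κ F))
    (F₀ : Subfield F) (ζ : F) (P' : GL (Fin n) F) :
    (H.map (glReindex e).toMonoidHom ≤ subfieldSubgroup F₀ P' →
      H ≤ subfieldSubgroup F₀ ((glReindex e).symm P')) ∧
    (IsFormRationalStructure (tf e f) F₀ ζ P' →
      IsFormRationalStructure f F₀ ζ ((glReindex e).symm P')) :=
  Cfsg.Agent.Lib.Helper2.SPPTS5.TS5 e f H F₀ ζ P'

/-- TS9 -/
theorem TS9 (e : κ ≃ Fin n) (f : (κ → F) → (κ → F) → F) (H : Subgroup (GL κ F))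
    (Q' : (Fin n → F) → F) :
    (IsNondegenerateQuadraticForm Q' → IsNondegenerateQuadraticForm (tQi e Q')) ∧
    ((∀ u v : Fin n → F, QuadraticMap.polar Q' u v = tf e f u v) →
      ∀ u v : κ → F, QuadraticMap.polar (tQi e Q') u v = f u v) ∧
    (H.map (glReindex e).toMonoidHom ≤ quadSimilarityGroup Q' →
      H ≤ quadSimilarityGroup (tQi e Q')) :=
  Cfsg.Agent.Lib.Helper54.SPPTS9.TS9 e f H Q'

/-- TRq -/
theorem TRq (e : κ ≃ Fin n) (P' : Subgroup (GL (Fin n) F))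
    (h : ∃ Q : (κ → F) → F, IsNondegenerateQuadraticForm Q ∧
      FixesQuadForm (matrixSet (P'.comap (glReindex e).toMonoidHom)) Q) :
    ∃ Q' : (Fin n → F) → F, IsNondegenerateQuadraticForm Q' ∧ FixesQuadForm (matrixSet P') Q' :=
  Cfsg.Agent.Lib.Helper46.SPPTRq.TRq e P' h

end Transport

/-! ## `Sp_{2m}(q)` is contained in no class member -/

/-! ## Assembly (helper71) -/

/-- the standard symplectic form is a symplectic form -/
theorem SFS (m : ℕ) : IsSymplecticForm (Cfsg.sympForm m F) :=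
  Cfsg.Agent.Lib.Helper97.sympForm_symp m

/-- subgroups of `Sp` fix the standard form -/
theorem fixes_of_le_sp (m : ℕ) {H : Subgroup (GL (Fin m ⊕ Fin m) F)} (hH : H ≤ Cfsg.spGL m F) :
    FixesForm (matrixSet H) (Cfsg.sympForm m F) := by
  rintro _ ⟨g, hg, rfl⟩ u v
  exact hH hg u v

/-- a minimal non-scalar normal subgroup of an irreducible group -/
theorem exists_minNS (hn : 2 ≤ n) (H : Subgroup (GL (Fin n) F))
    (hH : ActsIrreducibly (matrixSet H)) : ∃ L, IsMinNS H L := by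
  have hHns := not_le_scalars hn H hH
  set 𝒮 : Set (Subgroup (GL (Fin n) F)) :=
    {L | L ≤ H ∧ Nrm H L ∧ ¬ L ≤ scalars (Fin n) F} with h𝒮
  have hne : 𝒮.Nonempty := by
    refine ⟨H, le_rfl, ?_, hHns⟩
    intro h hh x hx
    exact H.mul_mem (H.mul_mem hh hx) (H.inv_mem hh)
  have hwf : WellFounded ((· < ·) : Subgroup (GL (Fin n) F) → Subgroup (GL (Fin n) F) → Prop) :=
    wellFounded_lt
  obtain ⟨L, hL, hmin⟩ := hwf.has_min 𝒮 hne
  refine ⟨L, hL.1, hL.2.1, hL.2.2, ?_⟩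
  intro L' hL' hN'
  by_cases hs : L' ≤ scalars (Fin n) F
  · exact Or.inl hs
  · right
    have hmem : L' ∈ 𝒮 := ⟨hL'.trans hL.1, hN', hs⟩
    rcases lt_or_eq_of_le hL' with h | h
    · exact absurd h (hmin L' hmem)
    · exact h

/-- the factorisations of `2p` -/
theorem tm_cases {p t m : ℕ} (hp : p.Prime) (h : t * m = 2 * p) (ht : 2 ≤ t) :
    (p = t ∧ 2 = m) ∨ (2 * p = t ∧ 1 = m) ∨ (2 = t ∧ p = m) := by
  have hpp := hp.pos
  have hdvd : p ∣ t * m := ⟨2, by rw [h]; ring⟩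
  rcases (Nat.Prime.dvd_mul hp).1 hdvd with ⟨a, rfl⟩ | ⟨b, rfl⟩
  · have h2 : a * m = 2 := by
      have : p * (a * m) = p * 2 := by rw [← mul_assoc, h]; ring
      exact Nat.eq_of_mul_eq_mul_left hpp this
    have ha : a ∣ 2 := ⟨m, h2.symm⟩
    have ha2 : a ≤ 2 := Nat.le_of_dvd (by norm_num) ha
    interval_cases a
    · omega
    · left; constructor <;> omega
    · right; left; constructor <;> omega
  · have h2 : t * b = 2 := by
      have : p * (t * b) = p * 2 := by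
        rw [show p * (t * b) = t * (p * b) by ring, h]; ring
      exact Nat.eq_of_mul_eq_mul_left hpp this
    have htd : t ∣ 2 := ⟨b, h2.symm⟩
    have ht2 : t ≤ 2 := Nat.le_of_dvd (by norm_num) htd
    have ht' : t = 2 := by omega
    subst ht'
    right; right; constructor <;> omega

/-- `2p` is not a proper power -/
theorem not_pow {p m k : ℕ} (hp : p.Prime) (hp2 : p ≠ 2) (hk : 2 ≤ k) (h : 2 * p = m ^ k) :
    False := by
  have h2 : 2 ∣ m ^ k := ⟨p, h.symm⟩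
  have h2m : 2 ∣ m := Nat.Prime.dvd_of_dvd_pow Nat.prime_two h2
  obtain ⟨a, rfl⟩ := h2m
  obtain ⟨j, rfl⟩ : ∃ j, k = 2 + j := ⟨k - 2, by omega⟩
  have h4 : 4 ∣ 2 * p := by
    rw [h, pow_add]
    exact Dvd.dvd.mul_right ⟨a ^ 2, by ring⟩ _
  have h2p : 2 ∣ p := by omega
  exact hp2 ((Nat.prime_dvd_prime_iff_eq Nat.prime_two hp).1 h2p).symm

/-- The normal form of a group of isometries of a symplectic form in dimension `2p`. -/
def GenS (p : ℕ) (f : (Fin n → F) → (Fin n → F) → F) (H : Subgroup (GL (Fin n) F)) : Prop :=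
  (∃ W : Submodule F (Fin n → F), W ≠ ⊥ ∧ IsTotallySingularFor f W ∧ H ≤ subspaceStabilizer W) ∨
  (∃ W : Submodule F (Fin n → F), W ≠ ⊥ ∧ IsNondegenerateOn f W ∧ Module.finrank F W < p ∧
    H ≤ subspaceStabilizer W) ∨
  (3 ≤ Fintype.card F ∧ ∃ D : Fin p → Submodule F (Fin n → F),
    IsNondegenerateMDecomposition f 2 D ∧ H ≤ decompositionStabilizer D) ∨
  (Odd (Fintype.card F) ∧ ∃ D : Fin 2 → Submodule F (Fin n → F), IsMDecomposition p D ∧
    (∀ i, IsTotallySingularFor f (D i)) ∧ H ≤ decompositionStabilizer D) ∨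
  (∃ K : Subalgebra F (Matrix (Fin n) (Fin n) F), IsFieldSubalgebra p K ∧ IsSelfAdjointFor f K ∧
    (∀ k ∈ K, ∀ v : Fin n → F, f (k *ᵥ v) v = 0) ∧ H ≤ subalgebraNormalizer K) ∨
  (Odd (Fintype.card F) ∧ ∃ K : Subalgebra F (Matrix (Fin n) (Fin n) F), IsFieldSubalgebra 2 K ∧
    IsAdjointClosedFor f K ∧ ¬ IsSelfAdjointFor f K ∧ H ≤ subalgebraNormalizer K) ∨
  (Odd (Fintype.card F) ∧ (p = 3 → 5 ≤ Fintype.card F) ∧
    ∃ (e : Fin n ≃ Fin 2 × Fin p) (P : GL (Fin n) F) (f₁ : (Fin 2 → F) → (Fin 2 → F) → F)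
      (f₂ : (Fin p → F) → (Fin p → F) → F), IsSymplecticForm f₁ ∧ IsSymmetricForm f₂ ∧
      IsTensorFormStructure id f f₁ f₂ e P ∧ H ≤ tensorProductSubgroup 2 p e P) ∨
  (∃ (F₀ : Subfield F) (r : ℕ) (P : GL (Fin n) F) (ζ : F), r.Prime ∧
    Fintype.card F = Nat.card F₀ ^ r ∧ ζ ≠ 0 ∧ IsFormRationalStructure f F₀ ζ P ∧
    H ≤ subfieldSubgroup F₀ P) ∨
  (¬ Odd (Fintype.card F) ∧ ∃ Q : (Fin n → F) → F, IsNondegenerateQuadraticForm Q ∧
    (∀ u v : Fin n → F, QuadraticMap.polar Q u v = f u v) ∧ H ≤ quadSimilarityGroup Q) ∨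
  InSymplecticResidualClass H

/-- GENS: the structure of a group of isometries of a symplectic form in dimension `2p`. -/
theorem genS (p : ℕ) (hp : p.Prime) (hp2 : p ≠ 2) (hn : n = 2 * p)
    (f : (Fin n → F) → (Fin n → F) → F) (hf : IsSymplecticForm f)
    (H : Subgroup (GL (Fin n) F)) (hfix : FixesForm (matrixSet H) f) : GenS p f H := by
  classical
  have hp3 : 3 ≤ p := by
    have := hp.two_le
    omega
  have hpodd : Odd p := hp.odd_of_ne_two hp2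
  have hpne : ¬ Even p := Nat.not_even_iff_odd.mpr hpodd
  have hq1 : 1 < Fintype.card F := Fintype.one_lt_card
  -- the quadratic alternative
  have quad : ¬ Odd (Fintype.card F) → (∃ Q : (Fin n → F) → F, IsNondegenerateQuadraticForm Q ∧
      (∀ u v : Fin n → F, QuadraticMap.polar Q u v = f u v) ∧ H ≤ quadSimilarityGroup Q) →
      GenS p f H := by
    intro hq h
    exact Or.inr (Or.inr (Or.inr (Or.inr (Or.inr (Or.inr (Or.inr (Or.inr (Or.inl ⟨hq, h⟩))))))))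
  -- non-degenerate decompositions into planes
  have dec2 : ∀ D : Fin p → Submodule F (Fin n → F), IsNondegenerateMDecomposition f 2 D →
      H ≤ decompositionStabilizer D → GenS p f H := by
    intro D hND hHD
    by_cases hq : 3 ≤ Fintype.card F
    · exact Or.inr (Or.inr (Or.inl ⟨hq, D, hND, hHD⟩))
    · have hq2 : Fintype.card F = 2 := by omega
      exact quad (by rw [hq2]; decide) (Q2 hq2 f hf H D hND hHD)
  by_cases h1 : ActsIrreducibly (matrixSet H)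
  swap
  · rcases S1 f hf H hfix h1 with ⟨W, h0, hts, hle⟩ | ⟨W, h0, hnd, hdim, hle⟩
    · exact Or.inl ⟨W, h0, hts, hle⟩
    · have hev := EVEN f hf.bilinear hf.alternating W hnd
      have hlt : Module.finrank F W < p := by
        rcases hev with ⟨a, ha⟩
        rcases hpodd with ⟨b, hb⟩
        omega
      exact Or.inr (Or.inl ⟨W, h0, hnd, hlt, hle⟩)
  obtain ⟨L, hL⟩ := exists_minNS (by omega) H h1
  have hLfix : FixesForm (matrixSet L) f := by
    rintro _ ⟨g, hg, rfl⟩ u v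
    exact hfix _ ⟨g, hL.le hg, rfl⟩ u v
  -- the field alternative
  have fld : ∀ (r : ℕ) (K : Subalgebra F (Matrix (Fin n) (Fin n) F)), r.Prime →
      IsFieldSubalgebra r K → IsAdjointClosedFor f K → H ≤ subalgebraNormalizer K →
      GenS p f H := by
    intro r K hr hK hadj hHK
    have hrn : r ∣ n := C3 (by omega) r K hK
    have hr2p : r = 2 ∨ r = p := by
      rw [hn] at hrn
      rcases (Nat.Prime.dvd_mul hr).1 hrn with h | h
      · exact Or.inl ((Nat.prime_dvd_prime_iff_eq hr Nat.prime_two).1 h)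
      · exact Or.inr ((Nat.prime_dvd_prime_iff_eq hr hp).1 h)
    rcases hr2p with hr2 | hrp
    · subst hr2
      by_cases hsa : IsSelfAdjointFor f K
      · exact (FLD2a f hf p hpodd hn K hK hsa).elim
      · by_cases hq : Odd (Fintype.card F)
        · exact Or.inr (Or.inr (Or.inr (Or.inr (Or.inr (Or.inl ⟨hq, K, hK, hadj, hsa, hHK⟩)))))
        · exact quad hq (FLD2b hq f hf K hK hadj hsa H hfix hHK)
    · subst hrp
      obtain ⟨hsa, halt⟩ := FLDp f hf r hpodd K hK hadj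
      exact Or.inr (Or.inr (Or.inr (Or.inr (Or.inl ⟨K, hK, hsa, halt, hHK⟩))))
  -- the tensor alternative
  have tens : ∀ (e : Fin n ≃ Fin 2 × Fin p) (P : GL (Fin n) F) (G₁ : Matrix (Fin 2) (Fin 2) F)
      (G₂ : Matrix (Fin p) (Fin p) F), G₁.det ≠ 0 → G₂.det ≠ 0 → G₁ᵀ = -G₁ → (∀ i, G₁ i i = 0) →
      G₂ᵀ = G₂ → (∀ x y : Fin 2 × Fin p → F,
        f (P.1 *ᵥ (x ∘ e)) (P.1 *ᵥ (y ∘ e)) = formOfGram id (G₁ ⊗ₖ G₂) x y) →
      H ≤ tensorProductSubgroup 2 p e P → GenS p f H := by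
    intro e P G₁ G₂ hd1 hd2 ha hz hs hid hHT
    obtain ⟨f₁, f₂, hf₁, hf₂, ht⟩ := TFS f e P G₁ G₂ hd1 hd2 ha hz hs hid
    by_cases hq : Odd (Fintype.card F)
    · by_cases h35 : p = 3 → 5 ≤ Fintype.card F
      · exact Or.inr (Or.inr (Or.inr (Or.inr (Or.inr (Or.inr (Or.inl
          ⟨hq, h35, e, P, f₁, f₂, hf₁, hf₂, ht, hHT⟩))))))
      · push Not at h35
        obtain ⟨hp3', hq5⟩ := h35
        subst hp3'
        have hq3 : Fintype.card F = 3 := by
          rcases hq with ⟨a, ha⟩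
          omega
        obtain ⟨D, hD, hHD⟩ := T33 hq3 f hf H hfix e P f₁ f₂ hf₁ hf₂ ht hHT
        exact Or.inr (Or.inr (Or.inl ⟨by omega, D, hD, hHD⟩))
    · exfalso
      have hne : ∃ v, f₂ v v ≠ 0 := by
        by_contra hcon
        push Not at hcon
        have hev := EVEN f₂ hf₂.bilinear hcon ⊤
          (fun w _ hw => ⟨(hf₂.nondegenerate w hw).1.imp fun x hx => ⟨Submodule.mem_top, hx⟩,
            (hf₂.nondegenerate w hw).2.imp fun x hx => ⟨Submodule.mem_top, hx⟩⟩)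
        rw [finrank_top, Module.finrank_fin_fun] at hev
        exact hpne hev
      exact TEV hq f H hfix (by omega) e P f₁ f₂ hf₁ hf₂ hne ht hHT h1
  rcases CAP (by omega) H L h1 hL.le hL.nrm with
    ⟨t, m, D, hD, hHD, hiso, hinv, hfull⟩ | ⟨d, k, e, P, R, hR, hR1, hR2⟩
  · -- inhomogeneous
    have htm : t * m = 2 * p := by rw [← hn]; exact C2 D hD
    have ht2 := hD.two_le
    obtain ⟨τ, hτ, horth, hno⟩ := PAIRa f hf L hLfix D hD hiso hinv hfull
    rcases PAIRb f hf H hfix h1 D hD hHD τ hτ horth hno with hND | ⟨hfp, hcompat⟩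
    · have hev := EVEN f hf.bilinear hf.alternating (D ⟨0, by omega⟩) (hND.nondegenerate _)
      rw [hD.finrank_eq] at hev
      rcases tm_cases hp htm ht2 with ⟨rfl, rfl⟩ | ⟨rfl, rfl⟩ | ⟨rfl, rfl⟩
      · exact dec2 D hND hHD
      · exact absurd hev (by decide)
      · exact absurd hev hpne
    · have hev : Even t := by
        have := U3_even τ hτ hfp
        simpa using this
      rcases tm_cases hp htm ht2 with ⟨rfl, rfl⟩ | ⟨rfl, rfl⟩ | ⟨rfl, rfl⟩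
      · exact absurd hev hpne
      · obtain ⟨s, E, hE, hHE⟩ := PLN (by omega) f hf H D hD hHD τ hfp hτ horth hcompat
        have hs : s * 2 = n := C2 E hE.decomp
        obtain rfl : p = s := by omega
        exact dec2 E hE hHE
      · have hts : ∀ i, IsTotallySingularFor f (D i) := fun i => horth i i (hfp i).symm
        by_cases hq : Odd (Fintype.card F)
        · exact Or.inr (Or.inr (Or.inr (Or.inl ⟨hq, D, hD, hts, hHD⟩)))
        · exact quad hq (QTI hq f hf H hfix D hD hts hHD)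
  · -- homogeneous
    have hcard : n = d * k := by
      have := Fintype.card_congr e
      simpa using this
    have hd1 : d ≠ 1 := by
      rintro rfl
      exact hL.ns (B3s e P R L hR1)
    have hd0 : d ≠ 0 := by
      rintro rfl
      simp at hcard
      omega
    have hdk : d * k = 2 * p := by rw [← hcard, hn]
    by_cases hRa : ActsAbsolutelyIrreducibly (matrixSet R)
    swap
    · obtain ⟨r, K, hr, hK, hHK, hKc⟩ := coreB (by omega) H L hL.le hL.nrm e P R hR hR1 hR2 hRa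
      have hhom := HOMP e P R L hR hR1 hR2
      have hadj := ADJ (by omega) f hf L hLfix hhom
        (fun Z hc hi r K K' hK hK' h1 h2 => UNIQ (by omega) Z hc hi r K K' hK hK' h1 h2) r K hK hKc
      exact fld r K hr hK hadj hHK
    · have hHT : H ≤ tensorProductSubgroup d k e P := fun h hh =>
        (coreC e P R L hRa hR1 hR2).2 h (fun x hx => hL.nrm h hh x hx)
      rcases tm_cases hp hdk (by omega) with ⟨rfl, rfl⟩ | ⟨rfl, rfl⟩ | ⟨rfl, rfl⟩
      · -- d = p, k = 2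
        obtain ⟨G₁, G₂, hd1', hd2', hcase, hid⟩ := TF f hf e P R L hRa hR1 hR2 hLfix
        rcases hcase with ⟨hs1, ha2, hz2⟩ | ⟨ha1, hz1, hs2⟩
        · obtain ⟨hid', heq⟩ := TFSW f e P G₁ G₂ hid
          exact tens (e.trans (Equiv.prodComm (Fin p) (Fin 2))) P G₂ G₁ hd2' hd1' ha2 hz2 hs1 hid'
            (heq ▸ hHT)
        · exact absurd (EVENM G₁ ha1 hz1 hd1') hpne
      · -- d = 2p, k = 1: L absolutely irreducible
        have hLa := B3a e P R L hRa hR2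
        rcases hL.min ⁅L, L⁆ (commutator_le_self L) hL.nrm.commutator with hc | hc
        · exact (SY p hp hp2 hn H L ⟨hL, hLa, hc⟩).elim
        · rcases B6 H L hL hc with ⟨hs, hna⟩ | ⟨k', Ps, hk', hns, hcomm, hsup, hperm, htrans⟩
          · by_cases hsubf : ∃ F₀ : Subfield F, F₀ ≠ ⊤ ∧ RealisableOver F₀ (matrixSet L)
            · obtain ⟨F₀, hF₀, hreal⟩ := hsubf
              obtain ⟨F₁, r, τ', hr, hcardF, hle, hfixτ⟩ := exists_subfield_aut F₀ hF₀
              obtain ⟨B, hB⟩ := hreal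
              have hB₁ : ∀ s ∈ matrixSet L, ∀ i j,
                  (B.1 * s * (B⁻¹ : GL (Fin n) F).1) i j ∈ F₁ :=
                fun s hs i j => hle (hB s hs i j)
              have hHle : H ≤ subfieldSubgroup F₁ B⁻¹ := by
                intro h hh
                have key := NL_core L hLa F₁ τ' hfixτ B hB₁ h (fun x hx => hL.nrm h hh x hx)
                unfold subfieldSubgroup
                refine ⟨B * h * B⁻¹, key, ?_⟩
                show B⁻¹ * (B * h * B⁻¹) * B⁻¹⁻¹ = h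
                group
              obtain ⟨ζ, hζ, hrat⟩ := O8a (by omega) L hLa f hf.bilinear hf.nondegenerate hLfix
                F₁ τ' hfixτ B hB₁
              exact Or.inr (Or.inr (Or.inr (Or.inr (Or.inr (Or.inr (Or.inr (Or.inl
                ⟨F₁, r, B⁻¹, ζ, hr, hcardF, hζ, hrat, hHle⟩)))))))
            · by_cases hQ : ∃ Q : (Fin n → F) → F, IsNondegenerateQuadraticForm Q ∧
                  FixesQuadForm (matrixSet L) Q
              · obtain ⟨Q, hQ1, hQ2⟩ := hQ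
                obtain ⟨hq, hex⟩ := SQ f hf (by omega) H L hL.le hL.nrm hLa hfix Q hQ1 hQ2
                exact quad hq hex
              · refine Or.inr (Or.inr (Or.inr (Or.inr (Or.inr (Or.inr (Or.inr (Or.inr (Or.inr
                  ⟨L, B7core H L hL.le hL.nrm hLa hc hs hna ?_, hQ, ?_⟩))))))))
                · intro F₀ hF₀ hreal
                  exact hsubf ⟨F₀, hF₀, hreal⟩
                · rintro ⟨σ, g, hg, hgfix⟩
                  exact hsubf (O7 (by omega) L hLa f hf.bilinear hf.nondegenerate hLfix σ g hg hgfix)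
          · obtain ⟨m', hm', hnm⟩ := B8D (by omega) H L hLa k' Ps hk' hns hcomm hsup hperm htrans
            exact (not_pow hp hp2 hk' (by rw [← hn]; exact hnm)).elim
      · -- d = 2, k = p
        obtain ⟨G₁, G₂, hd1', hd2', hcase, hid⟩ := TF f hf e P R L hRa hR1 hR2 hLfix
        rcases hcase with ⟨hs1, ha2, hz2⟩ | ⟨ha1, hz1, hs2⟩
        · exact absurd (EVENM G₂ ha2 hz2 hd2') hpne
        · exact tens e P G₁ G₂ hd1' hd2' ha1 hz1 hs2 hid hHT

/-- TRS (assembly): the symplectic residual class transports back. -/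
theorem TRS {κ : Type} [Fintype κ] [DecidableEq κ] (e : κ ≃ Fin n) (H : Subgroup (GL κ F))
    (h : InSymplecticResidualClass (H.map (glReindex e).toMonoidHom)) :
    InSymplecticResidualClass H := by
  obtain ⟨P', hcore, hnq, hnu⟩ := h
  exact ⟨P'.comap (glReindex e).toMonoidHom, TRa e H P' hcore, fun hq => hnq (TRq e P' hq),
    fun hu => hnu (TRb e P' hu)⟩

/-- `IsMaximalIn K H`, `H ≤ M`, `¬ K ≤ M` give `H = M ⊓ K`. -/
theorem eq_inf_of_max' {κ : Type} [Fintype κ] [DecidableEq κ] {K H M : Subgroup (GL κ F)}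
    (hH : IsMaximalIn K H) (hHM : H ≤ M) (hM : ¬ K ≤ M) : H = M ⊓ K := by
  rcases hH.2 (M ⊓ K) (le_inf hHM hH.1.le) inf_le_right with h | h
  · exact h.symm
  · exact absurd (h ▸ inf_le_left) hM

/-- FINAL: the maximal subgroups of `Sp_{2p}(q)`, `p` an odd prime. -/
theorem finalS (p : ℕ) (hp : p.Prime) (hp2 : p ≠ 2) (H : Subgroup (GL (Fin p ⊕ Fin p) F))
    (hH : IsMaximalIn (Cfsg.spGL p F) H) :
    (∃ W : Submodule F (Fin p ⊕ Fin p → F), W ≠ ⊥ ∧ IsTotallySingularFor (Cfsg.sympForm p F) W ∧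
      H = subspaceStabilizer W ⊓ Cfsg.spGL p F) ∨
    (∃ W : Submodule F (Fin p ⊕ Fin p → F), W ≠ ⊥ ∧ IsNondegenerateOn (Cfsg.sympForm p F) W ∧
      Module.finrank F W < p ∧ H = subspaceStabilizer W ⊓ Cfsg.spGL p F) ∨
    (3 ≤ Fintype.card F ∧ ∃ D : Fin p → Submodule F (Fin p ⊕ Fin p → F),
      IsNondegenerateMDecomposition (Cfsg.sympForm p F) 2 D ∧
      H = decompositionStabilizer D ⊓ Cfsg.spGL p F) ∨
    (Odd (Fintype.card F) ∧ ∃ D : Fin 2 → Submodule F (Fin p ⊕ Fin p → F), IsMDecomposition p D ∧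
      (∀ i, IsTotallySingularFor (Cfsg.sympForm p F) (D i)) ∧
      H = decompositionStabilizer D ⊓ Cfsg.spGL p F) ∨
    (∃ K : Subalgebra F (Matrix (Fin p ⊕ Fin p) (Fin p ⊕ Fin p) F), IsFieldSubalgebra p K ∧
      IsSelfAdjointFor (Cfsg.sympForm p F) K ∧
      (∀ k ∈ K, ∀ v : (Fin p ⊕ Fin p → F), (Cfsg.sympForm p F) (Matrix.mulVec k v) v = 0) ∧
      H = subalgebraNormalizer K ⊓ Cfsg.spGL p F) ∨
    (Odd (Fintype.card F) ∧ ∃ K : Subalgebra F (Matrix (Fin p ⊕ Fin p) (Fin p ⊕ Fin p) F),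
      IsFieldSubalgebra 2 K ∧ IsAdjointClosedFor (Cfsg.sympForm p F) K ∧
      ¬ IsSelfAdjointFor (Cfsg.sympForm p F) K ∧ H = subalgebraNormalizer K ⊓ Cfsg.spGL p F) ∨
    (Odd (Fintype.card F) ∧ (p = 3 → 5 ≤ Fintype.card F) ∧
      ∃ (e : (Fin p ⊕ Fin p) ≃ Fin 2 × Fin p) (P : GL (Fin p ⊕ Fin p) F)
        (f₁ : (Fin 2 → F) → (Fin 2 → F) → F) (f₂ : (Fin p → F) → (Fin p → F) → F),
        IsSymplecticForm f₁ ∧ IsSymmetricForm f₂ ∧
        IsTensorFormStructure id (Cfsg.sympForm p F) f₁ f₂ e P ∧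
        H = tensorProductSubgroup 2 p e P ⊓ Cfsg.spGL p F) ∨
    (∃ (F₀ : Subfield F) (r : ℕ) (P : GL (Fin p ⊕ Fin p) F) (ζ : F), r.Prime ∧
      Fintype.card F = Nat.card F₀ ^ r ∧ ζ ≠ 0 ∧
      IsFormRationalStructure (Cfsg.sympForm p F) F₀ ζ P ∧
      H = subfieldSubgroup F₀ P ⊓ Cfsg.spGL p F) ∨
    (¬ Odd (Fintype.card F) ∧ ∃ Q : (Fin p ⊕ Fin p → F) → F, IsNondegenerateQuadraticForm Q ∧
      (∀ u v : (Fin p ⊕ Fin p → F), QuadraticMap.polar Q u v = (Cfsg.sympForm p F) u v) ∧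
      H = quadSimilarityGroup Q ⊓ Cfsg.spGL p F) ∨
    InSymplecticResidualClass H := by
  classical
  have hp3 : 3 ≤ p := by
    have := hp.two_le
    omega
  have hm2 : 2 ≤ p := by omega
  set f₀ := Cfsg.sympForm p F with hf₀def
  have hf₀ : IsSymplecticForm f₀ := SFS p
  have hcardκ : Fintype.card (Fin p ⊕ Fin p) = 2 * p := by
    simp
    ring
  let e : Fin p ⊕ Fin p ≃ Fin (2 * p) := Fintype.equivFinOfCardEq hcardκ
  have hfix₀ : FixesForm (matrixSet H) f₀ := fixes_of_le_sp p hH.1.le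
  have hne : ∀ (F₀ : Subfield F) (r : ℕ), r.Prime → Fintype.card F = Nat.card F₀ ^ r →
      F₀ ≠ ⊤ := by
    intro F₁ r hr hcard htop
    rw [htop] at hcard
    have h1 : Nat.card (⊤ : Subfield F) = Fintype.card F := by
      rw [← Nat.card_eq_fintype_card]
      exact Nat.card_congr Subfield.topEquiv.toEquiv
    rw [h1] at hcard
    have h2 : 1 < Fintype.card F := Fintype.one_lt_card
    have h3 : Fintype.card F ^ 1 < Fintype.card F ^ r :=
      Nat.pow_lt_pow_right h2 hr.one_lt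
    rw [pow_one] at h3
    omega
  have hfr : Module.finrank F (Fin p ⊕ Fin p → F) = 2 * p := by
    rw [Module.finrank_fintype_fun_eq_card, hcardκ]
  have hg := genS (n := 2 * p) p hp hp2 rfl (tf e f₀) (TS0a e f₀ hf₀) _ (TS0b e f₀ H hfix₀)
  unfold GenS at hg
  rcases hg with ⟨W', h0, hts, hle⟩ | ⟨W', h0, hnd, hdim, hle⟩ | ⟨hq, D', hD, hle⟩ |
    ⟨hq, D', hD, hts, hle⟩ | ⟨K', hK, hsa, halt, hle⟩ | ⟨hq, K', hK, hadj, hnsa, hle⟩ |
    ⟨hq, h35, e', P', f₁, f₂, hf₁, hf₂, ht, hle⟩ | ⟨F₀, r, P', ζ, hr, hcard, hζ, hrat, hle⟩ |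
    ⟨hq, Q', hQ', hpol, hle⟩ | hres
  · obtain ⟨t1, t2, t3, t4, t5⟩ := TS1 e f₀ H W'
    have htop : tW e W' ≠ ⊤ := by
      intro htop
      have hts' := t4 hts
      rw [htop] at hts'
      have hv : (Pi.single (Sum.inl (⟨0, by omega⟩ : Fin p)) (1 : F) : Fin p ⊕ Fin p → F) ≠ 0 := by
        intro h
        have := congrFun h (Sum.inl (⟨0, by omega⟩ : Fin p))
        simp at this
      obtain ⟨x, hx⟩ := (hf₀.nondegenerate _ hv).1
      exact hx (hts' x Submodule.mem_top _ Submodule.mem_top)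
    exact Or.inl ⟨tW e W', t2 h0, t4 hts,
      eq_inf_of_max' hH (t1 hle) (NS1 p hm2 _ (t2 h0) htop)⟩
  · obtain ⟨t1, t2, t3, t4, t5⟩ := TS1 e f₀ H W'
    have htop : tW e W' ≠ ⊤ := by
      intro htop
      rw [htop, finrank_top, hfr] at t3
      omega
    exact Or.inr (Or.inl ⟨tW e W', t2 h0, t5 hnd, by rw [t3]; exact hdim,
      eq_inf_of_max' hH (t1 hle) (NS1 p hm2 _ (t2 h0) htop)⟩)
  · obtain ⟨s1, s2, s3⟩ := TS2 (m := 2) e f₀ H D'
    exact Or.inr (Or.inr (Or.inl ⟨hq, _, s3 hD,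
      eq_inf_of_max' hH (s1 hle) (NS2 p hm2 _ (s3 hD).decomp)⟩))
  · obtain ⟨s1, s2, s3⟩ := TS2 (m := p) e f₀ H D'
    exact Or.inr (Or.inr (Or.inr (Or.inl ⟨hq, _, s2 hD,
      fun i => (TS1 e f₀ H (D' i)).2.2.2.1 (hts i),
      eq_inf_of_max' hH (s1 hle) (NS2 p hm2 _ (s2 hD))⟩)))
  · obtain ⟨k1, k2, k3, k4, k5⟩ := TS3 e f₀ H p K'
    exact Or.inr (Or.inr (Or.inr (Or.inr (Or.inl ⟨tK e K', k2 hK, k3.1 hsa, k5 halt,
      eq_inf_of_max' hH (k1 hle) (NS3 p hm2 p hm2 _ (k2 hK))⟩))))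
  · obtain ⟨k1, k2, k3, k4, k5⟩ := TS3 e f₀ H 2 K'
    exact Or.inr (Or.inr (Or.inr (Or.inr (Or.inr (Or.inl ⟨hq, tK e K', k2 hK, k4 hadj,
      fun h => hnsa (k3.2 h),
      eq_inf_of_max' hH (k1 hle) (NS3 p hm2 2 le_rfl _ (k2 hK))⟩)))))
  · obtain ⟨x1, x2⟩ := TS4 e f₀ H e' P' f₁ f₂
    exact Or.inr (Or.inr (Or.inr (Or.inr (Or.inr (Or.inr (Or.inl ⟨hq, h35, e.trans e',
      (glReindex e).symm P', f₁, f₂, hf₁, hf₂, x2 ht,
      eq_inf_of_max' hH (x1 hle) (NS4 p hm2 le_rfl hm2 _ _)⟩))))))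
  · obtain ⟨u1, u2⟩ := TS5 e f₀ H F₀ ζ P'
    exact Or.inr (Or.inr (Or.inr (Or.inr (Or.inr (Or.inr (Or.inr (Or.inl ⟨F₀, r,
      (glReindex e).symm P', ζ, hr, hcard, hζ, u2 hrat,
      eq_inf_of_max' hH (u1 hle) (NS5 p hm2 F₀ (hne F₀ r hr hcard) _)⟩)))))))
  · obtain ⟨q1, q2, q3⟩ := TS9 e f₀ H Q'
    exact Or.inr (Or.inr (Or.inr (Or.inr (Or.inr (Or.inr (Or.inr (Or.inr (Or.inl ⟨hq,
      tQi e Q', q1 hQ', q2 hpol,
      eq_inf_of_max' hH (q3 hle) (NS9 p hm2 _ (q1 hQ') (q2 hpol))⟩))))))))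
  · exact Or.inr (Or.inr (Or.inr (Or.inr (Or.inr (Or.inr (Or.inr (Or.inr (Or.inr
      (TRS e H hres)))))))))

end Cfsg.Agent.Lib.Helper71.SPPMain
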