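import Mathlib
import Cfsg.Prelude.Def_GeometricClasses
import Cfsg.Prelude.Def_LieClassical
import Cfsg.Agent.Lib.Helper71.SPPMain
import Cfsg.Agent.Lib.Helper63.SPPSY
import Cfsg.Agent.Lib.Helper29.SP12HALF
import Cfsg.Agent.Lib.Helper40.SP12PLNm
import Cfsg.Agent.Lib.Helper82.SP12FLDsa
import Cfsg.Agent.Lib.Helper68.SP12TEVg
import Cfsg.Agent.Lib.Helper65.SP12TAA
import Cfsg.Agent.Lib.Helper61.SP12T33g
import Cfsg.Agent.Lib.Helper43.SP12T2Sa
import Cfsg.Agent.Lib.Helper88.SP12T2Sb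

/-! Project SP12 (helper71): the maximal subgroups of `Sp_12(q)` (statement S5868), on top of the
landed project SPP (`Lib/Helper71/SPPMain.lean`).  The new pieces are proved by the team (see the imports and the restatements below). -/

set_option autoImplicit false

namespace Cfsg.Agent.Lib.Helper71.SP12Main

open Matrix Cfsg.Geo Cfsg.Agent.Lib.Helper71.Asch Cfsg.Agent.Lib.Helper71.SPPMain
open scoped Kronecker
open Cfsg.Agent.Lib.Helper82.ASCOREB (coreB)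
open Cfsg.Agent.Lib.Helper21.ASCOREC (coreC)
open Cfsg.Agent.Lib.Helper46.ASB3s (B3s B3a)
open Cfsg.Agent.Lib.Helper46.ASB4 (not_le_scalars)
open Cfsg.Agent.Lib.Helper61.ASB6 (B6)
open Cfsg.Agent.Lib.Helper67.ASNL (NL_core exists_subfield_aut)
open Cfsg.Agent.Lib.Helper46.ASB7core (B7core)
open Cfsg.Agent.Lib.Helper73.SLPC2 (C2)
open Cfsg.Agent.Lib.Helper16.SLPC3 (C3)
open Cfsg.Agent.Lib.Helper1.SUPU3 (U3_even)
open Cfsg.Agent.Lib.Helper77.OMPO7 (O7)
open Cfsg.Agent.Lib.Helper54.OMPO8a (O8a)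
open Cfsg.Agent.Lib.Helper75.SPPEVEN (EVEN)
open Cfsg.Agent.Lib.Helper20.SPPEVENM (EVENM)
open Cfsg.Agent.Lib.Helper63.SPPS1 (S1)
open Cfsg.Agent.Lib.Helper86.SPPCAP (CAP)
open Cfsg.Agent.Lib.Helper76.SPPPAIRa (PAIRa)
open Cfsg.Agent.Lib.Helper39.SPPPAIRb (PAIRb)
open Cfsg.Agent.Lib.Helper32.SPPQ2 (Q2)
open Cfsg.Agent.Lib.Helper19.SPPQTI (QTI)
open Cfsg.Agent.Lib.Helper83.SPPHOMP (HOMP)
open Cfsg.Agent.Lib.Helper10.SPPUNIQ (UNIQ)
open Cfsg.Agent.Lib.Helper89.SPPADJ (ADJ)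
open Cfsg.Agent.Lib.Helper66.SPPFLDp (FLDp)
open Cfsg.Agent.Lib.Helper75.SPPFLD2b (FLD2b)
open Cfsg.Agent.Lib.Helper40.SPPTF (TF)
open Cfsg.Agent.Lib.Helper40.SPPTFSW (TFSW)
open Cfsg.Agent.Lib.Helper68.SPPTFS (TFS)
open Cfsg.Agent.Lib.Helper28.SPPB8D (B8D)
open Cfsg.Agent.Lib.Helper39.SPPSQ (SQ)
open Cfsg.Agent.Lib.Helper10.SPPNS3 (NS3)
open Cfsg.Agent.Lib.Helper52.SPPNS1 (NS1)
open Cfsg.Agent.Lib.Helper86.SPPNS2 (NS2)
open Cfsg.Agent.Lib.Helper46.SPPNS4 (NS4)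
open Cfsg.Agent.Lib.Helper53.SPPNS5 (NS5)
open Cfsg.Agent.Lib.Helper52.SPPNS9 (NS9)

variable {n : ℕ} {F : Type*} [Field F] [Fintype F]

/-! ## New pieces (restated; proofs in the imported team modules) -/

/-- HALF: a group of isometries stabilising a non-degenerate subspace `W` of half the dimension
stabilises the non-degenerate decomposition `W ⊕ W^⊥`. -/
theorem HALF (f : (Fin n → F) → (Fin n → F) → F) (hf : IsSymplecticForm f)
    (H : Subgroup (GL (Fin n) F)) (hfix : FixesForm (matrixSet H) f)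
    (W : Submodule F (Fin n → F)) (m : ℕ) (hm : 0 < m) (hn : n = 2 * m)
    (hdim : Module.finrank F W = m) (hnd : IsNondegenerateOn f W)
    (hle : H ≤ subspaceStabilizer W) :
    ∃ D : Fin 2 → Submodule F (Fin n → F), IsNondegenerateMDecomposition f m D ∧
      H ≤ decompositionStabilizer D := by
  exact Cfsg.Agent.Lib.Helper29.SP12HALF.HALF f hf H hfix W m hm hn hdim hnd hle

/-- PLNm: totally singular blocks of dimension `m` paired by a fixed-point-free involution give a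
non-degenerate decomposition into blocks of dimension `2 m` (`PLN` is the case `m = 1`). -/
theorem PLNm (f : (Fin n → F) → (Fin n → F) → F) (hf : IsSymplecticForm f)
    (H : Subgroup (GL (Fin n) F)) {t m : ℕ} (D : Fin t → Submodule F (Fin n → F))
    (hD : IsMDecomposition m D) (ht : 2 < t) (hHD : H ≤ decompositionStabilizer D)
    (τ : Fin t → Fin t) (hτ1 : ∀ i, τ i ≠ i) (hτ2 : ∀ i, τ (τ i) = i)
    (horth : ∀ i j, j ≠ τ i → AreOrthogonalFor f (D i) (D j))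
    (hcompat : ∀ h ∈ H, ∀ σ : Equiv.Perm (Fin t),
      (∀ i, (D i).map (Matrix.toLin' h.1) = D (σ i)) → ∀ i, σ (τ i) = τ (σ i)) :
    ∃ (s : ℕ) (E : Fin s → Submodule F (Fin n → F)), IsNondegenerateMDecomposition f (2 * m) E ∧
      H ≤ decompositionStabilizer E := by
  exact Cfsg.Agent.Lib.Helper40.SP12PLNm.PLNm f hf H D hD ht hHD τ hτ1 hτ2 horth hcompat

/-- FLDsa: the elements `k` of a self-adjoint field subalgebra satisfy `f (k v) v = 0`. -/
theorem FLDsa (f : (Fin n → F) → (Fin n → F) → F) (hf : IsSymplecticForm f) (r : ℕ)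
    (K : Subalgebra F (Matrix (Fin n) (Fin n) F)) (hK : IsFieldSubalgebra r K)
    (hsa : IsSelfAdjointFor f K) : ∀ k ∈ K, ∀ v : Fin n → F, f (k *ᵥ v) v = 0 := by
  exact Cfsg.Agent.Lib.Helper82.SP12FLDsa.FLDsa f hf r K hK hsa

/-- TEVg: in characteristic 2 a group of isometries inside `Sp_d ⊗ O_k` (the symmetric factor not
alternating) is reducible (`TEV` is the case `d = 2`). -/
theorem TEVg (hq : ¬ Odd (Fintype.card F)) (f : (Fin n → F) → (Fin n → F) → F)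
    (H : Subgroup (GL (Fin n) F)) (hfix : FixesForm (matrixSet H) f) {d k : ℕ} (hd : 1 ≤ d)
    (hk : 2 ≤ k) (e : Fin n ≃ Fin d × Fin k) (P : GL (Fin n) F)
    (f₁ : (Fin d → F) → (Fin d → F) → F) (f₂ : (Fin k → F) → (Fin k → F) → F)
    (h1 : IsSymplecticForm f₁) (h2 : IsSymmetricForm f₂) (hne : ∃ v, f₂ v v ≠ 0)
    (ht : IsTensorFormStructure id f f₁ f₂ e P) (hH : H ≤ tensorProductSubgroup d k e P) :
    ¬ ActsIrreducibly (matrixSet H) := by
  exact Cfsg.Agent.Lib.Helper68.SP12TEVg.TEVg hq f H hfix hd hk e P f₁ f₂ h1 h2 hne ht hH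

/-- TEVa: in characteristic 2 a group of isometries inside `Sp_d ⊗ Sp_k` (both factors
alternating) fixes a quadratic form with polar form `f`. -/
theorem TEVa (hq : ¬ Odd (Fintype.card F)) (f : (Fin n → F) → (Fin n → F) → F)
    (hf : IsSymplecticForm f) (H : Subgroup (GL (Fin n) F)) (hfix : FixesForm (matrixSet H) f)
    {d k : ℕ} (e : Fin n ≃ Fin d × Fin k) (P : GL (Fin n) F)
    (f₁ : (Fin d → F) → (Fin d → F) → F) (f₂ : (Fin k → F) → (Fin k → F) → F)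
    (h1 : IsSymplecticForm f₁) (h2 : IsSymmetricForm f₂) (halt : ∀ v, f₂ v v = 0)
    (ht : IsTensorFormStructure id f f₁ f₂ e P) (hH : H ≤ tensorProductSubgroup d k e P) :
    ∃ Q : (Fin n → F) → F, IsNondegenerateQuadraticForm Q ∧
      (∀ u v : Fin n → F, QuadraticMap.polar Q u v = f u v) ∧ H ≤ quadSimilarityGroup Q := by
  exact Cfsg.Agent.Lib.Helper65.SP12.TAA hq f hf H hfix e P f₁ f₂ h1 h2 halt ht hH

/-- T33g: over the field with three elements a group of isometries inside `Sp_d ⊗ O_3` stabilises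
a non-degenerate decomposition into three `d`-spaces (`T33` is the case `d = 2`). -/
theorem T33g (hq : Fintype.card F = 3) (f : (Fin n → F) → (Fin n → F) → F)
    (hf : IsSymplecticForm f) (H : Subgroup (GL (Fin n) F)) (hfix : FixesForm (matrixSet H) f)
    {d : ℕ} (hd : 1 ≤ d) (e : Fin n ≃ Fin d × Fin 3) (P : GL (Fin n) F)
    (f₁ : (Fin d → F) → (Fin d → F) → F) (f₂ : (Fin 3 → F) → (Fin 3 → F) → F)
    (h1 : IsSymplecticForm f₁) (h2 : IsSymmetricForm f₂)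
    (ht : IsTensorFormStructure id f f₁ f₂ e P) (hH : H ≤ tensorProductSubgroup d 3 e P) :
    ∃ D : Fin 3 → Submodule F (Fin n → F), IsNondegenerateMDecomposition f d D ∧
      H ≤ decompositionStabilizer D := by
  exact Cfsg.Agent.Lib.Helper61.SP12T33g.T33g hq f hf H hfix hd e P f₁ f₂ h1 h2 ht hH

/-- T2Sa: for `q` odd a group of isometries inside `Sp_d ⊗ O_2`, the symmetric form on `F^2`
isotropic, stabilises a pair of complementary totally singular `d`-spaces. -/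
theorem T2Sa (hq : Odd (Fintype.card F)) (f : (Fin n → F) → (Fin n → F) → F)
    (hf : IsSymplecticForm f) (H : Subgroup (GL (Fin n) F)) (hfix : FixesForm (matrixSet H) f)
    {d : ℕ} (hd : 1 ≤ d) (e : Fin n ≃ Fin d × Fin 2) (P : GL (Fin n) F)
    (f₁ : (Fin d → F) → (Fin d → F) → F) (f₂ : (Fin 2 → F) → (Fin 2 → F) → F)
    (h1 : IsSymplecticForm f₁) (h2 : IsSymmetricForm f₂)
    (ht : IsTensorFormStructure id f f₁ f₂ e P) (hH : H ≤ tensorProductSubgroup d 2 e P)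
    (hiso : ∃ v, v ≠ 0 ∧ f₂ v v = 0) :
    ∃ D : Fin 2 → Submodule F (Fin n → F), IsMDecomposition d D ∧
      (∀ i, IsTotallySingularFor f (D i)) ∧ H ≤ decompositionStabilizer D := by
  exact Cfsg.Agent.Lib.Helper43.SP12T2Sa.T2Sa hq f hf H hfix hd e P f₁ f₂ h1 h2 ht hH hiso

/-- T2Sb: for `q` odd a group of isometries inside `Sp_d ⊗ O_2`, the symmetric form on `F^2`
anisotropic, normalises an adjoint-closed, not self-adjoint field subalgebra of degree 2. -/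
theorem T2Sb (hq : Odd (Fintype.card F)) (f : (Fin n → F) → (Fin n → F) → F)
    (hf : IsSymplecticForm f) (H : Subgroup (GL (Fin n) F)) (hfix : FixesForm (matrixSet H) f)
    {d : ℕ} (hd : 1 ≤ d) (e : Fin n ≃ Fin d × Fin 2) (P : GL (Fin n) F)
    (f₁ : (Fin d → F) → (Fin d → F) → F) (f₂ : (Fin 2 → F) → (Fin 2 → F) → F)
    (h1 : IsSymplecticForm f₁) (h2 : IsSymmetricForm f₂)
    (ht : IsTensorFormStructure id f f₁ f₂ e P) (hH : H ≤ tensorProductSubgroup d 2 e P)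
    (haniso : ∀ v, v ≠ 0 → f₂ v v ≠ 0) :
    ∃ K : Subalgebra F (Matrix (Fin n) (Fin n) F), IsFieldSubalgebra 2 K ∧
      IsAdjointClosedFor f K ∧ ¬ IsSelfAdjointFor f K ∧ H ≤ subalgebraNormalizer K := by
  exact Cfsg.Agent.Lib.Helper88.SP12T2Sb.T2Sb hq f hf H hfix hd e P f₁ f₂ h1 h2 ht hH haniso

/-! ## Assembly (helper71) -/

/-- SY12: no symplectic-type minimal normal subgroup in dimension 12. -/
theorem SY12 (hn : n = 12) (H L : Subgroup (GL (Fin n) F)) (h : SymT H L) : False := by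
  classical
  obtain ⟨r, hr, hx⟩ := Cfsg.Agent.Lib.Helper82.ASSA.SA H L h
  have hpw := Cfsg.Agent.Lib.Helper66.ASSC.SC H L h r hr hx
  have hrF : Fact r.Prime := ⟨hr⟩
  have hPG : IsPGroup r ↥L := by
    intro g
    obtain ⟨j, hj⟩ := hpw g.1 g.2
    exact ⟨j, Subtype.ext (by rw [Subgroup.coe_pow, Subgroup.coe_one]; exact hj)⟩
  obtain ⟨a, ha⟩ := IsPGroup.iff_card.mp hPG
  have hidx := Cfsg.Agent.Lib.Helper63.SPPSY.sy_index (by omega) H L h
  have hcard := Subgroup.card_eq_card_quotient_mul_card_subgroup ((scalars (Fin n) F).subgroupOf L)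
  rw [hidx, ha] at hcard
  have hdvd : n * n ∣ r ^ a := ⟨_, hcard⟩
  have h2 : 2 ∣ r ^ a := Dvd.dvd.trans ⟨6 * n, by rw [hn]; norm_num⟩ hdvd
  have h3 : 3 ∣ r ^ a := Dvd.dvd.trans ⟨4 * n, by rw [hn]; norm_num⟩ hdvd
  have hr2 : 2 = r :=
    (Nat.prime_dvd_prime_iff_eq Nat.prime_two hr).1 (Nat.prime_two.dvd_of_dvd_pow h2)
  have hr3 : 3 = r :=
    (Nat.prime_dvd_prime_iff_eq Nat.prime_three hr).1 (Nat.prime_three.dvd_of_dvd_pow h3)
  omega

/-- 12 is not a proper power -/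
theorem not_pow12 {m k : ℕ} (hk : 2 ≤ k) (h : 12 = m ^ k) : False := by
  obtain ⟨j, rfl⟩ : ∃ j, k = 2 + j := ⟨k - 2, by omega⟩
  have hm4 : m < 4 := by
    by_contra hcon
    push Not at hcon
    have h16 : 4 ^ 2 ≤ m ^ 2 := Nat.pow_le_pow_left hcon 2
    have h1 : m ^ 2 ≤ m ^ (2 + j) := Nat.pow_le_pow_right (by omega) (by omega)
    omega
  interval_cases m
  · simp at h
  · simp at h
  · -- 12 = 2 ^ (2 + j)
    have h3 : 3 ∣ 2 ^ (2 + j) := ⟨4, by rw [← h]⟩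
    have := Nat.prime_three.dvd_of_dvd_pow h3
    omega
  · have h2 : 2 ∣ 3 ^ (2 + j) := ⟨6, by rw [← h]⟩
    have := Nat.prime_two.dvd_of_dvd_pow h2
    omega

/-- The normal form of a group of isometries of a symplectic form in dimension 12. -/
def GenS12 (f : (Fin n → F) → (Fin n → F) → F) (H : Subgroup (GL (Fin n) F)) : Prop :=
  (∃ W : Submodule F (Fin n → F), W ≠ ⊥ ∧ IsTotallySingularFor f W ∧ H ≤ subspaceStabilizer W) ∨
  (∃ W : Submodule F (Fin n → F), W ≠ ⊥ ∧ IsNondegenerateOn f W ∧ Module.finrank F W < 6 ∧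
    H ≤ subspaceStabilizer W) ∨
  (3 ≤ Fintype.card F ∧ ∃ D : Fin 6 → Submodule F (Fin n → F),
    IsNondegenerateMDecomposition f 2 D ∧ H ≤ decompositionStabilizer D) ∨
  (∃ D : Fin 3 → Submodule F (Fin n → F),
    IsNondegenerateMDecomposition f 4 D ∧ H ≤ decompositionStabilizer D) ∨
  (∃ D : Fin 2 → Submodule F (Fin n → F),
    IsNondegenerateMDecomposition f 6 D ∧ H ≤ decompositionStabilizer D) ∨
  (Odd (Fintype.card F) ∧ ∃ D : Fin 2 → Submodule F (Fin n → F), IsMDecomposition 6 D ∧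
    (∀ i, IsTotallySingularFor f (D i)) ∧ H ≤ decompositionStabilizer D) ∨
  (∃ K : Subalgebra F (Matrix (Fin n) (Fin n) F), IsFieldSubalgebra 2 K ∧ IsSelfAdjointFor f K ∧
    (∀ k ∈ K, ∀ v : Fin n → F, f (k *ᵥ v) v = 0) ∧ H ≤ subalgebraNormalizer K) ∨
  (∃ K : Subalgebra F (Matrix (Fin n) (Fin n) F), IsFieldSubalgebra 3 K ∧ IsSelfAdjointFor f K ∧
    (∀ k ∈ K, ∀ v : Fin n → F, f (k *ᵥ v) v = 0) ∧ H ≤ subalgebraNormalizer K) ∨
  (Odd (Fintype.card F) ∧ ∃ K : Subalgebra F (Matrix (Fin n) (Fin n) F), IsFieldSubalgebra 2 K ∧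
    IsAdjointClosedFor f K ∧ ¬ IsSelfAdjointFor f K ∧ H ≤ subalgebraNormalizer K) ∨
  (Odd (Fintype.card F) ∧
    ∃ (e : Fin n ≃ Fin 2 × Fin 6) (P : GL (Fin n) F) (f₁ : (Fin 2 → F) → (Fin 2 → F) → F)
      (f₂ : (Fin 6 → F) → (Fin 6 → F) → F), IsSymplecticForm f₁ ∧ IsSymmetricForm f₂ ∧
      IsTensorFormStructure id f f₁ f₂ e P ∧ H ≤ tensorProductSubgroup 2 6 e P) ∨
  (Odd (Fintype.card F) ∧ 5 ≤ Fintype.card F ∧
    ∃ (e : Fin n ≃ Fin 4 × Fin 3) (P : GL (Fin n) F) (f₁ : (Fin 4 → F) → (Fin 4 → F) → F)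
      (f₂ : (Fin 3 → F) → (Fin 3 → F) → F), IsSymplecticForm f₁ ∧ IsSymmetricForm f₂ ∧
      IsTensorFormStructure id f f₁ f₂ e P ∧ H ≤ tensorProductSubgroup 4 3 e P) ∨
  (∃ (F₀ : Subfield F) (r : ℕ) (P : GL (Fin n) F) (ζ : F), r.Prime ∧
    Fintype.card F = Nat.card F₀ ^ r ∧ ζ ≠ 0 ∧ IsFormRationalStructure f F₀ ζ P ∧
    H ≤ subfieldSubgroup F₀ P) ∨
  (¬ Odd (Fintype.card F) ∧ ∃ Q : (Fin n → F) → F, IsNondegenerateQuadraticForm Q ∧
    (∀ u v : Fin n → F, QuadraticMap.polar Q u v = f u v) ∧ H ≤ quadSimilarityGroup Q) ∨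
  InSymplecticResidualClass H

/-- GENS12: the structure of a group of isometries of a symplectic form in dimension 12. -/
theorem genS12 (hn : n = 12) (f : (Fin n → F) → (Fin n → F) → F) (hf : IsSymplecticForm f)
    (H : Subgroup (GL (Fin n) F)) (hfix : FixesForm (matrixSet H) f) : GenS12 f H := by
  classical
  have hq1 : 1 < Fintype.card F := Fintype.one_lt_card
  -- the quadratic alternative
  have quad : ¬ Odd (Fintype.card F) → (∃ Q : (Fin n → F) → F, IsNondegenerateQuadraticForm Q ∧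
      (∀ u v : Fin n → F, QuadraticMap.polar Q u v = f u v) ∧ H ≤ quadSimilarityGroup Q) →
      GenS12 f H := by
    intro hq h
    exact Or.inr (Or.inr (Or.inr (Or.inr (Or.inr (Or.inr (Or.inr (Or.inr (Or.inr (Or.inr
      (Or.inr (Or.inr (Or.inl ⟨hq, h⟩))))))))))))
  -- non-degenerate decompositions
  have dec2 : ∀ D : Fin 6 → Submodule F (Fin n → F), IsNondegenerateMDecomposition f 2 D →
      H ≤ decompositionStabilizer D → GenS12 f H := by
    intro D hND hHD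
    by_cases hq : 3 ≤ Fintype.card F
    · exact Or.inr (Or.inr (Or.inl ⟨hq, D, hND, hHD⟩))
    · have hq2 : Fintype.card F = 2 := by omega
      exact quad (by rw [hq2]; decide) (Q2 hq2 f hf H D hND hHD)
  have dec4 : ∀ D : Fin 3 → Submodule F (Fin n → F), IsNondegenerateMDecomposition f 4 D →
      H ≤ decompositionStabilizer D → GenS12 f H := fun D hND hHD =>
    Or.inr (Or.inr (Or.inr (Or.inl ⟨D, hND, hHD⟩)))
  have dec6 : ∀ D : Fin 2 → Submodule F (Fin n → F), IsNondegenerateMDecomposition f 6 D →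
      H ≤ decompositionStabilizer D → GenS12 f H := fun D hND hHD =>
    Or.inr (Or.inr (Or.inr (Or.inr (Or.inl ⟨D, hND, hHD⟩))))
  -- a non-degenerate decomposition with blocks of dimension `m`
  have decm : ∀ (t m : ℕ) (D : Fin t → Submodule F (Fin n → F)),
      IsNondegenerateMDecomposition f m D → H ≤ decompositionStabilizer D → GenS12 f H := by
    intro t m D hND hHD
    have htm : t * m = 12 := by rw [← hn]; exact C2 D hND.decomp
    have ht2 := hND.decomp.two_le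
    have hev := EVEN f hf.bilinear hf.alternating (D ⟨0, by omega⟩) (hND.nondegenerate _)
    rw [hND.decomp.finrank_eq] at hev
    have hm12 : m ≤ 12 := Nat.le_of_dvd (by norm_num) ⟨t, by rw [← htm]; ring⟩
    interval_cases m
    all_goals first
      | exact absurd hev (by decide)
      | omega
      | (obtain rfl : t = 6 := by omega
         exact dec2 D hND hHD)
      | (obtain rfl : t = 3 := by omega
         exact dec4 D hND hHD)
      | (obtain rfl : t = 2 := by omega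
         exact dec6 D hND hHD)
  -- a pair of complementary totally singular subspaces
  have tipair : ∀ D : Fin 2 → Submodule F (Fin n → F), IsMDecomposition 6 D →
      (∀ i, IsTotallySingularFor f (D i)) → H ≤ decompositionStabilizer D → GenS12 f H := by
    intro D hD hts hHD
    by_cases hq : Odd (Fintype.card F)
    · exact Or.inr (Or.inr (Or.inr (Or.inr (Or.inr (Or.inl ⟨hq, D, hD, hts, hHD⟩)))))
    · exact quad hq (QTI hq f hf H hfix D hD hts hHD)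
  by_cases h1 : ActsIrreducibly (matrixSet H)
  swap
  · rcases S1 f hf H hfix h1 with ⟨W, h0, hts, hle⟩ | ⟨W, h0, hnd, hdim, hle⟩
    · exact Or.inl ⟨W, h0, hts, hle⟩
    · by_cases hlt : Module.finrank F W < 6
      · exact Or.inr (Or.inl ⟨W, h0, hnd, hlt, hle⟩)
      · have h6 : Module.finrank F W = 6 := by omega
        obtain ⟨D, hD, hHD⟩ := HALF f hf H hfix W 6 (by norm_num) (by omega) h6 hnd hle
        exact dec6 D hD hHD
  obtain ⟨L, hL⟩ := exists_minNS (by omega) H h1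
  have hLfix : FixesForm (matrixSet L) f := by
    rintro _ ⟨g, hg, rfl⟩ u v
    exact hfix _ ⟨g, hL.le hg, rfl⟩ u v
  -- the field alternative
  have fld : ∀ (r : ℕ) (K : Subalgebra F (Matrix (Fin n) (Fin n) F)), r.Prime →
      IsFieldSubalgebra r K → IsAdjointClosedFor f K → H ≤ subalgebraNormalizer K →
      GenS12 f H := by
    intro r K hr hK hadj hHK
    have hrn : r ∣ n := C3 (by omega) r K hK
    have hr23 : r = 2 ∨ r = 3 := by
      rw [hn, show (12 : ℕ) = 2 * (2 * 3) by norm_num] at hrn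
      rcases (Nat.Prime.dvd_mul hr).1 hrn with h | h
      · exact Or.inl ((Nat.prime_dvd_prime_iff_eq hr Nat.prime_two).1 h)
      · rcases (Nat.Prime.dvd_mul hr).1 h with h | h
        · exact Or.inl ((Nat.prime_dvd_prime_iff_eq hr Nat.prime_two).1 h)
        · exact Or.inr ((Nat.prime_dvd_prime_iff_eq hr Nat.prime_three).1 h)
    rcases hr23 with hr2 | hr3
    · subst hr2
      by_cases hsa : IsSelfAdjointFor f K
      · exact Or.inr (Or.inr (Or.inr (Or.inr (Or.inr (Or.inr (Or.inl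
          ⟨K, hK, hsa, FLDsa f hf 2 K hK hsa, hHK⟩))))))
      · by_cases hq : Odd (Fintype.card F)
        · exact Or.inr (Or.inr (Or.inr (Or.inr (Or.inr (Or.inr (Or.inr (Or.inr (Or.inl
            ⟨hq, K, hK, hadj, hsa, hHK⟩))))))))
        · exact quad hq (FLD2b hq f hf K hK hadj hsa H hfix hHK)
    · subst hr3
      obtain ⟨hsa, halt⟩ := FLDp f hf 3 (by decide) K hK hadj
      exact Or.inr (Or.inr (Or.inr (Or.inr (Or.inr (Or.inr (Or.inr (Or.inl
        ⟨K, hK, hsa, halt, hHK⟩)))))))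
  -- the tensor alternative: first factor alternating, second factor symmetric
  have tens : ∀ (a b : ℕ), 2 ≤ a → 2 ≤ b → a * b = 12 → ∀ (e : Fin n ≃ Fin a × Fin b)
      (P : GL (Fin n) F) (G₁ : Matrix (Fin a) (Fin a) F) (G₂ : Matrix (Fin b) (Fin b) F),
      G₁.det ≠ 0 → G₂.det ≠ 0 → G₁ᵀ = -G₁ → (∀ i, G₁ i i = 0) → G₂ᵀ = G₂ →
      (∀ x y : Fin a × Fin b → F,
        f (P.1 *ᵥ (x ∘ e)) (P.1 *ᵥ (y ∘ e)) = formOfGram id (G₁ ⊗ₖ G₂) x y) →
      H ≤ tensorProductSubgroup a b e P → GenS12 f H := by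
    intro a b ha2 hb2 hab e P G₁ G₂ hd1 hd2 ha hz hs hid hHT
    obtain ⟨f₁, f₂, hf₁, hf₂, ht⟩ := TFS f e P G₁ G₂ hd1 hd2 ha hz hs hid
    have heva : Even a := EVENM G₁ ha hz hd1
    by_cases hq : Odd (Fintype.card F)
    swap
    · by_cases hne : ∃ v, f₂ v v ≠ 0
      · exact (TEVg hq f H hfix (by omega) hb2 e P f₁ f₂ hf₁ hf₂ hne ht hHT h1).elim
      · push Not at hne
        exact quad hq (TEVa hq f hf H hfix e P f₁ f₂ hf₁ hf₂ hne ht hHT)
    · have ha12 : a ≤ 12 := Nat.le_of_dvd (by norm_num) ⟨b, hab.symm⟩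
      interval_cases a
      all_goals first
        | exact absurd heva (by decide)
        | omega
        | (obtain rfl : b = 6 := by omega
           exact Or.inr (Or.inr (Or.inr (Or.inr (Or.inr (Or.inr (Or.inr (Or.inr (Or.inr (Or.inl
             ⟨hq, e, P, f₁, f₂, hf₁, hf₂, ht, hHT⟩))))))))))
        | (obtain rfl : b = 3 := by omega
           by_cases hq5 : 5 ≤ Fintype.card F
           · exact Or.inr (Or.inr (Or.inr (Or.inr (Or.inr (Or.inr (Or.inr (Or.inr (Or.inr (Or.inr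
               (Or.inl ⟨hq, hq5, e, P, f₁, f₂, hf₁, hf₂, ht, hHT⟩))))))))))
           · have hq3 : Fintype.card F = 3 := by
               rcases hq with ⟨c, hc⟩
               omega
             obtain ⟨D, hD, hHD⟩ := T33g hq3 f hf H hfix (by norm_num) e P f₁ f₂ hf₁ hf₂ ht hHT
             exact dec4 D hD hHD)
        | (obtain rfl : b = 2 := by omega
           by_cases hiso : ∃ v, v ≠ 0 ∧ f₂ v v = 0
           · obtain ⟨D, hD, hts, hHD⟩ :=
               T2Sa hq f hf H hfix (by norm_num) e P f₁ f₂ hf₁ hf₂ ht hHT hiso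
             exact tipair D hD hts hHD
           · push Not at hiso
             obtain ⟨K, hK, hadj, hnsa, hHK⟩ :=
               T2Sb hq f hf H hfix (by norm_num) e P f₁ f₂ hf₁ hf₂ ht hHT hiso
             exact Or.inr (Or.inr (Or.inr (Or.inr (Or.inr (Or.inr (Or.inr (Or.inr (Or.inl
               ⟨hq, K, hK, hadj, hnsa, hHK⟩)))))))))
  rcases CAP (by omega) H L h1 hL.le hL.nrm with
    ⟨t, m, D, hD, hHD, hiso, hinv, hfull⟩ | ⟨d, k, e, P, R, hR, hR1, hR2⟩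
  · -- inhomogeneous
    have htm : t * m = 12 := by rw [← hn]; exact C2 D hD
    have ht2 := hD.two_le
    obtain ⟨τ, hτ, horth, hno⟩ := PAIRa f hf L hLfix D hD hiso hinv hfull
    rcases PAIRb f hf H hfix h1 D hD hHD τ hτ horth hno with hND | ⟨hfp, hcompat⟩
    · exact decm t m D hND hHD
    · have hev : Even t := by
        have := U3_even τ hτ hfp
        simpa using this
      by_cases ht : t = 2
      · subst ht
        obtain rfl : m = 6 := by omega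
        exact tipair D hD (fun i => horth i i (hfp i).symm) hHD
      · obtain ⟨s, E, hE, hHE⟩ := PLNm f hf H D hD (by omega) hHD τ hfp hτ horth hcompat
        exact decm s (2 * m) E hE hHE
  · -- homogeneous
    have hcard : n = d * k := by
      have := Fintype.card_congr e
      simpa using this
    have hd1 : d ≠ 1 := by
      rintro rfl
      exact hL.ns (B3s e P R L hR1)
    have hd0 : d ≠ 0 := by
      rintro rfl
      simp at hcard
      omega
    have hdk : d * k = 12 := by rw [← hcard, hn]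
    by_cases hRa : ActsAbsolutelyIrreducibly (matrixSet R)
    swap
    · obtain ⟨r, K, hr, hK, hHK, hKc⟩ := coreB (by omega) H L hL.le hL.nrm e P R hR hR1 hR2 hRa
      have hhom := HOMP e P R L hR hR1 hR2
      have hadj := ADJ (by omega) f hf L hLfix hhom
        (fun Z hc hi r K K' hK hK' h1 h2 => UNIQ (by omega) Z hc hi r K K' hK hK' h1 h2) r K hK hKc
      exact fld r K hr hK hadj hHK
    · have hHT : H ≤ tensorProductSubgroup d k e P := fun h hh =>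
        (coreC e P R L hRa hR1 hR2).2 h (fun x hx => hL.nrm h hh x hx)
      by_cases hk1 : k = 1
      · -- d = 12, k = 1: L absolutely irreducible
        subst hk1
        obtain rfl : n = d := by omega
        have hLa := B3a e P R L hRa hR2
        rcases hL.min ⁅L, L⁆ (commutator_le_self L) hL.nrm.commutator with hc | hc
        · exact (SY12 hn H L ⟨hL, hLa, hc⟩).elim
        · rcases B6 H L hL hc with ⟨hs, hna⟩ | ⟨k', Ps, hk', hns, hcomm, hsup, hperm, htrans⟩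
          · by_cases hsubf : ∃ F₀ : Subfield F, F₀ ≠ ⊤ ∧ RealisableOver F₀ (matrixSet L)
            · obtain ⟨F₀, hF₀, hreal⟩ := hsubf
              obtain ⟨F₁, r, τ', hr, hcardF, hle, hfixτ⟩ := exists_subfield_aut F₀ hF₀
              obtain ⟨B, hB⟩ := hreal
              have hB₁ : ∀ s ∈ matrixSet L, ∀ i j,
                  (B.1 * s * (B⁻¹ : GL (Fin n) F).1) i j ∈ F₁ :=
                fun s hs i j => hle (hB s hs i j)
              have hHle : H ≤ subfieldSubgroup F₁ B⁻¹ := by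
                intro h hh
                have key := NL_core L hLa F₁ τ' hfixτ B hB₁ h (fun x hx => hL.nrm h hh x hx)
                unfold subfieldSubgroup
                refine ⟨B * h * B⁻¹, key, ?_⟩
                show B⁻¹ * (B * h * B⁻¹) * B⁻¹⁻¹ = h
                group
              obtain ⟨ζ, hζ, hrat⟩ := O8a (by omega) L hLa f hf.bilinear hf.nondegenerate hLfix
                F₁ τ' hfixτ B hB₁
              exact Or.inr (Or.inr (Or.inr (Or.inr (Or.inr (Or.inr (Or.inr (Or.inr (Or.inr (Or.inr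
                (Or.inr (Or.inl ⟨F₁, r, B⁻¹, ζ, hr, hcardF, hζ, hrat, hHle⟩)))))))))))
            · by_cases hQ : ∃ Q : (Fin n → F) → F, IsNondegenerateQuadraticForm Q ∧
                  FixesQuadForm (matrixSet L) Q
              · obtain ⟨Q, hQ1, hQ2⟩ := hQ
                obtain ⟨hq, hex⟩ := SQ f hf (by omega) H L hL.le hL.nrm hLa hfix Q hQ1 hQ2
                exact quad hq hex
              · refine Or.inr (Or.inr (Or.inr (Or.inr (Or.inr (Or.inr (Or.inr (Or.inr (Or.inr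
                  (Or.inr (Or.inr (Or.inr (Or.inr
                  ⟨L, B7core H L hL.le hL.nrm hLa hc hs hna ?_, hQ, ?_⟩))))))))))))
                · intro F₀ hF₀ hreal
                  exact hsubf ⟨F₀, hF₀, hreal⟩
                · rintro ⟨σ, g, hg, hgfix⟩
                  exact hsubf (O7 (by omega) L hLa f hf.bilinear hf.nondegenerate hLfix σ g hg hgfix)
          · obtain ⟨m', hm', hnm⟩ := B8D (by omega) H L hLa k' Ps hk' hns hcomm hsup hperm htrans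
            exact (not_pow12 hk' (by rw [← hn]; exact hnm)).elim
      · -- 2 ≤ d, 2 ≤ k
        have hk0 : k ≠ 0 := by
          rintro rfl
          omega
        obtain ⟨G₁, G₂, hd1', hd2', hcase, hid⟩ := TF f hf e P R L hRa hR1 hR2 hLfix
        rcases hcase with ⟨hs1, ha2, hz2⟩ | ⟨ha1, hz1, hs2⟩
        · obtain ⟨hid', heq⟩ := TFSW f e P G₁ G₂ hid
          exact tens k d (by omega) (by omega) (by rw [mul_comm]; exact hdk)
            (e.trans (Equiv.prodComm (Fin d) (Fin k))) P G₂ G₁ hd2' hd1' ha2 hz2 hs1 hid'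
            (heq ▸ hHT)
        · exact tens d k (by omega) (by omega) hdk e P G₁ G₂ hd1' hd2' ha1 hz1 hs2 hid hHT

/-- FINAL: the maximal subgroups of `Sp_12(q)`. -/
theorem finalS12 (H : Subgroup (GL (Fin 6 ⊕ Fin 6) F)) (hH : IsMaximalIn (Cfsg.spGL 6 F) H) :
    (∃ W : Submodule F (Fin 6 ⊕ Fin 6 → F), W ≠ ⊥ ∧ IsTotallySingularFor (Cfsg.sympForm 6 F) W ∧
      H = subspaceStabilizer W ⊓ Cfsg.spGL 6 F) ∨
    (∃ W : Submodule F (Fin 6 ⊕ Fin 6 → F), W ≠ ⊥ ∧ IsNondegenerateOn (Cfsg.sympForm 6 F) W ∧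
      Module.finrank F W < 6 ∧ H = subspaceStabilizer W ⊓ Cfsg.spGL 6 F) ∨
    (3 ≤ Fintype.card F ∧ ∃ D : Fin 6 → Submodule F (Fin 6 ⊕ Fin 6 → F),
      IsNondegenerateMDecomposition (Cfsg.sympForm 6 F) 2 D ∧
      H = decompositionStabilizer D ⊓ Cfsg.spGL 6 F) ∨
    (∃ D : Fin 3 → Submodule F (Fin 6 ⊕ Fin 6 → F),
      IsNondegenerateMDecomposition (Cfsg.sympForm 6 F) 4 D ∧
      H = decompositionStabilizer D ⊓ Cfsg.spGL 6 F) ∨
    (∃ D : Fin 2 → Submodule F (Fin 6 ⊕ Fin 6 → F),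
      IsNondegenerateMDecomposition (Cfsg.sympForm 6 F) 6 D ∧
      H = decompositionStabilizer D ⊓ Cfsg.spGL 6 F) ∨
    (Odd (Fintype.card F) ∧ ∃ D : Fin 2 → Submodule F (Fin 6 ⊕ Fin 6 → F), IsMDecomposition 6 D ∧
      (∀ i, IsTotallySingularFor (Cfsg.sympForm 6 F) (D i)) ∧
      H = decompositionStabilizer D ⊓ Cfsg.spGL 6 F) ∨
    (∃ K : Subalgebra F (Matrix (Fin 6 ⊕ Fin 6) (Fin 6 ⊕ Fin 6) F), IsFieldSubalgebra 2 K ∧
      IsSelfAdjointFor (Cfsg.sympForm 6 F) K ∧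
      (∀ k ∈ K, ∀ v : (Fin 6 ⊕ Fin 6 → F), (Cfsg.sympForm 6 F) (Matrix.mulVec k v) v = 0) ∧
      H = subalgebraNormalizer K ⊓ Cfsg.spGL 6 F) ∨
    (∃ K : Subalgebra F (Matrix (Fin 6 ⊕ Fin 6) (Fin 6 ⊕ Fin 6) F), IsFieldSubalgebra 3 K ∧
      IsSelfAdjointFor (Cfsg.sympForm 6 F) K ∧
      (∀ k ∈ K, ∀ v : (Fin 6 ⊕ Fin 6 → F), (Cfsg.sympForm 6 F) (Matrix.mulVec k v) v = 0) ∧
      H = subalgebraNormalizer K ⊓ Cfsg.spGL 6 F) ∨
    (Odd (Fintype.card F) ∧ ∃ K : Subalgebra F (Matrix (Fin 6 ⊕ Fin 6) (Fin 6 ⊕ Fin 6) F),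
      IsFieldSubalgebra 2 K ∧ IsAdjointClosedFor (Cfsg.sympForm 6 F) K ∧
      ¬ IsSelfAdjointFor (Cfsg.sympForm 6 F) K ∧ H = subalgebraNormalizer K ⊓ Cfsg.spGL 6 F) ∨
    (Odd (Fintype.card F) ∧
      ∃ (e : (Fin 6 ⊕ Fin 6) ≃ Fin 2 × Fin 6) (P : GL (Fin 6 ⊕ Fin 6) F)
        (f₁ : (Fin 2 → F) → (Fin 2 → F) → F) (f₂ : (Fin 6 → F) → (Fin 6 → F) → F),
        IsSymplecticForm f₁ ∧ IsSymmetricForm f₂ ∧
        IsTensorFormStructure id (Cfsg.sympForm 6 F) f₁ f₂ e P ∧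
        H = tensorProductSubgroup 2 6 e P ⊓ Cfsg.spGL 6 F) ∨
    (Odd (Fintype.card F) ∧ 5 ≤ Fintype.card F ∧
      ∃ (e : (Fin 6 ⊕ Fin 6) ≃ Fin 4 × Fin 3) (P : GL (Fin 6 ⊕ Fin 6) F)
        (f₁ : (Fin 4 → F) → (Fin 4 → F) → F) (f₂ : (Fin 3 → F) → (Fin 3 → F) → F),
        IsSymplecticForm f₁ ∧ IsSymmetricForm f₂ ∧
        IsTensorFormStructure id (Cfsg.sympForm 6 F) f₁ f₂ e P ∧
        H = tensorProductSubgroup 4 3 e P ⊓ Cfsg.spGL 6 F) ∨
    (∃ (F₀ : Subfield F) (r : ℕ) (P : GL (Fin 6 ⊕ Fin 6) F) (ζ : F), r.Prime ∧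
      Fintype.card F = Nat.card F₀ ^ r ∧ ζ ≠ 0 ∧
      IsFormRationalStructure (Cfsg.sympForm 6 F) F₀ ζ P ∧
      H = subfieldSubgroup F₀ P ⊓ Cfsg.spGL 6 F) ∨
    (¬ Odd (Fintype.card F) ∧ ∃ Q : (Fin 6 ⊕ Fin 6 → F) → F, IsNondegenerateQuadraticForm Q ∧
      (∀ u v : (Fin 6 ⊕ Fin 6 → F), QuadraticMap.polar Q u v = (Cfsg.sympForm 6 F) u v) ∧
      H = quadSimilarityGroup Q ⊓ Cfsg.spGL 6 F) ∨
    InSymplecticResidualClass H := by
  classical
  have hm2 : 2 ≤ 6 := by norm_num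
  set f₀ := Cfsg.sympForm 6 F with hf₀def
  have hf₀ : IsSymplecticForm f₀ := SFS 6
  have hcardκ : Fintype.card (Fin 6 ⊕ Fin 6) = 12 := by
    simp
  let e : Fin 6 ⊕ Fin 6 ≃ Fin 12 := Fintype.equivFinOfCardEq hcardκ
  have hfix₀ : FixesForm (matrixSet H) f₀ := fixes_of_le_sp 6 hH.1.le
  have hne : ∀ (F₀ : Subfield F) (r : ℕ), r.Prime → Fintype.card F = Nat.card F₀ ^ r →
      F₀ ≠ ⊤ := by
    intro F₁ r hr hcard htop
    rw [htop] at hcard
    have h1 : Nat.card (⊤ : Subfield F) = Fintype.card F := by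
      rw [← Nat.card_eq_fintype_card]
      exact Nat.card_congr Subfield.topEquiv.toEquiv
    rw [h1] at hcard
    have h2 : 1 < Fintype.card F := Fintype.one_lt_card
    have h3 : Fintype.card F ^ 1 < Fintype.card F ^ r :=
      Nat.pow_lt_pow_right h2 hr.one_lt
    rw [pow_one] at h3
    omega
  have hfr : Module.finrank F (Fin 6 ⊕ Fin 6 → F) = 12 := by
    rw [Module.finrank_fintype_fun_eq_card, hcardκ]
  have hg := genS12 (n := 12) rfl (tf e f₀) (TS0a e f₀ hf₀) _ (TS0b e f₀ H hfix₀)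
  unfold GenS12 at hg
  rcases hg with ⟨W', h0, hts, hle⟩ | ⟨W', h0, hnd, hdim, hle⟩ | ⟨hq, D', hD, hle⟩ |
    ⟨D', hD, hle⟩ | ⟨D', hD, hle⟩ |
    ⟨hq, D', hD, hts, hle⟩ | ⟨K', hK, hsa, halt, hle⟩ | ⟨K', hK, hsa, halt, hle⟩ |
    ⟨hq, K', hK, hadj, hnsa, hle⟩ |
    ⟨hq, e', P', f₁, f₂, hf₁, hf₂, ht, hle⟩ | ⟨hq, hq5, e', P', f₁, f₂, hf₁, hf₂, ht, hle⟩ |
    ⟨F₀, r, P', ζ, hr, hcard, hζ, hrat, hle⟩ |
    ⟨hq, Q', hQ', hpol, hle⟩ | hres
  · obtain ⟨t1, t2, t3, t4, t5⟩ := TS1 e f₀ H W'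
    have htop : tW e W' ≠ ⊤ := by
      intro htop
      have hts' := t4 hts
      rw [htop] at hts'
      have hv : (Pi.single (Sum.inl (⟨0, by omega⟩ : Fin 6)) (1 : F) : Fin 6 ⊕ Fin 6 → F) ≠ 0 := by
        intro h
        have := congrFun h (Sum.inl (⟨0, by omega⟩ : Fin 6))
        simp at this
      obtain ⟨x, hx⟩ := (hf₀.nondegenerate _ hv).1
      exact hx (hts' x Submodule.mem_top _ Submodule.mem_top)
    exact Or.inl ⟨tW e W', t2 h0, t4 hts,
      eq_inf_of_max' hH (t1 hle) (NS1 6 hm2 _ (t2 h0) htop)⟩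
  · obtain ⟨t1, t2, t3, t4, t5⟩ := TS1 e f₀ H W'
    have htop : tW e W' ≠ ⊤ := by
      intro htop
      rw [htop, finrank_top, hfr] at t3
      omega
    exact Or.inr (Or.inl ⟨tW e W', t2 h0, t5 hnd, by rw [t3]; exact hdim,
      eq_inf_of_max' hH (t1 hle) (NS1 6 hm2 _ (t2 h0) htop)⟩)
  · obtain ⟨s1, s2, s3⟩ := TS2 (m := 2) e f₀ H D'
    exact Or.inr (Or.inr (Or.inl ⟨hq, _, s3 hD,
      eq_inf_of_max' hH (s1 hle) (NS2 6 hm2 _ (s3 hD).decomp)⟩))
  · obtain ⟨s1, s2, s3⟩ := TS2 (m := 4) e f₀ H D'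
    exact Or.inr (Or.inr (Or.inr (Or.inl ⟨_, s3 hD,
      eq_inf_of_max' hH (s1 hle) (NS2 6 hm2 _ (s3 hD).decomp)⟩)))
  · obtain ⟨s1, s2, s3⟩ := TS2 (m := 6) e f₀ H D'
    exact Or.inr (Or.inr (Or.inr (Or.inr (Or.inl ⟨_, s3 hD,
      eq_inf_of_max' hH (s1 hle) (NS2 6 hm2 _ (s3 hD).decomp)⟩))))
  · obtain ⟨s1, s2, s3⟩ := TS2 (m := 6) e f₀ H D'
    exact Or.inr (Or.inr (Or.inr (Or.inr (Or.inr (Or.inl ⟨hq, _, s2 hD,
      fun i => (TS1 e f₀ H (D' i)).2.2.2.1 (hts i),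
      eq_inf_of_max' hH (s1 hle) (NS2 6 hm2 _ (s2 hD))⟩)))))
  · obtain ⟨k1, k2, k3, k4, k5⟩ := TS3 e f₀ H 2 K'
    exact Or.inr (Or.inr (Or.inr (Or.inr (Or.inr (Or.inr (Or.inl ⟨tK e K', k2 hK, k3.1 hsa,
      k5 halt, eq_inf_of_max' hH (k1 hle) (NS3 6 hm2 2 le_rfl _ (k2 hK))⟩))))))
  · obtain ⟨k1, k2, k3, k4, k5⟩ := TS3 e f₀ H 3 K'
    exact Or.inr (Or.inr (Or.inr (Or.inr (Or.inr (Or.inr (Or.inr (Or.inl ⟨tK e K', k2 hK,
      k3.1 hsa, k5 halt,
      eq_inf_of_max' hH (k1 hle) (NS3 6 hm2 3 (by norm_num) _ (k2 hK))⟩)))))))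
  · obtain ⟨k1, k2, k3, k4, k5⟩ := TS3 e f₀ H 2 K'
    exact Or.inr (Or.inr (Or.inr (Or.inr (Or.inr (Or.inr (Or.inr (Or.inr (Or.inl ⟨hq, tK e K',
      k2 hK, k4 hadj, fun h => hnsa (k3.2 h),
      eq_inf_of_max' hH (k1 hle) (NS3 6 hm2 2 le_rfl _ (k2 hK))⟩))))))))
  · obtain ⟨x1, x2⟩ := TS4 e f₀ H e' P' f₁ f₂
    exact Or.inr (Or.inr (Or.inr (Or.inr (Or.inr (Or.inr (Or.inr (Or.inr (Or.inr (Or.inl ⟨hq,
      e.trans e', (glReindex e).symm P', f₁, f₂, hf₁, hf₂, x2 ht,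
      eq_inf_of_max' hH (x1 hle) (NS4 6 hm2 le_rfl (by norm_num) _ _)⟩)))))))))
  · obtain ⟨x1, x2⟩ := TS4 e f₀ H e' P' f₁ f₂
    exact Or.inr (Or.inr (Or.inr (Or.inr (Or.inr (Or.inr (Or.inr (Or.inr (Or.inr (Or.inr (Or.inl
      ⟨hq, hq5, e.trans e', (glReindex e).symm P', f₁, f₂, hf₁, hf₂, x2 ht,
      eq_inf_of_max' hH (x1 hle) (NS4 6 hm2 (by norm_num) (by norm_num) _ _)⟩))))))))))
  · obtain ⟨u1, u2⟩ := TS5 e f₀ H F₀ ζ P'
    exact Or.inr (Or.inr (Or.inr (Or.inr (Or.inr (Or.inr (Or.inr (Or.inr (Or.inr (Or.inr (Or.inr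
      (Or.inl ⟨F₀, r, (glReindex e).symm P', ζ, hr, hcard, hζ, u2 hrat,
      eq_inf_of_max' hH (u1 hle) (NS5 6 hm2 F₀ (hne F₀ r hr hcard) _)⟩)))))))))))
  · obtain ⟨q1, q2, q3⟩ := TS9 e f₀ H Q'
    exact Or.inr (Or.inr (Or.inr (Or.inr (Or.inr (Or.inr (Or.inr (Or.inr (Or.inr (Or.inr (Or.inr
      (Or.inr (Or.inl ⟨hq, tQi e Q', q1 hQ', q2 hpol,
      eq_inf_of_max' hH (q3 hle) (NS9 6 hm2 _ (q1 hQ') (q2 hpol))⟩))))))))))))
  · exact Or.inr (Or.inr (Or.inr (Or.inr (Or.inr (Or.inr (Or.inr (Or.inr (Or.inr (Or.inr (Or.inr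
      (Or.inr (Or.inr (TRS e H hres)))))))))))))

end Cfsg.Agent.Lib.Helper71.SP12Main
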