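import Mathlib
import Cfsg.Prelude.Def_GeometricClasses
import Cfsg.Prelude.Def_LieClassical
import Cfsg.Agent.Lib.Helper71.SPPMain
import Cfsg.Agent.Lib.Helper71.SP12Main
import Cfsg.Agent.Lib.Helper1.SPGXT
import Cfsg.Agent.Lib.Helper71.SPGTIF
import Cfsg.Agent.Lib.Helper85.SPGTS6
import Cfsg.Agent.Lib.Helper60.SPGTS7

/-! Project SPG (helper71): the subgroup structure theorem for `Sp_{2m}(q)` (statement S5662), on
top of the projects SPP and SP12.  The new pieces are proved by the team (see the imports and the restatements below). -/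

set_option autoImplicit false

namespace Cfsg.Agent.Lib.Helper71.SPGMain

open Matrix Cfsg.Geo Cfsg.Agent.Lib.Helper71.Asch Cfsg.Agent.Lib.Helper71.SPPMain
open scoped Kronecker
open Cfsg.Agent.Lib.Helper82.ASCOREB (coreB)
open Cfsg.Agent.Lib.Helper21.ASCOREC (coreC)
open Cfsg.Agent.Lib.Helper46.ASB3s (B3s B3a)
open Cfsg.Agent.Lib.Helper46.ASB4 (not_le_scalars)
open Cfsg.Agent.Lib.Helper61.ASB6 (B6)
open Cfsg.Agent.Lib.Helper67.ASNL (NL_core exists_subfield_aut)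
open Cfsg.Agent.Lib.Helper46.ASB7core (B7core)
open Cfsg.Agent.Lib.Helper73.SLPC2 (C2)
open Cfsg.Agent.Lib.Helper16.SLPC3 (C3)
open Cfsg.Agent.Lib.Helper1.SUPU3 (U3_even)
open Cfsg.Agent.Lib.Helper77.OMPO7 (O7)
open Cfsg.Agent.Lib.Helper54.OMPO8a (O8a)
open Cfsg.Agent.Lib.Helper75.SPPEVEN (EVEN)
open Cfsg.Agent.Lib.Helper20.SPPEVENM (EVENM)
open Cfsg.Agent.Lib.Helper63.SPPS1 (S1)
open Cfsg.Agent.Lib.Helper86.SPPCAP (CAP)
open Cfsg.Agent.Lib.Helper76.SPPPAIRa (PAIRa)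
open Cfsg.Agent.Lib.Helper39.SPPPAIRb (PAIRb)
open Cfsg.Agent.Lib.Helper19.SPPQTI (QTI)
open Cfsg.Agent.Lib.Helper83.SPPHOMP (HOMP)
open Cfsg.Agent.Lib.Helper10.SPPUNIQ (UNIQ)
open Cfsg.Agent.Lib.Helper89.SPPADJ (ADJ)
open Cfsg.Agent.Lib.Helper66.SPPFLDp (FLDp)
open Cfsg.Agent.Lib.Helper75.SPPFLD2b (FLD2b)
open Cfsg.Agent.Lib.Helper40.SPPTF (TF)
open Cfsg.Agent.Lib.Helper40.SPPTFSW (TFSW)
open Cfsg.Agent.Lib.Helper68.SPPTFS (TFS)
open Cfsg.Agent.Lib.Helper39.SPPSQ (SQ)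
open Cfsg.Agent.Lib.Helper71.SP12Main (HALF PLNm FLDsa TEVg TEVa T2Sa T2Sb)

variable {n : ℕ} {F : Type*} [Field F] [Fintype F]

/-! ## New pieces (restated; proofs in the imported team modules) -/

/-- XT: the symplectic-type branch.  A minimal non-scalar normal subgroup `L` of `H`, absolutely
irreducible with `⁅L, L⁆` scalar, inside the isometry group of a symplectic form: either `q = p`
is an odd prime and `L` is a 2-group of symplectic type, of order `2^(1+2k)`, with centre of order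
2 and of minus type, or `L` is realisable over a proper subfield. -/
theorem XT (hn : 4 ≤ n) (f : (Fin n → F) → (Fin n → F) → F) (hf : IsSymplecticForm f)
    (H L : Subgroup (GL (Fin n) F)) (hfix : FixesForm (matrixSet H) f) (h : SymT H L) :
    (∃ p k : ℕ, p.Prime ∧ Odd p ∧ Fintype.card F = p ∧ IsSymplecticTypeGroup 2 L ∧
      Nat.card L = 2 ^ (1 + 2 * k) ∧ Nat.card (Subgroup.center L) = 2 ∧ IsOfMinusType k L) ∨
    (∃ F₀ : Subfield F, F₀ ≠ ⊤ ∧ RealisableOver F₀ (matrixSet L)) := by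
  exact Cfsg.Agent.Lib.Helper1.SPGXT.XT hn f hf H L hfix h

/-- TIF: the tensor-induced branch.  `L = ⁅L, L⁆` absolutely irreducible, the product of `k ≥ 2`
pairwise commuting non-scalar subgroups permuted transitively by `H`, inside the isometry group
of a symplectic form: for `q` odd the form is an odd tensor power of a symplectic form and `H`
lies in the tensor-wreath subgroup; for `q` even `H` fixes a quadratic form with polar form `f`. -/
theorem TIF (hn : 4 ≤ n) (f : (Fin n → F) → (Fin n → F) → F) (hf : IsSymplecticForm f)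
    (H L : Subgroup (GL (Fin n) F)) (hfix : FixesForm (matrixSet H) f) (hL : IsMinNS H L)
    (hLa : ActsAbsolutelyIrreducibly (matrixSet L)) (hc : ⁅L, L⁆ = L)
    (k : ℕ) (Ps : Fin k → Subgroup (GL (Fin n) F)) (hk : 2 ≤ k)
    (hns : ∀ i, ¬ Ps i ≤ scalars (Fin n) F)
    (hcomm : ∀ i j, i ≠ j → ∀ x ∈ Ps i, ∀ y ∈ Ps j, x * y = y * x)
    (hsup : L = ⨆ i, Ps i)
    (hperm : ∀ h ∈ H, ∃ σ : Equiv.Perm (Fin k), ∀ i,
      (Ps i).map (MulAut.conj h).toMonoidHom = Ps (σ i))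
    (htrans : ∀ i j, ∃ h ∈ H, (Ps i).map (MulAut.conj h).toMonoidHom = Ps j) :
    (Odd (Fintype.card F) ∧ ∃ (d t : ℕ) (e : Fin n ≃ (Fin t → Fin d)) (P : GL (Fin n) F)
      (f₁ : (Fin d → F) → (Fin d → F) → F), Odd t ∧ 3 ≤ t ∧ ¬ (Fintype.card F = 3 ∧ d = 2) ∧
      IsSymplecticForm f₁ ∧ IsTensorPowerFormStructure id f f₁ e P ∧
      H ≤ tensorWreathSubgroup d t e P) ∨
    (¬ Odd (Fintype.card F) ∧ ∃ Q : (Fin n → F) → F, IsNondegenerateQuadraticForm Q ∧
      (∀ u v : Fin n → F, QuadraticMap.polar Q u v = f u v) ∧ H ≤ quadSimilarityGroup Q) := by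
  exact Cfsg.Agent.Lib.Helper71.SPGTIF.TIF hn f hf H L hfix hL hLa hc k Ps hk hns hcomm hsup hperm htrans

section Transport

variable {κ : Type} [Fintype κ] [DecidableEq κ]

/-- TS6: transport of the symplectic-type clause along `e : κ ≃ Fin n`. -/
theorem TS6 (e : κ ≃ Fin n) (f : (κ → F) → (κ → F) → F) (H : Subgroup (GL κ F))
    (R' : Subgroup (GL (Fin n) F)) (k : ℕ) :
    (H.map (glReindex e).toMonoidHom ≤ subgroupNormalizer R' →
      H ≤ subgroupNormalizer (R'.comap (glReindex e).toMonoidHom)) ∧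
    (IsSymplecticTypeGroup 2 R' → IsSymplecticTypeGroup 2 (R'.comap (glReindex e).toMonoidHom)) ∧
    (ActsAbsolutelyIrreducibly (matrixSet R') →
      ActsAbsolutelyIrreducibly (matrixSet (R'.comap (glReindex e).toMonoidHom))) ∧
    (R' ≤ similarityGroup (tf e f) → R'.comap (glReindex e).toMonoidHom ≤ similarityGroup f) ∧
    Nat.card (R'.comap (glReindex e).toMonoidHom) = Nat.card R' ∧
    Nat.card (Subgroup.center (R'.comap (glReindex e).toMonoidHom)) =
      Nat.card (Subgroup.center R') ∧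
    (IsOfMinusType k R' → IsOfMinusType k (R'.comap (glReindex e).toMonoidHom)) := by
  exact Cfsg.Agent.Lib.Helper85.SPGTS6.TS6 e f H R' k

/-- TS7: transport of the tensor-power clause along `e : κ ≃ Fin n`. -/
theorem TS7 (e : κ ≃ Fin n) (f : (κ → F) → (κ → F) → F) (H : Subgroup (GL κ F)) {d t : ℕ}
    (e' : Fin n ≃ (Fin t → Fin d)) (P' : GL (Fin n) F) (f₁ : (Fin d → F) → (Fin d → F) → F) :
    (H.map (glReindex e).toMonoidHom ≤ tensorWreathSubgroup d t e' P' →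
      H ≤ tensorWreathSubgroup d t (e.trans e') ((glReindex e).symm P')) ∧
    (IsTensorPowerFormStructure id (tf e f) f₁ e' P' →
      IsTensorPowerFormStructure id f f₁ (e.trans e') ((glReindex e).symm P')) := by
  exact Cfsg.Agent.Lib.Helper60.SPGTS7.TS7 e f H e' P' f₁

end Transport

/-! ## Assembly (helper71) -/

/-- The normal form of a group of isometries of a symplectic form in dimension `n = 2 m`. -/
def GenSG (m : ℕ) (f : (Fin n → F) → (Fin n → F) → F) (H : Subgroup (GL (Fin n) F)) : Prop :=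
  (∃ W : Submodule F (Fin n → F), W ≠ ⊥ ∧ IsTotallySingularFor f W ∧ H ≤ subspaceStabilizer W) ∨
  (∃ W : Submodule F (Fin n → F), W ≠ ⊥ ∧ IsNondegenerateOn f W ∧ Module.finrank F W < m ∧
    H ≤ subspaceStabilizer W) ∨
  (∃ (t k : ℕ) (D : Fin t → Submodule F (Fin n → F)),
    IsNondegenerateMDecomposition f k D ∧ H ≤ decompositionStabilizer D) ∨
  (∃ D : Fin 2 → Submodule F (Fin n → F), Odd (Fintype.card F) ∧ IsMDecomposition m D ∧
    (∀ i, IsTotallySingularFor f (D i)) ∧ H ≤ decompositionStabilizer D) ∨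
  (∃ (F₀ : Subfield F) (r : ℕ) (P : GL (Fin n) F) (ζ : F), r.Prime ∧
    Fintype.card F = Nat.card F₀ ^ r ∧ ζ ≠ 0 ∧ IsFormRationalStructure f F₀ ζ P ∧
    H ≤ subfieldSubgroup F₀ P) ∨
  (∃ (R : Subgroup (GL (Fin n) F)) (p k : ℕ), IsSymplecticTypeGroup 2 R ∧
    ActsAbsolutelyIrreducibly (matrixSet R) ∧ R ≤ similarityGroup f ∧ p.Prime ∧ Odd p ∧
    Fintype.card F = p ∧ Nat.card R = 2 ^ (1 + 2 * k) ∧ Nat.card (Subgroup.center R) = 2 ∧
    IsOfMinusType k R ∧ H ≤ subgroupNormalizer R) ∨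
  (∃ Q : (Fin n → F) → F, ¬ Odd (Fintype.card F) ∧ IsNondegenerateQuadraticForm Q ∧
    (∀ u v : Fin n → F, QuadraticMap.polar Q u v = f u v) ∧ H ≤ quadSimilarityGroup Q) ∨
  (∃ (r : ℕ) (K : Subalgebra F (Matrix (Fin n) (Fin n) F)), r.Prime ∧ IsFieldSubalgebra r K ∧
    IsSelfAdjointFor f K ∧ (∀ k ∈ K, ∀ v : Fin n → F, f (k *ᵥ v) v = 0) ∧
    H ≤ subalgebraNormalizer K) ∨
  (∃ K : Subalgebra F (Matrix (Fin n) (Fin n) F), Odd (Fintype.card F) ∧ IsFieldSubalgebra 2 K ∧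
    IsAdjointClosedFor f K ∧ ¬ IsSelfAdjointFor f K ∧ H ≤ subalgebraNormalizer K) ∨
  (∃ (n₁ n₂ : ℕ) (e : Fin n ≃ Fin n₁ × Fin n₂) (P : GL (Fin n) F)
    (f₁ : (Fin n₁ → F) → (Fin n₁ → F) → F) (f₂ : (Fin n₂ → F) → (Fin n₂ → F) → F),
    Odd (Fintype.card F) ∧ 3 ≤ n₂ ∧ IsSymplecticForm f₁ ∧ IsSymmetricForm f₂ ∧
    IsTensorFormStructure id f f₁ f₂ e P ∧ H ≤ tensorProductSubgroup n₁ n₂ e P) ∨
  (∃ (k t : ℕ) (e : Fin n ≃ (Fin t → Fin k)) (P : GL (Fin n) F)
    (f₁ : (Fin k → F) → (Fin k → F) → F), Odd (Fintype.card F) ∧ Odd t ∧ 3 ≤ t ∧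
    ¬ (Fintype.card F = 3 ∧ k = 2) ∧ IsSymplecticForm f₁ ∧
    IsTensorPowerFormStructure id f f₁ e P ∧ H ≤ tensorWreathSubgroup k t e P) ∨
  InSymplecticResidualClass H

/-- GENSG: the structure of a group of isometries of a symplectic form in dimension `2 m ≥ 4`. -/
theorem genSG (m : ℕ) (hm : 2 ≤ m) (hn : n = 2 * m) (f : (Fin n → F) → (Fin n → F) → F)
    (hf : IsSymplecticForm f) (H : Subgroup (GL (Fin n) F))
    (hfix : FixesForm (matrixSet H) f) : GenSG m f H := by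
  classical
  have hq1 : 1 < Fintype.card F := Fintype.one_lt_card
  -- the quadratic alternative
  have quad : ¬ Odd (Fintype.card F) → (∃ Q : (Fin n → F) → F, IsNondegenerateQuadraticForm Q ∧
      (∀ u v : Fin n → F, QuadraticMap.polar Q u v = f u v) ∧ H ≤ quadSimilarityGroup Q) →
      GenSG m f H := by
    rintro hq ⟨Q, hQ, hpol, hHQ⟩
    exact Or.inr (Or.inr (Or.inr (Or.inr (Or.inr (Or.inr (Or.inl ⟨Q, hq, hQ, hpol, hHQ⟩))))))
  -- non-degenerate decompositions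
  have decm : ∀ (t k : ℕ) (D : Fin t → Submodule F (Fin n → F)),
      IsNondegenerateMDecomposition f k D → H ≤ decompositionStabilizer D → GenSG m f H :=
    fun t k D hND hHD => Or.inr (Or.inr (Or.inl ⟨t, k, D, hND, hHD⟩))
  -- a pair of complementary totally singular subspaces
  have tipair : ∀ (m' : ℕ) (D : Fin 2 → Submodule F (Fin n → F)), IsMDecomposition m' D →
      (∀ i, IsTotallySingularFor f (D i)) → H ≤ decompositionStabilizer D → GenSG m f H := by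
    intro m' D hD hts hHD
    have h2m : 2 * m' = n := C2 D hD
    obtain rfl : m' = m := by omega
    by_cases hq : Odd (Fintype.card F)
    · exact Or.inr (Or.inr (Or.inr (Or.inl ⟨D, hq, hD, hts, hHD⟩)))
    · exact quad hq (QTI hq f hf H hfix D hD hts hHD)
  -- the subfield alternative for an absolutely irreducible normal subgroup
  have subf : ∀ L : Subgroup (GL (Fin n) F), Nrm H L → ActsAbsolutelyIrreducibly (matrixSet L) →
      FixesForm (matrixSet L) f →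
      (∃ F₀ : Subfield F, F₀ ≠ ⊤ ∧ RealisableOver F₀ (matrixSet L)) → GenSG m f H := by
    rintro L hnrm hLa hLfix ⟨F₀, hF₀, hreal⟩
    obtain ⟨F₁, r, τ', hr, hcardF, hle, hfixτ⟩ := exists_subfield_aut F₀ hF₀
    obtain ⟨B, hB⟩ := hreal
    have hB₁ : ∀ s ∈ matrixSet L, ∀ i j,
        (B.1 * s * (B⁻¹ : GL (Fin n) F).1) i j ∈ F₁ :=
      fun s hs i j => hle (hB s hs i j)
    have hHle : H ≤ subfieldSubgroup F₁ B⁻¹ := by
      intro h hh
      have key := NL_core L hLa F₁ τ' hfixτ B hB₁ h (fun x hx => hnrm h hh x hx)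
      unfold subfieldSubgroup
      refine ⟨B * h * B⁻¹, key, ?_⟩
      show B⁻¹ * (B * h * B⁻¹) * B⁻¹⁻¹ = h
      group
    obtain ⟨ζ, hζ, hrat⟩ := O8a (by omega) L hLa f hf.bilinear hf.nondegenerate hLfix
      F₁ τ' hfixτ B hB₁
    exact Or.inr (Or.inr (Or.inr (Or.inr (Or.inl
      ⟨F₁, r, B⁻¹, ζ, hr, hcardF, hζ, hrat, hHle⟩))))
  by_cases h1 : ActsIrreducibly (matrixSet H)
  swap
  · rcases S1 f hf H hfix h1 with ⟨W, h0, hts, hle⟩ | ⟨W, h0, hnd, hdim, hle⟩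
    · exact Or.inl ⟨W, h0, hts, hle⟩
    · by_cases hlt : Module.finrank F W < m
      · exact Or.inr (Or.inl ⟨W, h0, hnd, hlt, hle⟩)
      · have h6 : Module.finrank F W = m := by omega
        obtain ⟨D, hD, hHD⟩ := HALF f hf H hfix W m (by omega) hn h6 hnd hle
        exact decm 2 m D hD hHD
  obtain ⟨L, hL⟩ := exists_minNS (by omega) H h1
  have hLfix : FixesForm (matrixSet L) f := by
    rintro _ ⟨g, hg, rfl⟩ u v
    exact hfix _ ⟨g, hL.le hg, rfl⟩ u v
  -- the field alternative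
  have fld : ∀ (r : ℕ) (K : Subalgebra F (Matrix (Fin n) (Fin n) F)), r.Prime →
      IsFieldSubalgebra r K → IsAdjointClosedFor f K → H ≤ subalgebraNormalizer K →
      GenSG m f H := by
    intro r K hr hK hadj hHK
    rcases hr.eq_two_or_odd' with hr2 | hrodd
    · subst hr2
      by_cases hsa : IsSelfAdjointFor f K
      · exact Or.inr (Or.inr (Or.inr (Or.inr (Or.inr (Or.inr (Or.inr (Or.inl
          ⟨2, K, hr, hK, hsa, FLDsa f hf 2 K hK hsa, hHK⟩)))))))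
      · by_cases hq : Odd (Fintype.card F)
        · exact Or.inr (Or.inr (Or.inr (Or.inr (Or.inr (Or.inr (Or.inr (Or.inr (Or.inl
            ⟨K, hq, hK, hadj, hsa, hHK⟩))))))))
        · exact quad hq (FLD2b hq f hf K hK hadj hsa H hfix hHK)
    · obtain ⟨hsa, halt⟩ := FLDp f hf r hrodd K hK hadj
      exact Or.inr (Or.inr (Or.inr (Or.inr (Or.inr (Or.inr (Or.inr (Or.inl
        ⟨r, K, hr, hK, hsa, halt, hHK⟩)))))))
  -- the tensor alternative: first factor alternating, second factor symmetric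
  have tens : ∀ (a b : ℕ), 2 ≤ a → 2 ≤ b → a * b = n → ∀ (e : Fin n ≃ Fin a × Fin b)
      (P : GL (Fin n) F) (G₁ : Matrix (Fin a) (Fin a) F) (G₂ : Matrix (Fin b) (Fin b) F),
      G₁.det ≠ 0 → G₂.det ≠ 0 → G₁ᵀ = -G₁ → (∀ i, G₁ i i = 0) → G₂ᵀ = G₂ →
      (∀ x y : Fin a × Fin b → F,
        f (P.1 *ᵥ (x ∘ e)) (P.1 *ᵥ (y ∘ e)) = formOfGram id (G₁ ⊗ₖ G₂) x y) →
      H ≤ tensorProductSubgroup a b e P → GenSG m f H := by
    intro a b ha2 hb2 hab e P G₁ G₂ hd1 hd2 ha hz hs hid hHT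
    obtain ⟨f₁, f₂, hf₁, hf₂, ht⟩ := TFS f e P G₁ G₂ hd1 hd2 ha hz hs hid
    by_cases hq : Odd (Fintype.card F)
    swap
    · by_cases hne : ∃ v, f₂ v v ≠ 0
      · exact (TEVg hq f H hfix (by omega) hb2 e P f₁ f₂ hf₁ hf₂ hne ht hHT h1).elim
      · push Not at hne
        exact quad hq (TEVa hq f hf H hfix e P f₁ f₂ hf₁ hf₂ hne ht hHT)
    · by_cases hb3 : 3 ≤ b
      · exact Or.inr (Or.inr (Or.inr (Or.inr (Or.inr (Or.inr (Or.inr (Or.inr (Or.inr (Or.inl
          ⟨a, b, e, P, f₁, f₂, hq, hb3, hf₁, hf₂, ht, hHT⟩)))))))))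
      · obtain rfl : b = 2 := by omega
        by_cases hiso : ∃ v, v ≠ 0 ∧ f₂ v v = 0
        · obtain ⟨D, hD, hts, hHD⟩ :=
            T2Sa hq f hf H hfix (by omega) e P f₁ f₂ hf₁ hf₂ ht hHT hiso
          exact tipair a D hD hts hHD
        · push Not at hiso
          obtain ⟨K, hK, hadj, hnsa, hHK⟩ :=
            T2Sb hq f hf H hfix (by omega) e P f₁ f₂ hf₁ hf₂ ht hHT hiso
          exact Or.inr (Or.inr (Or.inr (Or.inr (Or.inr (Or.inr (Or.inr (Or.inr (Or.inl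
            ⟨K, hq, hK, hadj, hnsa, hHK⟩))))))))
  rcases CAP (by omega) H L h1 hL.le hL.nrm with
    ⟨t, m', D, hD, hHD, hiso, hinv, hfull⟩ | ⟨d, k, e, P, R, hR, hR1, hR2⟩
  · -- inhomogeneous
    have ht2 := hD.two_le
    obtain ⟨τ, hτ, horth, hno⟩ := PAIRa f hf L hLfix D hD hiso hinv hfull
    rcases PAIRb f hf H hfix h1 D hD hHD τ hτ horth hno with hND | ⟨hfp, hcompat⟩
    · exact decm t m' D hND hHD
    · by_cases ht : t = 2
      · subst ht
        exact tipair m' D hD (fun i => horth i i (hfp i).symm) hHD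
      · obtain ⟨s, E, hE, hHE⟩ := PLNm f hf H D hD (by omega) hHD τ hfp hτ horth hcompat
        exact decm s (2 * m') E hE hHE
  · -- homogeneous
    have hcard : n = d * k := by
      have := Fintype.card_congr e
      simpa using this
    have hd1 : d ≠ 1 := by
      rintro rfl
      exact hL.ns (B3s e P R L hR1)
    have hd0 : d ≠ 0 := by
      rintro rfl
      simp at hcard
      omega
    by_cases hRa : ActsAbsolutelyIrreducibly (matrixSet R)
    swap
    · obtain ⟨r, K, hr, hK, hHK, hKc⟩ := coreB (by omega) H L hL.le hL.nrm e P R hR hR1 hR2 hRa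
      have hhom := HOMP e P R L hR hR1 hR2
      have hadj := ADJ (by omega) f hf L hLfix hhom
        (fun Z hc hi r K K' hK hK' h1 h2 => UNIQ (by omega) Z hc hi r K K' hK hK' h1 h2) r K hK hKc
      exact fld r K hr hK hadj hHK
    · have hHT : H ≤ tensorProductSubgroup d k e P := fun h hh =>
        (coreC e P R L hRa hR1 hR2).2 h (fun x hx => hL.nrm h hh x hx)
      by_cases hk1 : k = 1
      · -- k = 1: L absolutely irreducible
        subst hk1
        obtain rfl : n = d := by omega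
        have hLa := B3a e P R L hRa hR2
        rcases hL.min ⁅L, L⁆ (commutator_le_self L) hL.nrm.commutator with hc | hc
        · rcases XT (by omega) f hf H L hfix ⟨hL, hLa, hc⟩ with
            ⟨p, k, hp, hpodd, hqp, hst, hcardL, hcen, hminus⟩ | hsub
          · refine Or.inr (Or.inr (Or.inr (Or.inr (Or.inr (Or.inl
              ⟨L, p, k, hst, hLa, ?_, hp, hpodd, hqp, hcardL, hcen, hminus, ?_⟩)))))
            · intro x hx
              exact ⟨1, fun u v => by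
                rw [Units.val_one, one_mul]
                exact hLfix _ ⟨x, hx, rfl⟩ u v⟩
            · intro h hh
              show h ∈ Subgroup.normalizer (L : Set (GL (Fin n) F))
              rw [Subgroup.mem_normalizer_iff]
              intro x
              constructor
              · intro hx
                exact hL.nrm h hh x hx
              · intro hx
                have := hL.nrm h⁻¹ (H.inv_mem hh) _ hx
                simpa [mul_assoc] using this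
          · exact subf L hL.nrm hLa hLfix hsub
        · rcases B6 H L hL hc with ⟨hs, hna⟩ | ⟨k', Ps, hk', hns, hcomm, hsup, hperm, htrans⟩
          · by_cases hsubf : ∃ F₀ : Subfield F, F₀ ≠ ⊤ ∧ RealisableOver F₀ (matrixSet L)
            · exact subf L hL.nrm hLa hLfix hsubf
            · by_cases hQ : ∃ Q : (Fin n → F) → F, IsNondegenerateQuadraticForm Q ∧
                  FixesQuadForm (matrixSet L) Q
              · obtain ⟨Q, hQ1, hQ2⟩ := hQ
                obtain ⟨hq, hex⟩ := SQ f hf (by omega) H L hL.le hL.nrm hLa hfix Q hQ1 hQ2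
                exact quad hq hex
              · refine Or.inr (Or.inr (Or.inr (Or.inr (Or.inr (Or.inr (Or.inr (Or.inr (Or.inr
                  (Or.inr (Or.inr
                  ⟨L, B7core H L hL.le hL.nrm hLa hc hs hna ?_, hQ, ?_⟩))))))))))
                · intro F₀ hF₀ hreal
                  exact hsubf ⟨F₀, hF₀, hreal⟩
                · rintro ⟨σ, g, hg, hgfix⟩
                  exact hsubf (O7 (by omega) L hLa f hf.bilinear hf.nondegenerate hLfix σ g hg hgfix)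
          · rcases TIF (by omega) f hf H L hfix hL hLa hc k' Ps hk' hns hcomm hsup hperm htrans
              with ⟨hq, d', t, e', P', f₁, hto, ht3, hex, hf₁, htp, hHW⟩ | ⟨hq, hex⟩
            · exact Or.inr (Or.inr (Or.inr (Or.inr (Or.inr (Or.inr (Or.inr (Or.inr (Or.inr
                (Or.inr (Or.inl ⟨d', t, e', P', f₁, hq, hto, ht3, hex, hf₁, htp, hHW⟩))))))))))
            · exact quad hq hex
      · -- 2 ≤ d, 2 ≤ k
        have hk0 : k ≠ 0 := by
          rintro rfl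
          omega
        obtain ⟨G₁, G₂, hd1', hd2', hcase, hid⟩ := TF f hf e P R L hRa hR1 hR2 hLfix
        rcases hcase with ⟨hs1, ha2, hz2⟩ | ⟨ha1, hz1, hs2⟩
        · obtain ⟨hid', heq⟩ := TFSW f e P G₁ G₂ hid
          exact tens k d (by omega) (by omega) (by rw [mul_comm]; exact hcard.symm)
            (e.trans (Equiv.prodComm (Fin d) (Fin k))) P G₂ G₁ hd2' hd1' ha2 hz2 hs1 hid'
            (heq ▸ hHT)
        · exact tens d k (by omega) (by omega) hcard.symm e P G₁ G₂ hd1' hd2' ha1 hz1 hs2 hid hHT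

/-- FINAL: the subgroup structure theorem for `Sp_{2m}(q)`, `m ≥ 2`. -/
theorem finalSG (m : ℕ) (hm : 2 ≤ m) (H : Subgroup (GL (Fin m ⊕ Fin m) F))
    (hH : H ≤ Cfsg.spGL m F) :
    (∃ M : Subgroup (GL (Fin m ⊕ Fin m) F), InSymplecticClass m F M ∧ H ≤ M) ∨
      InSymplecticResidualClass H := by
  classical
  set f₀ := Cfsg.sympForm m F with hf₀def
  have hf₀ : IsSymplecticForm f₀ := SFS m
  have hcardκ : Fintype.card (Fin m ⊕ Fin m) = 2 * m := by
    simp
    ring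
  let e : Fin m ⊕ Fin m ≃ Fin (2 * m) := Fintype.equivFinOfCardEq hcardκ
  have hfix₀ : FixesForm (matrixSet H) f₀ := fixes_of_le_sp m hH
  have hg := genSG (n := 2 * m) m hm rfl (tf e f₀) (TS0a e f₀ hf₀) _ (TS0b e f₀ H hfix₀)
  unfold GenSG at hg
  rcases hg with ⟨W', h0, hts, hle⟩ | ⟨W', h0, hnd, hdim, hle⟩ | ⟨t, k, D', hD, hle⟩ |
    ⟨D', hq, hD, hts, hle⟩ | ⟨F₀, r, P', ζ, hr, hcard, hζ, hrat, hle⟩ |
    ⟨R', p, k, hst, hRa, hRsim, hp, hpodd, hqp, hcardR, hcen, hminus, hle⟩ |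
    ⟨Q', hq, hQ', hpol, hle⟩ | ⟨r, K', hr, hK, hsa, halt, hle⟩ |
    ⟨K', hq, hK, hadj, hnsa, hle⟩ | ⟨n₁, n₂, e', P', f₁, f₂, hq, hn₂, hf₁, hf₂, ht, hle⟩ |
    ⟨k, t, e', P', f₁, hq, hto, ht3, hex, hf₁, htp, hle⟩ | hres
  · obtain ⟨t1, t2, t3, t4, t5⟩ := TS1 e f₀ H W'
    exact Or.inl ⟨_, Or.inl (Or.inl ⟨tW e W', t2 h0, t4 hts, rfl⟩), le_inf (t1 hle) hH⟩
  · obtain ⟨t1, t2, t3, t4, t5⟩ := TS1 e f₀ H W'
    exact Or.inl ⟨_, Or.inl (Or.inr (Or.inl ⟨tW e W', t2 h0, t5 hnd, by rw [t3]; exact hdim, rfl⟩)),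
      le_inf (t1 hle) hH⟩
  · obtain ⟨s1, s2, s3⟩ := TS2 (m := k) e f₀ H D'
    exact Or.inl ⟨_, Or.inl (Or.inr (Or.inr (Or.inl ⟨t, k, _, s3 hD, rfl⟩))),
      le_inf (s1 hle) hH⟩
  · obtain ⟨s1, s2, s3⟩ := TS2 (m := m) e f₀ H D'
    exact Or.inl ⟨_, Or.inl (Or.inr (Or.inr (Or.inr (Or.inl ⟨_, hq, s2 hD,
      fun i => (TS1 e f₀ H (D' i)).2.2.2.1 (hts i), rfl⟩)))), le_inf (s1 hle) hH⟩
  · obtain ⟨u1, u2⟩ := TS5 e f₀ H F₀ ζ P'
    exact Or.inl ⟨_, Or.inl (Or.inr (Or.inr (Or.inr (Or.inr (Or.inl ⟨F₀, r,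
      (glReindex e).symm P', ζ, hr, hcard, hζ, u2 hrat, rfl⟩))))), le_inf (u1 hle) hH⟩
  · obtain ⟨r1, r2, r3, r4, r5, r6, r7⟩ := TS6 e f₀ H R' k
    exact Or.inl ⟨_, Or.inl (Or.inr (Or.inr (Or.inr (Or.inr (Or.inr (Or.inl
      ⟨R'.comap (glReindex e).toMonoidHom, p, k, r2 hst, r3 hRa, r4 hRsim, hp, hpodd, hqp,
        by rw [r5]; exact hcardR, by rw [r6]; exact hcen, r7 hminus, rfl⟩)))))),
      le_inf (r1 hle) hH⟩
  · obtain ⟨q1, q2, q3⟩ := TS9 e f₀ H Q'
    exact Or.inl ⟨_, Or.inl (Or.inr (Or.inr (Or.inr (Or.inr (Or.inr (Or.inr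
      ⟨tQi e Q', hq, q1 hQ', q2 hpol, rfl⟩)))))), le_inf (q3 hle) hH⟩
  · obtain ⟨k1, k2, k3, k4, k5⟩ := TS3 e f₀ H r K'
    exact Or.inl ⟨_, Or.inr (Or.inl ⟨r, tK e K', hr, k2 hK, k3.1 hsa, k5 halt, rfl⟩),
      le_inf (k1 hle) hH⟩
  · obtain ⟨k1, k2, k3, k4, k5⟩ := TS3 e f₀ H 2 K'
    exact Or.inl ⟨_, Or.inr (Or.inr (Or.inl ⟨tK e K', hq, k2 hK, k4 hadj,
      fun h => hnsa (k3.2 h), rfl⟩)), le_inf (k1 hle) hH⟩
  · obtain ⟨x1, x2⟩ := TS4 e f₀ H e' P' f₁ f₂
    exact Or.inl ⟨_, Or.inr (Or.inr (Or.inr (Or.inl ⟨n₁, n₂, e.trans e',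
      (glReindex e).symm P', f₁, f₂, hq, hn₂, hf₁, hf₂, x2 ht, rfl⟩))), le_inf (x1 hle) hH⟩
  · obtain ⟨w1, w2⟩ := TS7 e f₀ H e' P' f₁
    exact Or.inl ⟨_, Or.inr (Or.inr (Or.inr (Or.inr ⟨k, t, e.trans e',
      (glReindex e).symm P', f₁, hq, hto, ht3, hex, hf₁, w2 htp, rfl⟩))), le_inf (w1 hle) hH⟩
  · exact Or.inr (TRS e H hres)

end Cfsg.Agent.Lib.Helper71.SPGMain
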