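import Mathlib
import Cfsg.Prelude.Def_GeometricClasses
import Cfsg.Prelude.Def_LieClassical
import Cfsg.Agent.Lib.Helper71.SPGMain
import Cfsg.Agent.Lib.Helper1.SP8EA
import Cfsg.Agent.Lib.Helper52.SP8EBMain
import Cfsg.Agent.Lib.Helper92.SP8NS6
import Cfsg.Agent.Lib.Helper21.SP8NS8

/-! Project SP8 (helper71): the maximal subgroups of `Sp_8(q)` (statement S5823), on top of the
projects SPP, SP12 and SPG.  The new pieces are proved by the team (see the imports and the restatements below). -/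

set_option autoImplicit false

namespace Cfsg.Agent.Lib.Helper71.SP8Main

open Matrix Cfsg.Geo Cfsg.Agent.Lib.Helper71.Asch Cfsg.Agent.Lib.Helper71.SPPMain
open scoped Kronecker
open scoped commutatorElement
open Cfsg.Agent.Lib.Helper82.ASCOREB (coreB)
open Cfsg.Agent.Lib.Helper21.ASCOREC (coreC)
open Cfsg.Agent.Lib.Helper46.ASB3s (B3s B3a)
open Cfsg.Agent.Lib.Helper46.ASB4 (not_le_scalars)
open Cfsg.Agent.Lib.Helper61.ASB6 (B6)
open Cfsg.Agent.Lib.Helper67.ASNL (NL_core exists_subfield_aut)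
open Cfsg.Agent.Lib.Helper46.ASB7core (B7core)
open Cfsg.Agent.Lib.Helper73.SLPC2 (C2)
open Cfsg.Agent.Lib.Helper16.SLPC3 (C3)
open Cfsg.Agent.Lib.Helper1.SUPU3 (U3_even)
open Cfsg.Agent.Lib.Helper77.OMPO7 (O7)
open Cfsg.Agent.Lib.Helper54.OMPO8a (O8a)
open Cfsg.Agent.Lib.Helper75.SPPEVEN (EVEN)
open Cfsg.Agent.Lib.Helper20.SPPEVENM (EVENM)
open Cfsg.Agent.Lib.Helper63.SPPS1 (S1)
open Cfsg.Agent.Lib.Helper86.SPPCAP (CAP)
open Cfsg.Agent.Lib.Helper76.SPPPAIRa (PAIRa)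
open Cfsg.Agent.Lib.Helper39.SPPPAIRb (PAIRb)
open Cfsg.Agent.Lib.Helper32.SPPQ2 (Q2)
open Cfsg.Agent.Lib.Helper19.SPPQTI (QTI)
open Cfsg.Agent.Lib.Helper83.SPPHOMP (HOMP)
open Cfsg.Agent.Lib.Helper10.SPPUNIQ (UNIQ)
open Cfsg.Agent.Lib.Helper89.SPPADJ (ADJ)
open Cfsg.Agent.Lib.Helper66.SPPFLDp (FLDp)
open Cfsg.Agent.Lib.Helper75.SPPFLD2b (FLD2b)
open Cfsg.Agent.Lib.Helper40.SPPTF (TF)
open Cfsg.Agent.Lib.Helper40.SPPTFSW (TFSW)
open Cfsg.Agent.Lib.Helper68.SPPTFS (TFS)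
open Cfsg.Agent.Lib.Helper39.SPPSQ (SQ)
open Cfsg.Agent.Lib.Helper10.SPPNS3 (NS3)
open Cfsg.Agent.Lib.Helper52.SPPNS1 (NS1)
open Cfsg.Agent.Lib.Helper86.SPPNS2 (NS2)
open Cfsg.Agent.Lib.Helper46.SPPNS4 (NS4)
open Cfsg.Agent.Lib.Helper53.SPPNS5 (NS5)
open Cfsg.Agent.Lib.Helper52.SPPNS9 (NS9)
open Cfsg.Agent.Lib.Helper71.SP12Main (HALF PLNm FLDsa TEVg TEVa T2Sa T2Sb)
open Cfsg.Agent.Lib.Helper71.SPGMain (TIF TS6 TS7)
open Cfsg.Agent.Lib.Helper56.SPGXTA (XTA)
open Cfsg.Agent.Lib.Helper60.SPGXTM1 (XTM1)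
open Cfsg.Agent.Lib.Helper21.SPGXTM2 (XTM2)
open Cfsg.Agent.Lib.Helper67.SPGXTI (XTI)
open Cfsg.Agent.Lib.Helper61.SPGXTD1 (XTD1)
open Cfsg.Agent.Lib.Helper1.SPGXTD2 (XTD2)
open Cfsg.Agent.Lib.Helper1.SPGXT (XTD3)

variable {n : ℕ} {F : Type*} [Field F] [Fintype F]

/-! ## New pieces (restated; proofs in the imported team modules) -/

/-- EA: for `q` odd a group of isometries inside `Sp_2 ⊗ O_4^+` lies in the tensor cube. -/
theorem EA (hq : Odd (Fintype.card F)) (f : (Fin n → F) → (Fin n → F) → F)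
    (hf : IsSymplecticForm f) (H : Subgroup (GL (Fin n) F)) (hfix : FixesForm (matrixSet H) f)
    (e : Fin n ≃ Fin 2 × Fin 4) (P : GL (Fin n) F) (f₁ : (Fin 2 → F) → (Fin 2 → F) → F)
    (f₂ : (Fin 4 → F) → (Fin 4 → F) → F) (h1 : IsSymplecticForm f₁) (h2 : IsSymmetricForm f₂)
    (ht : IsTensorFormStructure id f f₁ f₂ e P) (hH : H ≤ tensorProductSubgroup 2 4 e P)
    (hplus : IsPlusTypeOn (fun v : Fin 4 → F => f₂ v v) ⊤) :
    ∃ (e' : Fin n ≃ (Fin 3 → Fin 2)) (P' : GL (Fin n) F) (f₁' : (Fin 2 → F) → (Fin 2 → F) → F),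
      IsSymplecticForm f₁' ∧ IsTensorPowerFormStructure id f f₁' e' P' ∧
      H ≤ tensorWreathSubgroup 2 3 e' P' := by
  exact Cfsg.Agent.Lib.Helper1.SP8EA.EA hq f hf H hfix e P f₁ f₂ h1 h2 ht hH hplus

/-- EB: for `q = 3` the tensor cube group of isometries has a minimal non-scalar normal subgroup
`Q_8 ∘ Q_8 ∘ Q_8`, absolutely irreducible with scalar commutators. -/
theorem EB (hq3 : Fintype.card F = 3) (f : (Fin n → F) → (Fin n → F) → F)
    (hf : IsSymplecticForm f) (H : Subgroup (GL (Fin n) F)) (hfix : FixesForm (matrixSet H) f)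
    (e : Fin n ≃ (Fin 3 → Fin 2)) (P : GL (Fin n) F) (f₁ : (Fin 2 → F) → (Fin 2 → F) → F)
    (hf₁ : IsSymplecticForm f₁) (htp : IsTensorPowerFormStructure id f f₁ e P)
    (hH : H ≤ tensorWreathSubgroup 2 3 e P) :
    ∃ G R : Subgroup (GL (Fin n) F), H ≤ G ∧ FixesForm (matrixSet G) f ∧ SymT G R := by
  exact Cfsg.Agent.Lib.Helper52.SP8EB.EB hq3 f hf H hfix e P f₁ hf₁ htp hH

/-- NS6: `Sp_{2m}(q)`, `m ≥ 3`, does not normalise an absolutely irreducible group any two of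
whose elements commute or anticommute. -/
theorem NS6 (m : ℕ) (hm : 3 ≤ m) (h2 : (2 : F) ≠ 0) (R : Subgroup (GL (Fin m ⊕ Fin m) F))
    (hRa : ActsAbsolutelyIrreducibly (matrixSet R))
    (hac : ∀ x ∈ R, ∀ y ∈ R, x * y = y * x ∨ x.1 * y.1 = -(y.1 * x.1)) :
    ¬ Cfsg.spGL m F ≤ subgroupNormalizer R := by
  exact Cfsg.Agent.Lib.Helper92.SP8NS6.NS6 m hm h2 R hRa hac

/-- NS8: `Sp_{2m}(q)` is contained in no tensor-wreath subgroup. -/
theorem NS8 (m : ℕ) {k t : ℕ} (hk : 2 ≤ k) (ht : 2 ≤ t) (e : (Fin m ⊕ Fin m) ≃ (Fin t → Fin k))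
    (P : GL (Fin m ⊕ Fin m) F) : ¬ Cfsg.spGL m F ≤ tensorWreathSubgroup k t e P := by
  exact Cfsg.Agent.Lib.Helper21.SP8NS8.NS8 m hk ht e P

/-! ## Assembly (helper71) -/

/-- XT8: the symplectic-type branch in dimension 8 (assembly of the XT pieces of helper1's team,
with the extra information needed for `Sp_8`). -/
theorem XT8 (hn : n = 8) (f : (Fin n → F) → (Fin n → F) → F) (hf : IsSymplecticForm f)
    (H L : Subgroup (GL (Fin n) F)) (hfix : FixesForm (matrixSet H) f) (h : SymT H L) :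
    ∃ p : ℕ, p.Prime ∧ CharP F p ∧
      ((Fintype.card F = p ∧ Odd p ∧ IsSymplecticTypeGroup 2 L ∧ Nat.card L = 128 ∧
        Nat.card (Subgroup.center L) = 2 ∧ IsOfMinusType 3 L ∧ (2 : F) ≠ 0 ∧
        ∀ x ∈ L, ∀ y ∈ L, x * y = y * x ∨ x.1 * y.1 = -(y.1 * x.1)) ∨
      (Fintype.card F ≠ p ∧ ∃ F₀ : Subfield F, F₀ ≠ ⊤ ∧ RealisableOver F₀ (matrixSet L))) := by
  classical
  have hn4 : 4 ≤ n := by omega
  obtain ⟨h2, hn0, hZ, k, hk, hst, hcard, hcen⟩ := XTA hn4 f hf H L hfix h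
  have hk3 : k = 3 := by
    have h8 : 2 ^ k = 2 ^ 3 := by rw [← hk, hn]; norm_num
    exact Nat.pow_right_injective (le_refl 2) h8
  subst hk3
  obtain ⟨p, hchar⟩ := CharP.exists F
  have := hchar
  have hp : p.Prime := (CharP.char_is_prime_or_zero F p).resolve_right
    (fun h0 => by
      subst h0
      have : CharZero F := CharP.charP_to_charZero F
      exact not_finite F)
  have : Fact p.Prime := ⟨hp⟩
  obtain ⟨e, -, hq⟩ := FiniteField.card F p
  refine ⟨p, hp, hchar, ?_⟩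
  by_cases hqp : Fintype.card F = p
  · left
    refine ⟨hqp, ?_, hst, by rw [hcard]; norm_num, hcen, ?_, h2, ?_⟩
    · rcases hp.eq_two_or_odd' with h2' | hodd
      · exfalso
        apply h2
        have := CharP.cast_eq_zero F p
        rw [h2'] at this
        exact_mod_cast this
      · exact hodd
    · exact XTM2 hn4 f hf H L hfix h h2 hn0 hZ 3 hk
        (fun S hc hs hfS htr => XTM1 (by omega) f hf h2 hn0 S hc hs hfS htr)
    · intro x hx y hy
      have hc1 : ⁅x, y⁆ ∈ scalars (Fin n) F := h.comm (Subgroup.commutator_mem_commutator hx hy)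
      have hc2 : ⁅x, y⁆ ∈ L := by
        rw [commutatorElement_def]
        exact L.mul_mem (L.mul_mem (L.mul_mem hx hy) (L.inv_mem hx)) (L.inv_mem hy)
      have hxy : x * y = ⁅x, y⁆ * (y * x) := by
        rw [commutatorElement_def]
        group
      rcases hZ _ hc2 hc1 with h1 | h1
      · left
        have h3 : ⁅x, y⁆ = 1 := Units.ext h1
        rw [hxy, h3, one_mul]
      · right
        have h3 := congrArg Units.val hxy
        rw [Units.val_mul, Units.val_mul, Units.val_mul, h1] at h3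
        rw [h3]
        simp
  · right
    refine ⟨hqp, ⊥, ?_, ?_⟩
    · intro hbot
      apply hqp
      have h1 : Nat.card (⊥ : Subfield F) = p := Subfield.card_bot F p
      rw [hbot] at h1
      rw [← h1, Fintype.card_eq_nat_card]
      exact (Nat.card_congr (Subfield.topEquiv (K := F)).toEquiv).symm
    · have hbij : Function.Bijective (frobenius F p) :=
        Finite.injective_iff_bijective.1 (frobenius F p).injective
      obtain ⟨B, hB, hint⟩ := XTI hn4 f hf H L hfix h h2 hn0 hZ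
        (RingEquiv.ofBijective (frobenius F p) hbij)
      have hint' : ∀ x ∈ L, x.1 * B = B * x.1.map (frobenius F p) := hint
      obtain ⟨B₂, hB₂, hint₂, hN⟩ := XTD1 (by omega) L h.abs p e hq B hB hint'
      obtain ⟨D, hD, hBD⟩ := XTD2 (by omega) p e hq B₂ hN
      exact XTD3 L p B₂ D hD hint₂ hBD

/-- The normal form of a group of isometries of a symplectic form in dimension 8. -/
def GenS8 (f : (Fin n → F) → (Fin n → F) → F) (H : Subgroup (GL (Fin n) F)) : Prop :=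
  (∃ W : Submodule F (Fin n → F), W ≠ ⊥ ∧ IsTotallySingularFor f W ∧ H ≤ subspaceStabilizer W) ∨
  (∃ W : Submodule F (Fin n → F), W ≠ ⊥ ∧ IsNondegenerateOn f W ∧ Module.finrank F W < 4 ∧
    H ≤ subspaceStabilizer W) ∨
  (3 ≤ Fintype.card F ∧ ∃ D : Fin 4 → Submodule F (Fin n → F),
    IsNondegenerateMDecomposition f 2 D ∧ H ≤ decompositionStabilizer D) ∨
  (∃ D : Fin 2 → Submodule F (Fin n → F),
    IsNondegenerateMDecomposition f 4 D ∧ H ≤ decompositionStabilizer D) ∨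
  (Odd (Fintype.card F) ∧ ∃ D : Fin 2 → Submodule F (Fin n → F), IsMDecomposition 4 D ∧
    (∀ i, IsTotallySingularFor f (D i)) ∧ H ≤ decompositionStabilizer D) ∨
  (∃ K : Subalgebra F (Matrix (Fin n) (Fin n) F), IsFieldSubalgebra 2 K ∧
    IsSelfAdjointFor f K ∧ (∀ k ∈ K, ∀ v : Fin n → F, f (k *ᵥ v) v = 0) ∧
    H ≤ subalgebraNormalizer K) ∨
  (Odd (Fintype.card F) ∧ ∃ K : Subalgebra F (Matrix (Fin n) (Fin n) F), IsFieldSubalgebra 2 K ∧
    IsAdjointClosedFor f K ∧ ¬ IsSelfAdjointFor f K ∧ H ≤ subalgebraNormalizer K) ∨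
  (Odd (Fintype.card F) ∧ ∃ (e : Fin n ≃ Fin 2 × Fin 4) (P : GL (Fin n) F)
    (f₁ : (Fin 2 → F) → (Fin 2 → F) → F) (f₂ : (Fin 4 → F) → (Fin 4 → F) → F),
    IsSymplecticForm f₁ ∧ IsSymmetricForm f₂ ∧ ¬ IsPlusTypeOn (fun v : Fin 4 → F => f₂ v v) ⊤ ∧
    IsTensorFormStructure id f f₁ f₂ e P ∧ H ≤ tensorProductSubgroup 2 4 e P) ∨
  (∃ (F₀ : Subfield F) (r : ℕ) (P : GL (Fin n) F) (ζ : F), r.Prime ∧
    Fintype.card F = Nat.card F₀ ^ r ∧ ζ ≠ 0 ∧ IsFormRationalStructure f F₀ ζ P ∧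
    H ≤ subfieldSubgroup F₀ P) ∨
  (∃ (p : ℕ) (R : Subgroup (GL (Fin n) F)), p.Prime ∧ Odd p ∧ Fintype.card F = p ∧
    IsSymplecticTypeGroup 2 R ∧ ActsAbsolutelyIrreducibly (matrixSet R) ∧ R ≤ similarityGroup f ∧
    Nat.card R = 128 ∧ Nat.card (Subgroup.center R) = 2 ∧ IsOfMinusType 3 R ∧ (2 : F) ≠ 0 ∧
    (∀ x ∈ R, ∀ y ∈ R, x * y = y * x ∨ x.1 * y.1 = -(y.1 * x.1)) ∧ H ≤ subgroupNormalizer R) ∨
  (Odd (Fintype.card F) ∧ 5 ≤ Fintype.card F ∧ ∃ (e : Fin n ≃ (Fin 3 → Fin 2)) (P : GL (Fin n) F)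
    (f₁ : (Fin 2 → F) → (Fin 2 → F) → F), IsSymplecticForm f₁ ∧
    IsTensorPowerFormStructure id f f₁ e P ∧ H ≤ tensorWreathSubgroup 2 3 e P) ∨
  (¬ Odd (Fintype.card F) ∧ ∃ Q : (Fin n → F) → F, IsNondegenerateQuadraticForm Q ∧
    (∀ u v : Fin n → F, QuadraticMap.polar Q u v = f u v) ∧ H ≤ quadSimilarityGroup Q) ∨
  InSymplecticResidualClass H

/-- GENS8: the structure of a group of isometries of a symplectic form in dimension 8. -/
theorem genS8 (hn : n = 8) (f : (Fin n → F) → (Fin n → F) → F) (hf : IsSymplecticForm f)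
    (H : Subgroup (GL (Fin n) F)) (hfix : FixesForm (matrixSet H) f) : GenS8 f H := by
  classical
  have hq1 : 1 < Fintype.card F := Fintype.one_lt_card
  -- the quadratic alternative
  have quad : ¬ Odd (Fintype.card F) → (∃ Q : (Fin n → F) → F, IsNondegenerateQuadraticForm Q ∧
      (∀ u v : Fin n → F, QuadraticMap.polar Q u v = f u v) ∧ H ≤ quadSimilarityGroup Q) →
      GenS8 f H := by
    intro hq h
    exact Or.inr (Or.inr (Or.inr (Or.inr (Or.inr (Or.inr (Or.inr (Or.inr (Or.inr (Or.inr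
      (Or.inr (Or.inl ⟨hq, h⟩)))))))))))
  -- non-degenerate decompositions
  have dec2 : ∀ D : Fin 4 → Submodule F (Fin n → F), IsNondegenerateMDecomposition f 2 D →
      H ≤ decompositionStabilizer D → GenS8 f H := by
    intro D hND hHD
    by_cases hq : 3 ≤ Fintype.card F
    · exact Or.inr (Or.inr (Or.inl ⟨hq, D, hND, hHD⟩))
    · have hq2 : Fintype.card F = 2 := by omega
      exact quad (by rw [hq2]; decide) (Q2 hq2 f hf H D hND hHD)
  have dec4 : ∀ D : Fin 2 → Submodule F (Fin n → F), IsNondegenerateMDecomposition f 4 D →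
      H ≤ decompositionStabilizer D → GenS8 f H := fun D hND hHD =>
    Or.inr (Or.inr (Or.inr (Or.inl ⟨D, hND, hHD⟩)))
  have decm : ∀ (t m : ℕ) (D : Fin t → Submodule F (Fin n → F)),
      IsNondegenerateMDecomposition f m D → H ≤ decompositionStabilizer D → GenS8 f H := by
    intro t m D hND hHD
    have htm : t * m = 8 := by rw [← hn]; exact C2 D hND.decomp
    have ht2 := hND.decomp.two_le
    have hev := EVEN f hf.bilinear hf.alternating (D ⟨0, by omega⟩) (hND.nondegenerate _)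
    rw [hND.decomp.finrank_eq] at hev
    have hm8 : m ≤ 8 := Nat.le_of_dvd (by norm_num) ⟨t, by rw [← htm]; ring⟩
    interval_cases m
    all_goals first
      | exact absurd hev (by decide)
      | omega
      | (obtain rfl : t = 4 := by omega
         exact dec2 D hND hHD)
      | (obtain rfl : t = 2 := by omega
         exact dec4 D hND hHD)
  -- a pair of complementary totally singular subspaces
  have tipair : ∀ (m' : ℕ) (D : Fin 2 → Submodule F (Fin n → F)), IsMDecomposition m' D →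
      (∀ i, IsTotallySingularFor f (D i)) → H ≤ decompositionStabilizer D → GenS8 f H := by
    intro m' D hD hts hHD
    have h2m : 2 * m' = n := C2 D hD
    obtain rfl : m' = 4 := by omega
    by_cases hq : Odd (Fintype.card F)
    · exact Or.inr (Or.inr (Or.inr (Or.inr (Or.inl ⟨hq, D, hD, hts, hHD⟩))))
    · exact quad hq (QTI hq f hf H hfix D hD hts hHD)
  -- the subfield alternative for an absolutely irreducible normal subgroup
  have subf : ∀ L : Subgroup (GL (Fin n) F), Nrm H L → ActsAbsolutelyIrreducibly (matrixSet L) →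
      FixesForm (matrixSet L) f →
      (∃ F₀ : Subfield F, F₀ ≠ ⊤ ∧ RealisableOver F₀ (matrixSet L)) → GenS8 f H := by
    rintro L hnrm hLa hLfix ⟨F₀, hF₀, hreal⟩
    obtain ⟨F₁, r, τ', hr, hcardF, hle, hfixτ⟩ := exists_subfield_aut F₀ hF₀
    obtain ⟨B, hB⟩ := hreal
    have hB₁ : ∀ s ∈ matrixSet L, ∀ i j,
        (B.1 * s * (B⁻¹ : GL (Fin n) F).1) i j ∈ F₁ :=
      fun s hs i j => hle (hB s hs i j)
    have hHle : H ≤ subfieldSubgroup F₁ B⁻¹ := by
      intro h hh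
      have key := NL_core L hLa F₁ τ' hfixτ B hB₁ h (fun x hx => hnrm h hh x hx)
      unfold subfieldSubgroup
      refine ⟨B * h * B⁻¹, key, ?_⟩
      show B⁻¹ * (B * h * B⁻¹) * B⁻¹⁻¹ = h
      group
    obtain ⟨ζ, hζ, hrat⟩ := O8a (by omega) L hLa f hf.bilinear hf.nondegenerate hLfix
      F₁ τ' hfixτ B hB₁
    exact Or.inr (Or.inr (Or.inr (Or.inr (Or.inr (Or.inr (Or.inr (Or.inr (Or.inl
      ⟨F₁, r, B⁻¹, ζ, hr, hcardF, hζ, hrat, hHle⟩))))))))
  -- the class-6 alternative from a symplectic-type pair `(G, R)` with `H ≤ G`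
  have c6 : ∀ G R : Subgroup (GL (Fin n) F), H ≤ G → FixesForm (matrixSet G) f → SymT G R →
      (∀ p : ℕ, p.Prime → CharP F p → Fintype.card F ≠ p →
        (∃ F₀ : Subfield F, F₀ ≠ ⊤ ∧ RealisableOver F₀ (matrixSet R)) → GenS8 f H) →
      GenS8 f H := by
    intro G R hHG hGfix hsym hsubalt
    obtain ⟨p, hp, hchar, hcase⟩ := XT8 hn f hf G R hGfix hsym
    rcases hcase with ⟨hqp, hpodd, hst, hcardR, hcen, hminus, h2, hac⟩ | ⟨hqp, hsub⟩
    · refine Or.inr (Or.inr (Or.inr (Or.inr (Or.inr (Or.inr (Or.inr (Or.inr (Or.inr (Or.inl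
        ⟨p, R, hp, hpodd, hqp, hst, hsym.abs, ?_, hcardR, hcen, hminus, h2, hac, ?_⟩)))))))))
      · intro x hx
        exact ⟨1, fun u v => by
          rw [Units.val_one, one_mul]
          exact hGfix _ ⟨x, hsym.min.le hx, rfl⟩ u v⟩
      · intro h hh
        show h ∈ Subgroup.normalizer (R : Set (GL (Fin n) F))
        rw [Subgroup.mem_normalizer_iff]
        intro x
        constructor
        · intro hx
          exact hsym.min.nrm h (hHG hh) x hx
        · intro hx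
          have := hsym.min.nrm h⁻¹ (G.inv_mem (hHG hh)) _ hx
          simpa [mul_assoc] using this
    · exact hsubalt p hp hchar hqp hsub
  by_cases h1 : ActsIrreducibly (matrixSet H)
  swap
  · rcases S1 f hf H hfix h1 with ⟨W, h0, hts, hle⟩ | ⟨W, h0, hnd, hdim, hle⟩
    · exact Or.inl ⟨W, h0, hts, hle⟩
    · by_cases hlt : Module.finrank F W < 4
      · exact Or.inr (Or.inl ⟨W, h0, hnd, hlt, hle⟩)
      · have h6 : Module.finrank F W = 4 := by omega
        obtain ⟨D, hD, hHD⟩ := HALF f hf H hfix W 4 (by norm_num) (by omega) h6 hnd hle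
        exact dec4 D hD hHD
  obtain ⟨L, hL⟩ := exists_minNS (by omega) H h1
  have hLfix : FixesForm (matrixSet L) f := by
    rintro _ ⟨g, hg, rfl⟩ u v
    exact hfix _ ⟨g, hL.le hg, rfl⟩ u v
  -- the field alternative
  have fld : ∀ (r : ℕ) (K : Subalgebra F (Matrix (Fin n) (Fin n) F)), r.Prime →
      IsFieldSubalgebra r K → IsAdjointClosedFor f K → H ≤ subalgebraNormalizer K →
      GenS8 f H := by
    intro r K hr hK hadj hHK
    have hrn : r ∣ n := C3 (by omega) r K hK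
    have hr2 : r = 2 := by
      rw [hn, show (8 : ℕ) = 2 ^ 3 by norm_num] at hrn
      exact (Nat.prime_dvd_prime_iff_eq hr Nat.prime_two).1 (hr.dvd_of_dvd_pow hrn)
    subst hr2
    by_cases hsa : IsSelfAdjointFor f K
    · exact Or.inr (Or.inr (Or.inr (Or.inr (Or.inr (Or.inl
        ⟨K, hK, hsa, FLDsa f hf 2 K hK hsa, hHK⟩)))))
    · by_cases hq : Odd (Fintype.card F)
      · exact Or.inr (Or.inr (Or.inr (Or.inr (Or.inr (Or.inr (Or.inl
          ⟨hq, K, hK, hadj, hsa, hHK⟩))))))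
      · exact quad hq (FLD2b hq f hf K hK hadj hsa H hfix hHK)
  -- the tensor cube alternative
  have cube : Odd (Fintype.card F) → ∀ (e' : Fin n ≃ (Fin 3 → Fin 2)) (P' : GL (Fin n) F)
      (f₁' : (Fin 2 → F) → (Fin 2 → F) → F), IsSymplecticForm f₁' →
      IsTensorPowerFormStructure id f f₁' e' P' → H ≤ tensorWreathSubgroup 2 3 e' P' →
      GenS8 f H := by
    intro hq e' P' f₁' hf₁' htp hHW
    by_cases hq5 : 5 ≤ Fintype.card F
    · exact Or.inr (Or.inr (Or.inr (Or.inr (Or.inr (Or.inr (Or.inr (Or.inr (Or.inr (Or.inr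
        (Or.inl ⟨hq, hq5, e', P', f₁', hf₁', htp, hHW⟩))))))))))
    · have hq3 : Fintype.card F = 3 := by
        rcases hq with ⟨c, hc⟩
        omega
      obtain ⟨G, R, hHG, hGfix, hsym⟩ := EB hq3 f hf H hfix e' P' f₁' hf₁' htp hHW
      refine c6 G R hHG hGfix hsym ?_
      intro p hp hchar hqp _
      exfalso
      have : Fact p.Prime := ⟨hp⟩
      obtain ⟨j, -, hj⟩ := FiniteField.card F p
      rw [hq3] at hj
      have hp3 : p ∣ 3 := by
        rw [hj]
        exact dvd_pow_self p j.ne_zero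
      have hp3' : p = 3 := (Nat.prime_dvd_prime_iff_eq hp Nat.prime_three).1 hp3
      exact hqp (by rw [hq3, hp3'])
  -- the tensor alternative: first factor alternating, second factor symmetric
  have tens : ∀ (a b : ℕ), 2 ≤ a → 2 ≤ b → a * b = 8 → ∀ (e : Fin n ≃ Fin a × Fin b)
      (P : GL (Fin n) F) (G₁ : Matrix (Fin a) (Fin a) F) (G₂ : Matrix (Fin b) (Fin b) F),
      G₁.det ≠ 0 → G₂.det ≠ 0 → G₁ᵀ = -G₁ → (∀ i, G₁ i i = 0) → G₂ᵀ = G₂ →
      (∀ x y : Fin a × Fin b → F,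
        f (P.1 *ᵥ (x ∘ e)) (P.1 *ᵥ (y ∘ e)) = formOfGram id (G₁ ⊗ₖ G₂) x y) →
      H ≤ tensorProductSubgroup a b e P → GenS8 f H := by
    intro a b ha2 hb2 hab e P G₁ G₂ hd1 hd2 ha hz hs hid hHT
    obtain ⟨f₁, f₂, hf₁, hf₂, ht⟩ := TFS f e P G₁ G₂ hd1 hd2 ha hz hs hid
    have heva : Even a := EVENM G₁ ha hz hd1
    by_cases hq : Odd (Fintype.card F)
    swap
    · by_cases hne : ∃ v, f₂ v v ≠ 0
      · exact (TEVg hq f H hfix (by omega) hb2 e P f₁ f₂ hf₁ hf₂ hne ht hHT h1).elim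
      · push Not at hne
        exact quad hq (TEVa hq f hf H hfix e P f₁ f₂ hf₁ hf₂ hne ht hHT)
    · have ha8 : a ≤ 8 := Nat.le_of_dvd (by norm_num) ⟨b, hab.symm⟩
      interval_cases a
      all_goals first
        | exact absurd heva (by decide)
        | omega
        | (obtain rfl : b = 4 := by omega
           by_cases hplus : IsPlusTypeOn (fun v : Fin 4 → F => f₂ v v) ⊤
           · obtain ⟨e', P', f₁', hf₁', htp, hHW⟩ :=
               EA hq f hf H hfix e P f₁ f₂ hf₁ hf₂ ht hHT hplus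
             exact cube hq e' P' f₁' hf₁' htp hHW
           · exact Or.inr (Or.inr (Or.inr (Or.inr (Or.inr (Or.inr (Or.inr (Or.inl
               ⟨hq, e, P, f₁, f₂, hf₁, hf₂, hplus, ht, hHT⟩))))))))
        | (obtain rfl : b = 2 := by omega
           by_cases hiso : ∃ v, v ≠ 0 ∧ f₂ v v = 0
           · obtain ⟨D, hD, hts, hHD⟩ :=
               T2Sa hq f hf H hfix (by norm_num) e P f₁ f₂ hf₁ hf₂ ht hHT hiso
             exact tipair 4 D hD hts hHD
           · push Not at hiso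
             obtain ⟨K, hK, hadj, hnsa, hHK⟩ :=
               T2Sb hq f hf H hfix (by norm_num) e P f₁ f₂ hf₁ hf₂ ht hHT hiso
             exact Or.inr (Or.inr (Or.inr (Or.inr (Or.inr (Or.inr (Or.inl
               ⟨hq, K, hK, hadj, hnsa, hHK⟩)))))))
  rcases CAP (by omega) H L h1 hL.le hL.nrm with
    ⟨t, m', D, hD, hHD, hiso, hinv, hfull⟩ | ⟨d, k, e, P, R, hR, hR1, hR2⟩
  · -- inhomogeneous
    have ht2 := hD.two_le
    obtain ⟨τ, hτ, horth, hno⟩ := PAIRa f hf L hLfix D hD hiso hinv hfull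
    rcases PAIRb f hf H hfix h1 D hD hHD τ hτ horth hno with hND | ⟨hfp, hcompat⟩
    · exact decm t m' D hND hHD
    · by_cases ht : t = 2
      · subst ht
        exact tipair m' D hD (fun i => horth i i (hfp i).symm) hHD
      · obtain ⟨s, E, hE, hHE⟩ := PLNm f hf H D hD (by omega) hHD τ hfp hτ horth hcompat
        exact decm s (2 * m') E hE hHE
  · -- homogeneous
    have hcard : n = d * k := by
      have := Fintype.card_congr e
      simpa using this
    have hd1 : d ≠ 1 := by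
      rintro rfl
      exact hL.ns (B3s e P R L hR1)
    have hd0 : d ≠ 0 := by
      rintro rfl
      simp at hcard
      omega
    have hdk : d * k = 8 := by rw [← hcard, hn]
    by_cases hRa : ActsAbsolutelyIrreducibly (matrixSet R)
    swap
    · obtain ⟨r, K, hr, hK, hHK, hKc⟩ := coreB (by omega) H L hL.le hL.nrm e P R hR hR1 hR2 hRa
      have hhom := HOMP e P R L hR hR1 hR2
      have hadj := ADJ (by omega) f hf L hLfix hhom
        (fun Z hc hi r K K' hK hK' h1 h2 => UNIQ (by omega) Z hc hi r K K' hK hK' h1 h2) r K hK hKc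
      exact fld r K hr hK hadj hHK
    · have hHT : H ≤ tensorProductSubgroup d k e P := fun h hh =>
        (coreC e P R L hRa hR1 hR2).2 h (fun x hx => hL.nrm h hh x hx)
      by_cases hk1 : k = 1
      · -- k = 1: L absolutely irreducible
        subst hk1
        obtain rfl : n = d := by omega
        have hLa := B3a e P R L hRa hR2
        rcases hL.min ⁅L, L⁆ (commutator_le_self L) hL.nrm.commutator with hc | hc
        · exact c6 H L le_rfl hfix ⟨hL, hLa, hc⟩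
            (fun p hp hchar hqp hsub => subf L hL.nrm hLa hLfix hsub)
        · rcases B6 H L hL hc with ⟨hs, hna⟩ | ⟨k', Ps, hk', hns, hcomm, hsup, hperm, htrans⟩
          · by_cases hsubf : ∃ F₀ : Subfield F, F₀ ≠ ⊤ ∧ RealisableOver F₀ (matrixSet L)
            · exact subf L hL.nrm hLa hLfix hsubf
            · by_cases hQ : ∃ Q : (Fin n → F) → F, IsNondegenerateQuadraticForm Q ∧
                  FixesQuadForm (matrixSet L) Q
              · obtain ⟨Q, hQ1, hQ2⟩ := hQ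
                obtain ⟨hq, hex⟩ := SQ f hf (by omega) H L hL.le hL.nrm hLa hfix Q hQ1 hQ2
                exact quad hq hex
              · refine Or.inr (Or.inr (Or.inr (Or.inr (Or.inr (Or.inr (Or.inr (Or.inr (Or.inr
                  (Or.inr (Or.inr (Or.inr
                  ⟨L, B7core H L hL.le hL.nrm hLa hc hs hna ?_, hQ, ?_⟩)))))))))))
                · intro F₀ hF₀ hreal
                  exact hsubf ⟨F₀, hF₀, hreal⟩
                · rintro ⟨σ, g, hg, hgfix⟩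
                  exact hsubf (O7 (by omega) L hLa f hf.bilinear hf.nondegenerate hLfix σ g hg hgfix)
          · rcases TIF (by omega) f hf H L hfix hL hLa hc k' Ps hk' hns hcomm hsup hperm htrans
              with ⟨hq, d', t, e', P', f₁, hto, ht3, hex, hf₁, htp, hHW⟩ | ⟨hq, hex⟩
            · have hc8 : d' ^ t = 8 := by
                have := Fintype.card_congr e'
                simp at this
                omega
              have hd2 : d' = 2 := by
                rcases Nat.lt_or_ge d' 3 with h | h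
                · interval_cases d'
                  · rw [zero_pow (by omega)] at hc8
                    omega
                  · rw [one_pow] at hc8
                    omega
                  · rfl
                · have h27 : 3 ^ 3 ≤ d' ^ t :=
                    le_trans (Nat.pow_le_pow_left h 3) (Nat.pow_le_pow_right (by omega) ht3)
                  omega
              subst hd2
              have h23 : 2 ^ t = 2 ^ 3 := by rw [hc8]; norm_num
              have ht3' : t = 3 := Nat.pow_right_injective (le_refl 2) h23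
              subst ht3'
              have hq5 : 5 ≤ Fintype.card F := by
                have hne3 : Fintype.card F ≠ 3 := fun h3 => hex ⟨h3, rfl⟩
                rcases hq with ⟨c, hc⟩
                omega
              exact Or.inr (Or.inr (Or.inr (Or.inr (Or.inr (Or.inr (Or.inr (Or.inr (Or.inr (Or.inr
                (Or.inl ⟨hq, hq5, e', P', f₁, hf₁, htp, hHW⟩))))))))))
            · exact quad hq hex
      · -- 2 ≤ d, 2 ≤ k
        have hk0 : k ≠ 0 := by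
          rintro rfl
          omega
        obtain ⟨G₁, G₂, hd1', hd2', hcase, hid⟩ := TF f hf e P R L hRa hR1 hR2 hLfix
        rcases hcase with ⟨hs1, ha2, hz2⟩ | ⟨ha1, hz1, hs2⟩
        · obtain ⟨hid', heq⟩ := TFSW f e P G₁ G₂ hid
          exact tens k d (by omega) (by omega) (by rw [mul_comm]; exact hdk)
            (e.trans (Equiv.prodComm (Fin d) (Fin k))) P G₂ G₁ hd2' hd1' ha2 hz2 hs1 hid'
            (heq ▸ hHT)
        · exact tens d k (by omega) (by omega) hdk e P G₁ G₂ hd1' hd2' ha1 hz1 hs2 hid hHT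

/-- transport of the commute-or-anticommute property along `glReindex e` -/
theorem hac_comap {κ : Type} [Fintype κ] [DecidableEq κ] (e : κ ≃ Fin n)
    (R' : Subgroup (GL (Fin n) F))
    (hac : ∀ x ∈ R', ∀ y ∈ R', x * y = y * x ∨ x.1 * y.1 = -(y.1 * x.1)) :
    ∀ x ∈ R'.comap (glReindex e).toMonoidHom, ∀ y ∈ R'.comap (glReindex e).toMonoidHom,
      x * y = y * x ∨ x.1 * y.1 = -(y.1 * x.1) := by
  intro x hx y hy
  rcases hac _ hx _ hy with h | h
  · left
    apply (glReindex e).injective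
    rw [map_mul, map_mul]
    exact h
  · right
    have hval : ∀ z : GL κ F, ((glReindex e) z : GL (Fin n) F).1 = z.1.submatrix e.symm e.symm :=
      fun z => rfl
    have h' : (x.1 * y.1).submatrix e.symm e.symm = (-(y.1 * x.1)).submatrix e.symm e.symm := by
      have h3 : ((glReindex e).toMonoidHom x : GL (Fin n) F).1 *
          ((glReindex e).toMonoidHom y : GL (Fin n) F).1 =
          -(((glReindex e).toMonoidHom y : GL (Fin n) F).1 *
            ((glReindex e).toMonoidHom x : GL (Fin n) F).1) := h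
      have e1 : ((glReindex e).toMonoidHom x : GL (Fin n) F).1 = x.1.submatrix e.symm e.symm :=
        hval x
      have e2 : ((glReindex e).toMonoidHom y : GL (Fin n) F).1 = y.1.submatrix e.symm e.symm :=
        hval y
      rw [e1, e2, Matrix.submatrix_mul_equiv, Matrix.submatrix_mul_equiv] at h3
      rw [h3]
      rfl
    ext i j
    have h4 := congrFun (congrFun h' (e i)) (e j)
    simpa using h4

/-- FINAL: the maximal subgroups of `Sp_8(q)`. -/
theorem finalS8 (H : Subgroup (GL (Fin 4 ⊕ Fin 4) F)) (hH : IsMaximalIn (Cfsg.spGL 4 F) H) :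
    (∃ W : Submodule F (Fin 4 ⊕ Fin 4 → F), W ≠ ⊥ ∧ IsTotallySingularFor (Cfsg.sympForm 4 F) W ∧
      H = subspaceStabilizer W ⊓ Cfsg.spGL 4 F) ∨
    (∃ W : Submodule F (Fin 4 ⊕ Fin 4 → F), W ≠ ⊥ ∧ IsNondegenerateOn (Cfsg.sympForm 4 F) W ∧
      Module.finrank F W < 4 ∧ H = subspaceStabilizer W ⊓ Cfsg.spGL 4 F) ∨
    (3 ≤ Fintype.card F ∧ ∃ D : Fin 4 → Submodule F (Fin 4 ⊕ Fin 4 → F),
      IsNondegenerateMDecomposition (Cfsg.sympForm 4 F) 2 D ∧
      H = decompositionStabilizer D ⊓ Cfsg.spGL 4 F) ∨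
    (∃ D : Fin 2 → Submodule F (Fin 4 ⊕ Fin 4 → F),
      IsNondegenerateMDecomposition (Cfsg.sympForm 4 F) 4 D ∧
      H = decompositionStabilizer D ⊓ Cfsg.spGL 4 F) ∨
    (Odd (Fintype.card F) ∧ ∃ D : Fin 2 → Submodule F (Fin 4 ⊕ Fin 4 → F), IsMDecomposition 4 D ∧
      (∀ i, IsTotallySingularFor (Cfsg.sympForm 4 F) (D i)) ∧
      H = decompositionStabilizer D ⊓ Cfsg.spGL 4 F) ∨
    (∃ K : Subalgebra F (Matrix (Fin 4 ⊕ Fin 4) (Fin 4 ⊕ Fin 4) F), IsFieldSubalgebra 2 K ∧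
      IsSelfAdjointFor (Cfsg.sympForm 4 F) K ∧
      (∀ k ∈ K, ∀ v : (Fin 4 ⊕ Fin 4 → F), (Cfsg.sympForm 4 F) (Matrix.mulVec k v) v = 0) ∧
      H = subalgebraNormalizer K ⊓ Cfsg.spGL 4 F) ∨
    (Odd (Fintype.card F) ∧ ∃ K : Subalgebra F (Matrix (Fin 4 ⊕ Fin 4) (Fin 4 ⊕ Fin 4) F),
      IsFieldSubalgebra 2 K ∧ IsAdjointClosedFor (Cfsg.sympForm 4 F) K ∧
      ¬ IsSelfAdjointFor (Cfsg.sympForm 4 F) K ∧ H = subalgebraNormalizer K ⊓ Cfsg.spGL 4 F) ∨
    (Odd (Fintype.card F) ∧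
      ∃ (e : (Fin 4 ⊕ Fin 4) ≃ Fin 2 × Fin 4) (P : GL (Fin 4 ⊕ Fin 4) F)
        (f₁ : (Fin 2 → F) → (Fin 2 → F) → F) (f₂ : (Fin 4 → F) → (Fin 4 → F) → F),
        IsSymplecticForm f₁ ∧ IsSymmetricForm f₂ ∧
        ¬ IsPlusTypeOn (fun v : Fin 4 → F => f₂ v v) ⊤ ∧
        IsTensorFormStructure id (Cfsg.sympForm 4 F) f₁ f₂ e P ∧
        H = tensorProductSubgroup 2 4 e P ⊓ Cfsg.spGL 4 F) ∨
    (∃ (F₀ : Subfield F) (r : ℕ) (P : GL (Fin 4 ⊕ Fin 4) F) (ζ : F), r.Prime ∧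
      Fintype.card F = Nat.card F₀ ^ r ∧ ζ ≠ 0 ∧
      IsFormRationalStructure (Cfsg.sympForm 4 F) F₀ ζ P ∧
      H = subfieldSubgroup F₀ P ⊓ Cfsg.spGL 4 F) ∨
    (∃ (p : ℕ) (R : Subgroup (GL (Fin 4 ⊕ Fin 4) F)), p.Prime ∧ Odd p ∧ Fintype.card F = p ∧
      IsSymplecticTypeGroup 2 R ∧ ActsAbsolutelyIrreducibly (matrixSet R) ∧
      R ≤ similarityGroup (Cfsg.sympForm 4 F) ∧ Nat.card R = 128 ∧
      Nat.card (Subgroup.center R) = 2 ∧ IsOfMinusType 3 R ∧
      H = subgroupNormalizer R ⊓ Cfsg.spGL 4 F) ∨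
    (Odd (Fintype.card F) ∧ 5 ≤ Fintype.card F ∧
      ∃ (e : (Fin 4 ⊕ Fin 4) ≃ (Fin 3 → Fin 2)) (P : GL (Fin 4 ⊕ Fin 4) F)
        (f₁ : (Fin 2 → F) → (Fin 2 → F) → F), IsSymplecticForm f₁ ∧
        IsTensorPowerFormStructure id (Cfsg.sympForm 4 F) f₁ e P ∧
        H = tensorWreathSubgroup 2 3 e P ⊓ Cfsg.spGL 4 F) ∨
    (¬ Odd (Fintype.card F) ∧ ∃ Q : (Fin 4 ⊕ Fin 4 → F) → F, IsNondegenerateQuadraticForm Q ∧
      (∀ u v : (Fin 4 ⊕ Fin 4 → F), QuadraticMap.polar Q u v = (Cfsg.sympForm 4 F) u v) ∧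
      H = quadSimilarityGroup Q ⊓ Cfsg.spGL 4 F) ∨
    InSymplecticResidualClass H := by
  classical
  have hm2 : 2 ≤ 4 := by norm_num
  set f₀ := Cfsg.sympForm 4 F with hf₀def
  have hf₀ : IsSymplecticForm f₀ := SFS 4
  have hcardκ : Fintype.card (Fin 4 ⊕ Fin 4) = 8 := by
    simp
  let e : Fin 4 ⊕ Fin 4 ≃ Fin 8 := Fintype.equivFinOfCardEq hcardκ
  have hfix₀ : FixesForm (matrixSet H) f₀ := fixes_of_le_sp 4 hH.1.le
  have hne : ∀ (F₀ : Subfield F) (r : ℕ), r.Prime → Fintype.card F = Nat.card F₀ ^ r →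
      F₀ ≠ ⊤ := by
    intro F₁ r hr hcard htop
    rw [htop] at hcard
    have h1 : Nat.card (⊤ : Subfield F) = Fintype.card F := by
      rw [← Nat.card_eq_fintype_card]
      exact Nat.card_congr Subfield.topEquiv.toEquiv
    rw [h1] at hcard
    have h2 : 1 < Fintype.card F := Fintype.one_lt_card
    have h3 : Fintype.card F ^ 1 < Fintype.card F ^ r :=
      Nat.pow_lt_pow_right h2 hr.one_lt
    rw [pow_one] at h3
    omega
  have hfr : Module.finrank F (Fin 4 ⊕ Fin 4 → F) = 8 := by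
    rw [Module.finrank_fintype_fun_eq_card, hcardκ]
  have hg := genS8 (n := 8) rfl (tf e f₀) (TS0a e f₀ hf₀) _ (TS0b e f₀ H hfix₀)
  unfold GenS8 at hg
  rcases hg with ⟨W', h0, hts, hle⟩ | ⟨W', h0, hnd, hdim, hle⟩ | ⟨hq, D', hD, hle⟩ |
    ⟨D', hD, hle⟩ | ⟨hq, D', hD, hts, hle⟩ | ⟨K', hK, hsa, halt, hle⟩ |
    ⟨hq, K', hK, hadj, hnsa, hle⟩ |
    ⟨hq, e', P', f₁, f₂, hf₁, hf₂, hplus, ht, hle⟩ |
    ⟨F₀, r, P', ζ, hr, hcard, hζ, hrat, hle⟩ |
    ⟨p, R', hp, hpodd, hqp, hst, hRa, hRsim, hcardR, hcen, hminus, h2, hac, hle⟩ |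
    ⟨hq, hq5, e', P', f₁, hf₁, htp, hle⟩ |
    ⟨hq, Q', hQ', hpol, hle⟩ | hres
  · obtain ⟨t1, t2, t3, t4, t5⟩ := TS1 e f₀ H W'
    have htop : tW e W' ≠ ⊤ := by
      intro htop
      have hts' := t4 hts
      rw [htop] at hts'
      have hv : (Pi.single (Sum.inl (⟨0, by omega⟩ : Fin 4)) (1 : F) : Fin 4 ⊕ Fin 4 → F) ≠ 0 := by
        intro h
        have := congrFun h (Sum.inl (⟨0, by omega⟩ : Fin 4))
        simp at this
      obtain ⟨x, hx⟩ := (hf₀.nondegenerate _ hv).1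
      exact hx (hts' x Submodule.mem_top _ Submodule.mem_top)
    exact Or.inl ⟨tW e W', t2 h0, t4 hts,
      eq_inf_of_max' hH (t1 hle) (NS1 4 hm2 _ (t2 h0) htop)⟩
  · obtain ⟨t1, t2, t3, t4, t5⟩ := TS1 e f₀ H W'
    have htop : tW e W' ≠ ⊤ := by
      intro htop
      rw [htop, finrank_top, hfr] at t3
      omega
    exact Or.inr (Or.inl ⟨tW e W', t2 h0, t5 hnd, by rw [t3]; exact hdim,
      eq_inf_of_max' hH (t1 hle) (NS1 4 hm2 _ (t2 h0) htop)⟩)
  · obtain ⟨s1, s2, s3⟩ := TS2 (m := 2) e f₀ H D'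
    exact Or.inr (Or.inr (Or.inl ⟨hq, _, s3 hD,
      eq_inf_of_max' hH (s1 hle) (NS2 4 hm2 _ (s3 hD).decomp)⟩))
  · obtain ⟨s1, s2, s3⟩ := TS2 (m := 4) e f₀ H D'
    exact Or.inr (Or.inr (Or.inr (Or.inl ⟨_, s3 hD,
      eq_inf_of_max' hH (s1 hle) (NS2 4 hm2 _ (s3 hD).decomp)⟩)))
  · obtain ⟨s1, s2, s3⟩ := TS2 (m := 4) e f₀ H D'
    exact Or.inr (Or.inr (Or.inr (Or.inr (Or.inl ⟨hq, _, s2 hD,
      fun i => (TS1 e f₀ H (D' i)).2.2.2.1 (hts i),
      eq_inf_of_max' hH (s1 hle) (NS2 4 hm2 _ (s2 hD))⟩))))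
  · obtain ⟨k1, k2, k3, k4, k5⟩ := TS3 e f₀ H 2 K'
    exact Or.inr (Or.inr (Or.inr (Or.inr (Or.inr (Or.inl ⟨tK e K', k2 hK, k3.1 hsa,
      k5 halt, eq_inf_of_max' hH (k1 hle) (NS3 4 hm2 2 le_rfl _ (k2 hK))⟩)))))
  · obtain ⟨k1, k2, k3, k4, k5⟩ := TS3 e f₀ H 2 K'
    exact Or.inr (Or.inr (Or.inr (Or.inr (Or.inr (Or.inr (Or.inl ⟨hq, tK e K',
      k2 hK, k4 hadj, fun h => hnsa (k3.2 h),
      eq_inf_of_max' hH (k1 hle) (NS3 4 hm2 2 le_rfl _ (k2 hK))⟩))))))
  · obtain ⟨x1, x2⟩ := TS4 e f₀ H e' P' f₁ f₂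
    exact Or.inr (Or.inr (Or.inr (Or.inr (Or.inr (Or.inr (Or.inr (Or.inl ⟨hq,
      e.trans e', (glReindex e).symm P', f₁, f₂, hf₁, hf₂, hplus, x2 ht,
      eq_inf_of_max' hH (x1 hle) (NS4 4 hm2 le_rfl (by norm_num) _ _)⟩)))))))
  · obtain ⟨u1, u2⟩ := TS5 e f₀ H F₀ ζ P'
    exact Or.inr (Or.inr (Or.inr (Or.inr (Or.inr (Or.inr (Or.inr (Or.inr (Or.inl
      ⟨F₀, r, (glReindex e).symm P', ζ, hr, hcard, hζ, u2 hrat,
      eq_inf_of_max' hH (u1 hle) (NS5 4 hm2 F₀ (hne F₀ r hr hcard) _)⟩))))))))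
  · obtain ⟨r1, r2, r3, r4, r5, r6, r7⟩ := TS6 e f₀ H R' 3
    exact Or.inr (Or.inr (Or.inr (Or.inr (Or.inr (Or.inr (Or.inr (Or.inr (Or.inr (Or.inl
      ⟨p, R'.comap (glReindex e).toMonoidHom, hp, hpodd, hqp, r2 hst, r3 hRa, r4 hRsim,
        by rw [r5]; exact hcardR, by rw [r6]; exact hcen, r7 hminus,
        eq_inf_of_max' hH (r1 hle) (NS6 4 (by norm_num) h2 _ (r3 hRa)
          (hac_comap e R' hac))⟩)))))))))
  · obtain ⟨w1, w2⟩ := TS7 e f₀ H e' P' f₁
    exact Or.inr (Or.inr (Or.inr (Or.inr (Or.inr (Or.inr (Or.inr (Or.inr (Or.inr (Or.inr (Or.inl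
      ⟨hq, hq5, e.trans e', (glReindex e).symm P', f₁, hf₁, w2 htp,
      eq_inf_of_max' hH (w1 hle) (NS8 4 (by norm_num) (by norm_num) _ _)⟩))))))))))
  · obtain ⟨q1, q2, q3⟩ := TS9 e f₀ H Q'
    exact Or.inr (Or.inr (Or.inr (Or.inr (Or.inr (Or.inr (Or.inr (Or.inr (Or.inr (Or.inr (Or.inr
      (Or.inl ⟨hq, tQi e Q', q1 hQ', q2 hpol,
      eq_inf_of_max' hH (q3 hle) (NS9 4 hm2 _ (q1 hQ') (q2 hpol))⟩)))))))))))
  · exact Or.inr (Or.inr (Or.inr (Or.inr (Or.inr (Or.inr (Or.inr (Or.inr (Or.inr (Or.inr (Or.inr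
      (Or.inr (TRS e H hres))))))))))))

end Cfsg.Agent.Lib.Helper71.SP8Main
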