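import Mathlib
import Cfsg.Prelude.Def_GeometricClasses
import Cfsg.Agent.Lib.Helper71.SpK1

/-!
# S5664, piece J11: commutators of transvection-like elements give Siegel elements (helper71)
-/

set_option autoImplicit false

namespace Cfsg.Agent.Lib.Helper71.SpK

open Matrix Cfsg.Agent.Lib.Helper97

variable {ι : Type} [Fintype ι] [DecidableEq ι] {F : Type*} [Field F]

lemma comm_sq_zero {R : Type*} [Ring R] (A B : R) (hAA : A * A = 0) (hBB : B * B = 0)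
    (hABA : A * B * A = 0) (hBAB : B * A * B = 0) :
    (1 + A) * (1 + B) * (1 - A) * (1 - B) = 1 + A * B - B * A := by
  linear_combination (norm := noncomm_ring)
    -hAA + hAA * B - hBB + hBAB - hABA - A * hBB + hABA * B

namespace KS

variable {f : (ι → F) → (ι → F) → F} {L : Type*} [Field L] [Algebra F L] (S : KS f L)

lemma f_zero_right (S : KS f L) (x : ι → F) : f x 0 = 0 := by
  rw [S.f_eq, S.B_zero_right, map_zero]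

lemma f_zero_left (S : KS f L) (x : ι → F) : f 0 x = 0 := by
  rw [S.f_eq, S.B_zero_left, map_zero]

lemma f_perp_line {u x y : ι → F} (hx : S.B x u = 0) (hy : y ∈ S.line u) : f x y = 0 := by
  obtain ⟨l, rfl⟩ := S.mem_line.mp hy
  rw [S.f_act_right, hx, mul_zero, map_zero]

lemma SP_zero_right (S : KS f L) (M : Subgroup (GL ι F)) (σ : F) (y : ι → F) :
    SP f M σ y 0 := by
  refine ⟨1, M.one_mem, fun x => ?_⟩
  rw [gl_one_mulVec, S.f_zero_right, zero_smul, smul_zero, add_zero, smul_zero, add_zero]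

lemma NG_iso1 {n : GL ι F} (hn : n ∈ S.NG) (a b : ι → F) :
    f ((n : Matrix ι ι F) *ᵥ a) b = f a (((n⁻¹ : GL ι F) : Matrix ι ι F) *ᵥ b) := by
  have h := S.NG_f hn a (((n⁻¹ : GL ι F) : Matrix ι ι F) *ᵥ b)
  rw [gl_mulVec_inv'] at h
  exact h

lemma NG_iso2 {n : GL ι F} (hn : n ∈ S.NG) (a b : ι → F) :
    f (((n⁻¹ : GL ι F) : Matrix ι ι F) *ᵥ a) b = f a ((n : Matrix ι ι F) *ᵥ b) := by
  have h := S.NG_f hn (((n⁻¹ : GL ι F) : Matrix ι ι F) *ᵥ a) b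
  rw [gl_mulVec_inv'] at h
  exact h.symm

/-- Data attached to one of the transvection-like elements. -/
lemma transv_data (hf : Cfsg.Geo.IsSymplecticForm f) (M : Subgroup (GL ι F))
    (hMf : ∀ g ∈ M, ∀ x y : ι → F,
      f ((g : Matrix ι ι F) *ᵥ x) ((g : Matrix ι ι F) *ᵥ y) = f x y)
    {u : ι → F} (Bh : Submodule F (ι → F))
    (hBperp : ∀ y ∈ Bh, S.B y u = 0) (hBiso : ∀ y ∈ Bh, ∀ y' ∈ Bh, f y y' = 0)
    {z₀ : ι → F} (hz₀ : z₀ ∈ Bh) {d : ι → F} {γ : GL ι F} (hγM : γ ∈ M)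
    (hγB : ∀ x : ι → F, (γ : Matrix ι ι F) *ᵥ x - x ∈ Bh)
    (hγp : ∀ x : ι → F, S.B x u = 0 → (γ : Matrix ι ι F) *ᵥ x = x + f x z₀ • d) :
    ∃ A : Matrix ι ι F, (γ : Matrix ι ι F) = 1 + A ∧
      ((γ⁻¹ : GL ι F) : Matrix ι ι F) = 1 - A ∧ A * A = 0 ∧ (∀ x, A *ᵥ x ∈ Bh) ∧
      (∀ x, S.B x u = 0 → A *ᵥ x = f x z₀ • d) ∧
      (∀ x y, f (A *ᵥ x) y = - f x (A *ᵥ y)) := by
  obtain ⟨A, hA⟩ : ∃ A : Matrix ι ι F, A = (γ : Matrix ι ι F) - 1 := ⟨_, rfl⟩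
  have hAx : ∀ x : ι → F, A *ᵥ x = (γ : Matrix ι ι F) *ᵥ x - x := by
    intro x
    rw [hA, Matrix.sub_mulVec, Matrix.one_mulVec]
  have hA1 : ∀ x, A *ᵥ x ∈ Bh := by
    intro x
    rw [hAx]
    exact hγB x
  have hA2 : ∀ x, S.B x u = 0 → A *ᵥ x = f x z₀ • d := by
    intro x hx
    rw [hAx, hγp x hx, add_sub_cancel_left]
  have hA3 : ∀ x y, f (A *ᵥ x) y = - f x (A *ᵥ y) := by
    intro x y
    have h := hMf γ hγM x y
    have ex : (γ : Matrix ι ι F) *ᵥ x = x + A *ᵥ x := by rw [hAx]; abel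
    have ey : (γ : Matrix ι ι F) *ᵥ y = y + A *ᵥ y := by rw [hAx]; abel
    rw [ex, ey, hf.bilinear.add_left, hf.bilinear.add_right, hf.bilinear.add_right,
      hBiso _ (hA1 x) _ (hA1 y)] at h
    linear_combination h
  have hA4 : A * A = 0 := by
    apply Matrix.mulVec_injective
    funext x
    rw [← Matrix.mulVec_mulVec, Matrix.zero_mulVec, hA2 _ (hBperp _ (hA1 x)),
      hBiso _ (hA1 x) _ hz₀, zero_smul]
  have hγ1 : (γ : Matrix ι ι F) = 1 + A := by rw [hA, add_sub_cancel]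
  refine ⟨A, hγ1, ?_, hA4, hA1, hA2, hA3⟩
  have h1 : ((γ⁻¹ : GL ι F) : Matrix ι ι F) * (γ : Matrix ι ι F) = 1 := by
    rw [← Units.val_mul, inv_mul_cancel, Units.val_one]
  have h2 : (1 + A) * (1 - A) = 1 := by
    have h3 : (1 + A) * (1 - A) = 1 - A * A := by noncomm_ring
    rw [h3, hA4, sub_zero]
  calc ((γ⁻¹ : GL ι F) : Matrix ι ι F)
      = ((γ⁻¹ : GL ι F) : Matrix ι ι F) * ((1 + A) * (1 - A)) := by rw [h2, mul_one]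
    _ = (((γ⁻¹ : GL ι F) : Matrix ι ι F) * (γ : Matrix ι ι F)) * (1 - A) := by
        rw [← hγ1, mul_assoc]
    _ = 1 - A := by rw [h1, one_mul]

/-- A torus-like element of `NG` normalised at `z₀`. -/
lemma exists_torus_norm (hf : Cfsg.Geo.IsSymplecticForm f) {u z₀ : ι → F} (hu : u ≠ 0)
    (hz₀u : z₀ ∉ S.line u) {κ : L} (hκ : κ ≠ 0) :
    ∃ n ∈ S.NG, (n : Matrix ι ι F) *ᵥ u = S.φ κ *ᵥ u ∧ f ((n : Matrix ι ι F) *ᵥ z₀) z₀ = 1 := by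
  obtain ⟨n₀, hn₀, hn₀u⟩ := S.exists_NG_torus hf hu hκ
  have hz₁ : (n₀ : Matrix ι ι F) *ᵥ z₀ ∉ S.line u := by
    intro h
    obtain ⟨l, hl⟩ := S.mem_line.mp h
    apply hz₀u
    refine S.mem_line.mpr ⟨l * κ⁻¹, ?_⟩
    apply gl_mulVec_inj n₀
    rw [S.NG_act hn₀, hn₀u, ← S.φ_mul_mulVec, mul_assoc, inv_mul_cancel₀ hκ, mul_one, hl]
  obtain ⟨w, hw1, hw2, hw3⟩ := S.exists_perp_two_ne hf hz₀u hz₁
  have hw2' : S.B w z₀ ≠ 0 := by rw [S.B_skew]; exact neg_ne_zero.mpr hw2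
  obtain ⟨a, ha⟩ := S.exists_β_eq (mul_ne_zero hw3 hw2')
    (1 - f ((n₀ : Matrix ι ι F) *ᵥ z₀) z₀)
  refine ⟨S.T w a * n₀, S.NG.mul_mem (S.T_mem_NG _ _) hn₀, ?_, ?_⟩
  · rw [gl_mul_mulVec, hn₀u, S.T_mulVec, S.B_act, hw1, mul_zero, mul_zero, S.φ_zero_mulVec,
      add_zero]
  · rw [gl_mul_mulVec, S.T_mulVec, hf.bilinear.add_left, S.f_act, mul_assoc, ha]
    ring

/-- The commutator step. -/
lemma SP_step (hf : Cfsg.Geo.IsSymplecticForm f) (M : Subgroup (GL ι F)) (hNM : S.NG ≤ M)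
    (hMf : ∀ g ∈ M, ∀ x y : ι → F,
      f ((g : Matrix ι ι F) *ᵥ x) ((g : Matrix ι ι F) *ᵥ y) = f x y)
    {u : ι → F} (hu : u ≠ 0) (Bh D : Submodule F (ι → F)) (hD : D ≤ S.line u)
    (hBperp : ∀ y ∈ Bh, S.B y u = 0) (hBiso : ∀ y ∈ Bh, ∀ y' ∈ Bh, f y y' = 0)
    {z₀ : ι → F} (hz₀ : z₀ ∈ Bh) (hz₀u : z₀ ∉ S.line u)
    (hγ : ∀ d ∈ D, ∃ γ ∈ M, (∀ x : ι → F, (γ : Matrix ι ι F) *ᵥ x - x ∈ Bh) ∧
        ∀ x : ι → F, S.B x u = 0 → (γ : Matrix ι ι F) *ᵥ x = x + f x z₀ • d)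
    {d d' : ι → F} (hd : d ∈ D) (hd' : d' ∈ D) {κ : L} (hκ : κ ≠ 0) :
    SP f M 1 d (S.φ κ *ᵥ d') := by
  obtain ⟨γ, hγM, hγB, hγp⟩ := hγ d hd
  obtain ⟨γ', hγ'M, hγ'B, hγ'p⟩ := hγ d' hd'
  obtain ⟨A, hγ1, hγi, hAA, hA1, hA2, hA3⟩ :=
    S.transv_data hf M hMf Bh hBperp hBiso hz₀ hγM hγB hγp
  obtain ⟨A', hγ'1, hγ'i, hAA', hA'1, hA'2, hA'3⟩ :=
    S.transv_data hf M hMf Bh hBperp hBiso hz₀ hγ'M hγ'B hγ'p
  obtain ⟨n, hn, hnu, hnz⟩ := S.exists_torus_norm hf hu hz₀u hκ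
  -- properties of `n`
  have hn1 : ∀ y ∈ S.line u, (n : Matrix ι ι F) *ᵥ y = S.φ κ *ᵥ y := by
    intro y hy
    obtain ⟨k, rfl⟩ := S.mem_line.mp hy
    rw [S.NG_act hn, hnu, ← S.φ_mul_mulVec, ← S.φ_mul_mulVec, mul_comm]
  have hnu' : (n : Matrix ι ι F) *ᵥ (S.φ κ⁻¹ *ᵥ u) = u := by
    rw [S.NG_act hn, hnu, S.φ_inv_cancel hκ]
  have hn2 : ∀ x, S.B x u = 0 → S.B ((n : Matrix ι ι F) *ᵥ x) u = 0 := by
    intro x hx
    have h := S.NG_B hn x (S.φ κ⁻¹ *ᵥ u)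
    rw [hnu', S.B_act_right, hx, mul_zero] at h
    exact h
  have hn3 : ∀ x, S.B x u = 0 → S.B (((n⁻¹ : GL ι F) : Matrix ι ι F) *ᵥ x) u = 0 := by
    intro x hx
    have h := S.NG_B hn (((n⁻¹ : GL ι F) : Matrix ι ι F) *ᵥ x) u
    rw [gl_mulVec_inv', hnu, S.B_act_right, hx, mul_zero] at h
    exact h.symm
  have hnd' : (n : Matrix ι ι F) *ᵥ d' ∈ S.line u := by
    rw [hn1 d' (hD hd')]
    exact S.line_act_mem (hD hd') κ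
  have hz₀p : S.B z₀ u = 0 := hBperp z₀ hz₀
  have hnn : (n : Matrix ι ι F) * ((n⁻¹ : GL ι F) : Matrix ι ι F) = 1 := by
    rw [← Units.val_mul, mul_inv_cancel, Units.val_one]
  have hnn' : ((n⁻¹ : GL ι F) : Matrix ι ι F) * (n : Matrix ι ι F) = 1 := by
    rw [← Units.val_mul, inv_mul_cancel, Units.val_one]
  obtain ⟨Bm, hBm⟩ : ∃ Bm : Matrix ι ι F,
      Bm = (n : Matrix ι ι F) * A' * ((n⁻¹ : GL ι F) : Matrix ι ι F) := ⟨_, rfl⟩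
  have hBmx : ∀ x : ι → F, Bm *ᵥ x =
      (n : Matrix ι ι F) *ᵥ (A' *ᵥ (((n⁻¹ : GL ι F) : Matrix ι ι F) *ᵥ x)) := by
    intro x
    rw [hBm, Matrix.mulVec_mulVec, Matrix.mulVec_mulVec]
  have c1 : ∀ x, S.B (Bm *ᵥ x) u = 0 := by
    intro x
    rw [hBmx]
    exact hn2 _ (hBperp _ (hA'1 _))
  have c2 : ∀ x, S.B (A *ᵥ x) u = 0 := fun x => hBperp _ (hA1 x)
  have e1 : A' *ᵥ (((n⁻¹ : GL ι F) : Matrix ι ι F) *ᵥ z₀) = -d' := by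
    rw [hA'2 _ (hn3 z₀ hz₀p), S.NG_iso2 hn, hf.skew, hnz, neg_smul, one_smul]
  have e2 : A *ᵥ ((n : Matrix ι ι F) *ᵥ z₀) = d := by
    rw [hA2 _ (hn2 z₀ hz₀p), hnz, one_smul]
  have c3 : ∀ x, A *ᵥ (Bm *ᵥ x) = f x ((n : Matrix ι ι F) *ᵥ d') • d := by
    intro x
    rw [hA2 _ (c1 x), hBmx, S.NG_iso1 hn, hA'3, e1, S.NG_iso2 hn, Matrix.mulVec_neg,
      form_neg_right hf.bilinear, neg_neg]
  have c4 : ∀ x, Bm *ᵥ (A *ᵥ x) = -(f x d • ((n : Matrix ι ι F) *ᵥ d')) := by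
    intro x
    rw [hBmx, hA'2 _ (hn3 _ (c2 x)), S.NG_iso2 hn, hA3, e2, Matrix.mulVec_smul, neg_smul]
  have hBB : Bm * Bm = 0 := by
    rw [hBm]
    calc (n : Matrix ι ι F) * A' * ((n⁻¹ : GL ι F) : Matrix ι ι F) *
          ((n : Matrix ι ι F) * A' * ((n⁻¹ : GL ι F) : Matrix ι ι F))
        = (n : Matrix ι ι F) * A' * (((n⁻¹ : GL ι F) : Matrix ι ι F) * (n : Matrix ι ι F)) * A' *
            ((n⁻¹ : GL ι F) : Matrix ι ι F) := by simp only [mul_assoc]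
      _ = 0 := by rw [hnn', mul_one, mul_assoc (n : Matrix ι ι F), hAA', mul_zero, zero_mul]
  have hABA : A * Bm * A = 0 := by
    apply Matrix.mulVec_injective
    funext x
    rw [← Matrix.mulVec_mulVec, ← Matrix.mulVec_mulVec, c3, S.f_perp_line (c2 x) hnd', zero_smul,
      Matrix.zero_mulVec]
  have hBAB : Bm * A * Bm = 0 := by
    apply Matrix.mulVec_injective
    funext x
    rw [← Matrix.mulVec_mulVec, ← Matrix.mulVec_mulVec, c4, S.f_perp_line (c1 x) (hD hd),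
      zero_smul, neg_zero, Matrix.zero_mulVec]
  refine ⟨γ * (n * γ' * n⁻¹) * γ⁻¹ * (n * γ'⁻¹ * n⁻¹), ?_, fun x => ?_⟩
  · have hnM := hNM hn
    exact M.mul_mem (M.mul_mem (M.mul_mem hγM (M.mul_mem (M.mul_mem hnM hγ'M) (M.inv_mem hnM)))
      (M.inv_mem hγM)) (M.mul_mem (M.mul_mem hnM (M.inv_mem hγ'M)) (M.inv_mem hnM))
  · have hval : ((γ * (n * γ' * n⁻¹) * γ⁻¹ * (n * γ'⁻¹ * n⁻¹) : GL ι F) : Matrix ι ι F) =
        1 + A * Bm - Bm * A := by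
      have h1 : (n : Matrix ι ι F) * (1 + A') * ((n⁻¹ : GL ι F) : Matrix ι ι F) = 1 + Bm := by
        rw [hBm, mul_add, add_mul, mul_one, hnn]
      have h2 : (n : Matrix ι ι F) * (1 - A') * ((n⁻¹ : GL ι F) : Matrix ι ι F) = 1 - Bm := by
        rw [hBm, mul_sub, sub_mul, mul_one, hnn]
      simp only [Units.val_mul]
      rw [hγ1, hγi, hγ'1, hγ'i, h1, h2]
      exact comm_sq_zero A Bm hAA hBB hABA hBAB
    rw [← hn1 d' (hD hd'), hval, Matrix.sub_mulVec, Matrix.add_mulVec, Matrix.one_mulVec,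
      ← Matrix.mulVec_mulVec, ← Matrix.mulVec_mulVec, c3, c4, one_smul]
    abel

theorem SP_of_transv (hf : Cfsg.Geo.IsSymplecticForm f) [FiniteDimensional F L]
    (hr2 : 2 ≤ Module.finrank F L)
    (M : Subgroup (GL ι F)) (hNM : S.NG ≤ M)
    (hMf : ∀ g ∈ M, ∀ x y : ι → F,
      f ((g : Matrix ι ι F) *ᵥ x) ((g : Matrix ι ι F) *ᵥ y) = f x y)
    {u : ι → F} (hu : u ≠ 0) (Bh D : Submodule F (ι → F)) (hD : D ≤ S.line u) (hDB : D ≤ Bh)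
    (hDrank : Module.finrank F ↥D + 1 = Module.finrank F L)
    (hBperp : ∀ y ∈ Bh, S.B y u = 0) (hBiso : ∀ y ∈ Bh, ∀ y' ∈ Bh, f y y' = 0)
    {z₀ : ι → F} (hz₀ : z₀ ∈ Bh) (hz₀u : z₀ ∉ S.line u)
    (hγ : ∀ d ∈ D, ∃ γ ∈ M, (∀ x : ι → F, (γ : Matrix ι ι F) *ᵥ x - x ∈ Bh) ∧
        ∀ x : ι → F, S.B x u = 0 → (γ : Matrix ι ι F) *ᵥ x = x + f x z₀ • d) :
    ∀ y ∈ S.line u, ∀ y' ∈ S.line u, SP f M 1 y y' := by
  -- a non-zero element of `D`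
  have hDpos : 0 < Module.finrank F ↥D := by omega
  obtain ⟨⟨δ, hδD⟩, hδ0⟩ := Module.finrank_pos_iff_exists_ne_zero.mp hDpos
  have hδ : δ ≠ 0 := fun h => hδ0 (Subtype.ext h)
  obtain ⟨kδ, hkδ⟩ := S.mem_line.mp (hD hδD)
  have hkδ0 : kδ ≠ 0 := by
    rintro rfl
    rw [S.φ_zero_mulVec] at hkδ
    exact hδ hkδ.symm
  -- (D1)
  have D1 : ∀ d ∈ D, ∀ y' ∈ S.line u, SP f M 1 d y' := by
    intro d hd y' hy'
    rcases eq_or_ne y' 0 with rfl | hy'0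
    · exact S.SP_zero_right M 1 d
    obtain ⟨k', rfl⟩ := S.mem_line.mp hy'
    have hk'0 : k' ≠ 0 := by
      rintro rfl
      exact hy'0 (S.φ_zero_mulVec u)
    have h1 := S.SP_step hf M hNM hMf hu Bh D hD hBperp hBiso hz₀ hz₀u hγ hd hδD
      (κ := k' * kδ⁻¹) (mul_ne_zero hk'0 (inv_ne_zero hkδ0))
    rw [← hkδ, ← S.φ_mul_mulVec, mul_assoc, inv_mul_cancel₀ hkδ0, mul_one] at h1
    exact h1
  intro y hy y' hy'
  rcases eq_or_ne y 0 with rfl | hy0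
  · exact SP_symm (S.SP_zero_right M 1 y')
  obtain ⟨k, rfl⟩ := S.mem_line.mp hy
  have hk0 : k ≠ 0 := by
    rintro rfl
    exact hy0 (S.φ_zero_mulVec u)
  have hκ1 : k * kδ⁻¹ ≠ 0 := mul_ne_zero hk0 (inv_ne_zero hkδ0)
  obtain ⟨n₁, hn₁, hn₁u⟩ := S.exists_NG_torus hf hu hκ1
  have hn₁W : ∀ y ∈ S.line u, (n₁ : Matrix ι ι F) *ᵥ y = S.φ (k * kδ⁻¹) *ᵥ y := by
    intro y hy
    obtain ⟨l, rfl⟩ := S.mem_line.mp hy
    rw [S.NG_act hn₁, hn₁u, ← S.φ_mul_mulVec, ← S.φ_mul_mulVec, mul_comm]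
  have h2 := SP_conj (D1 δ hδD (S.φ (k * kδ⁻¹)⁻¹ *ᵥ y')
    (S.line_act_mem hy' _)) (hNM hn₁) (S.NG_f hn₁)
  rw [hn₁W δ (hD hδD), hn₁W _ (S.line_act_mem hy' _), S.φ_cancel_inv hκ1,
    ← hkδ, ← S.φ_mul_mulVec, mul_assoc, inv_mul_cancel₀ hkδ0, mul_one] at h2
  exact h2

end KS

end Cfsg.Agent.Lib.Helper71.SpK
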