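import Mathlib
import Cfsg.Prelude.Def_GeometricClasses
import Cfsg.Agent.Lib.Helper71.SpK1

/-!
# S5664, piece J2: an element of `M` fixing a vector and moving its `L`-line (helper71)
-/

set_option autoImplicit false

namespace Cfsg.Agent.Lib.Helper71.SpK

open Matrix Cfsg.Agent.Lib.Helper97

variable {ι : Type} [Fintype ι] [DecidableEq ι] {F : Type*} [Field F]

namespace KS

variable {f : (ι → F) → (ι → F) → F} {L : Type*} [Field L] [Algebra F L] (S : KS f L)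

theorem exists_fix_moved (hf : Cfsg.Geo.IsSymplecticForm f) (M : Subgroup (GL ι F))
    (hNM : S.NG ≤ M) (h : GL ι F) (hhM : h ∈ M)
    (hh : h ∉ Cfsg.Geo.subalgebraNormalizer S.φ.range) :
    ∃ (u : ι → F) (g : GL ι F), u ≠ 0 ∧ g ∈ M ∧ (g : Matrix ι ι F) *ᵥ u = u ∧
      gim (S.line u) g ≠ S.line u := by
  have step1 : ∃ h₁ ∈ M, ∃ ω : L, ∀ l : L,
      (h₁ : Matrix ι ι F) * S.φ ω * ((h₁⁻¹ : GL ι F) : Matrix ι ι F) ≠ S.φ l := by
    by_contra hcon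
    push Not at hcon
    apply hh
    show ∀ k : Matrix ι ι F, k ∈ S.φ.range ↔
      (h : Matrix ι ι F) * k * ((h⁻¹ : GL ι F) : Matrix ι ι F) ∈ S.φ.range
    intro k
    constructor
    · rintro ⟨ω, rfl⟩
      obtain ⟨l, hl⟩ := hcon h hhM ω
      exact ⟨l, hl.symm⟩
    · rintro ⟨ω, hω⟩
      obtain ⟨l, hl⟩ := hcon h⁻¹ (M.inv_mem hhM) ω
      refine ⟨l, ?_⟩
      have hω' : S.φ ω = (h : Matrix ι ι F) * k * ((h⁻¹ : GL ι F) : Matrix ι ι F) := hω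
      have h1 : ((h⁻¹ : GL ι F) : Matrix ι ι F) * (h : Matrix ι ι F) = 1 := by
        rw [← Units.val_mul, inv_mul_cancel, Units.val_one]
      show S.φ l = k
      rw [← hl, hω', inv_inv]
      calc ((h⁻¹ : GL ι F) : Matrix ι ι F) *
            ((h : Matrix ι ι F) * k * ((h⁻¹ : GL ι F) : Matrix ι ι F)) * (h : Matrix ι ι F)
          = (((h⁻¹ : GL ι F) : Matrix ι ι F) * (h : Matrix ι ι F)) * k *
            (((h⁻¹ : GL ι F) : Matrix ι ι F) * (h : Matrix ι ι F)) := by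
            simp only [mul_assoc]
        _ = k := by rw [h1, one_mul, mul_one]
  obtain ⟨h₁, hh₁M, ω, hω⟩ := step1
  obtain ⟨w, hw⟩ : ∃ w : ι → F, ∀ l : L,
      ((h₁ : Matrix ι ι F) * S.φ ω * ((h₁⁻¹ : GL ι F) : Matrix ι ι F)) *ᵥ w ≠ S.φ l *ᵥ w := by
    by_contra hcon
    push Not at hcon
    obtain ⟨l, hl⟩ := S.mem_range_of_forall_line hf _ hcon
    exact hω l hl
  have hw0 : w ≠ 0 := by
    rintro rfl
    exact hw 0 (by rw [Matrix.mulVec_zero, Matrix.mulVec_zero])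
  obtain ⟨u, hu_def⟩ : ∃ u, u = ((h₁⁻¹ : GL ι F) : Matrix ι ι F) *ᵥ w := ⟨_, rfl⟩
  have hu : u ≠ 0 := by
    rw [hu_def]
    exact gl_mulVec_ne_zero h₁⁻¹ hw0
  obtain ⟨n, hn, hnw⟩ := S.exists_NG_map hf hw0 hu
  have hh₁u : (h₁ : Matrix ι ι F) *ᵥ u = w := by rw [hu_def, gl_mulVec_inv']
  refine ⟨u, n * h₁, hu, M.mul_mem (hNM hn) hh₁M, ?_, ?_⟩
  · rw [gl_mul_mulVec, hh₁u, hnw]
  · intro heq
    have hv : ((n * h₁ : GL ι F) : Matrix ι ι F) *ᵥ (S.φ ω *ᵥ u) ∈ S.line u := by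
      rw [← heq]
      exact mulVec_mem_gim _ (S.act_mem_line ω u)
    obtain ⟨l, hl⟩ := S.mem_line.mp hv
    apply hw l
    apply gl_mulVec_inj n
    have e1 : ((h₁ : Matrix ι ι F) * S.φ ω * ((h₁⁻¹ : GL ι F) : Matrix ι ι F)) *ᵥ w =
        (h₁ : Matrix ι ι F) *ᵥ (S.φ ω *ᵥ u) := by
      rw [hu_def, Matrix.mulVec_mulVec, Matrix.mulVec_mulVec]
    rw [e1, S.NG_act hn, hnw, hl, gl_mul_mulVec]

end KS

end Cfsg.Agent.Lib.Helper71.SpK
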