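import Mathlib
import Cfsg.Prelude.Def_GeometricClasses
import Cfsg.Agent.Lib.Helper71.SpK1
import Cfsg.Agent.Lib.Helper71.SpK2
import Cfsg.Agent.Lib.Helper71.SpK11
import Cfsg.Agent.Lib.Helper58.SpKJ3
import Cfsg.Agent.Lib.Helper58.SpKJ8
import Cfsg.Agent.Lib.Helper94.SpJ4
import Cfsg.Agent.Lib.Helper34.SpKJ5
import Cfsg.Agent.Lib.Helper51.SpKJ10
import Cfsg.Agent.Lib.Helper16.SpKJ6
import Cfsg.Agent.Lib.Helper81.SpJ7
import Cfsg.Agent.Lib.Helper84.SpJ9
import Cfsg.Agent.Lib.Helper85.SpJ12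

/-!
# S5664: overgroups of the `L`-linear isometry group (helper71; assembly of the pieces J1–J12)

If `M` contains all `L`-linear isometries, consists of isometries of `f`, and contains an element
not normalising the image of `L`, then every vector is the centre of symplectic transvections in
`M`.
-/

set_option autoImplicit false

namespace Cfsg.Agent.Lib.Helper71.SpK

open Matrix Cfsg.Agent.Lib.Helper97

variable {ι : Type} [Fintype ι] [DecidableEq ι] {F : Type*} [Field F]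

namespace KS

variable {f : (ι → F) → (ι → F) → F} {L : Type*} [Field L] [Algebra F L] (S : KS f L)

theorem InS_all (hf : Cfsg.Geo.IsSymplecticForm f) (M : Subgroup (GL ι F)) (hNM : S.NG ≤ M)
    {v₀ : ι → F} (hv₀ : v₀ ≠ 0) (h : InS f M v₀) : ∀ v, InS f M v := by
  intro v
  by_cases hv : v = 0
  · rw [hv]
    exact InS_zero hf M
  · obtain ⟨g, hg, hgv⟩ := S.exists_NG_map hf hv₀ hv
    rw [← hgv]
    exact InS_conj hf (hNM hg) (S.NG_f hg) h

lemma gim_line_iso {M : Subgroup (GL ι F)}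
    (hMf : ∀ g ∈ M, ∀ x y : ι → F,
      f ((g : Matrix ι ι F) *ᵥ x) ((g : Matrix ι ι F) *ᵥ y) = f x y)
    {g : GL ι F} (hg : g ∈ M) (u : ι → F) :
    ∀ y ∈ gim (S.line u) g, ∀ y' ∈ gim (S.line u) g, f y y' = 0 := by
  intro y hy y' hy'
  obtain ⟨w, hw, rfl⟩ := mem_gim'.mp hy
  obtain ⟨w', hw', rfl⟩ := mem_gim'.mp hy'
  rw [hMf g hg]
  exact S.f_line_line hw hw'

theorem overgroup (hf : Cfsg.Geo.IsSymplecticForm f) [FiniteDimensional F L] [Finite F]
    (hr : (Module.finrank F L).Prime) (hcard : 14 ≤ Fintype.card ι)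
    (M : Subgroup (GL ι F)) (hNM : S.NG ≤ M)
    (hMf : ∀ g ∈ M, ∀ x y : ι → F,
      f ((g : Matrix ι ι F) *ᵥ x) ((g : Matrix ι ι F) *ᵥ y) = f x y)
    (h : GL ι F) (hhM : h ∈ M) (hh : h ∉ Cfsg.Geo.subalgebraNormalizer S.φ.range) :
    ∀ v, InS f M v := by
  obtain ⟨u, g₀, hu, hg₀M, hg₀u, hg₀ne⟩ := S.exists_fix_moved hf M hNM h hhM hh
  obtain ⟨h', hh'M, hne, hle, hmax, hmax'⟩ :=
    Cfsg.Agent.Lib.Helper58.SpKJ.exists_maxP M (S.line u) g₀ hg₀M hg₀ne
  have hD : S.line u ⊓ gim (S.line u) h' ≠ ⊥ := by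
    have hu_mem : u ∈ S.line u ⊓ gim (S.line u) g₀ := by
      refine ⟨S.self_mem_line u, ?_⟩
      have h1 := mulVec_mem_gim g₀ (S.self_mem_line u)
      rwa [hg₀u] at h1
    intro hbot
    have h0 : Module.finrank F ↥(S.line u ⊓ gim (S.line u) h') = 0 := by
      rw [hbot]
      exact finrank_bot F (ι → F)
    have hpos : 0 < Module.finrank F ↥(S.line u ⊓ gim (S.line u) g₀) := by
      apply Module.finrank_pos_iff_exists_ne_zero.mpr
      exact ⟨⟨u, hu_mem⟩, fun h => hu (congrArg Subtype.val h)⟩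
    omega
  have key : ∃ (u' : ι → F) (σ : F), u' ≠ 0 ∧ σ ≠ 0 ∧
      ∀ y ∈ S.line u', ∀ y' ∈ S.line u', SP f M σ y y' := by
    have fromCfg : ∀ (u₃ : ι → F) (g : GL ι F), S.Cfg2 M u₃ g →
        ∃ (u' : ι → F) (σ : F), u' ≠ 0 ∧ σ ≠ 0 ∧
          ∀ y ∈ S.line u', ∀ y' ∈ S.line u', SP f M σ y y' := by
      intro u₃ g hcfg
      obtain ⟨z₀, hz₀, hz₀u, hγ⟩ :=
        Cfsg.Agent.Lib.Helper51.SpKJ10.cfg2_transv S M hNM hMf hcfg
      refine ⟨u₃, 1, hcfg.2.1, one_ne_zero, ?_⟩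
      exact S.SP_of_transv hf hr.two_le M hNM hMf hcfg.2.1 (gim (S.line u₃) g)
        (S.line u₃ ⊓ gim (S.line u₃) g) inf_le_left inf_le_right hcfg.2.2.2 hcfg.2.2.1
        (S.gim_line_iso hMf hcfg.1 u₃) hz₀ hz₀u hγ
    by_cases hperp : ∀ y ∈ gim (S.line u) h', S.B y u = 0
    · exact fromCfg u h'
        (Cfsg.Agent.Lib.Helper16.SpKJ6.case2_cfg S hf hr M hNM hu hh'M hne hD hmax hperp)
    · push Not at hperp
      obtain ⟨y₀, hy₀, hy₀u⟩ := hperp
      have hline := Cfsg.Agent.Lib.Helper94.SpJ4.case1_line S hr M hNM hu hne hD hmax hy₀ hy₀u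
      have hperp1 := Cfsg.Agent.Lib.Helper34.SpKJ5.case1_perp S M hNM hu hmax hy₀ hy₀u
      by_cases hbig : 2 * Module.finrank F L < Fintype.card ι
      · obtain ⟨u₃, g, hcfg⟩ :=
          Cfsg.Agent.Lib.Helper81.SpJ7.case1_red S hf hr.two_le hbig M hNM hMf hu hh'M hy₀ hy₀u
            hline hperp1
        exact fromCfg u₃ g hcfg
      · have hr3 : 3 ≤ Module.finrank F L := by omega
        have hne' : gim (S.line u) h'⁻¹ ≠ S.line u := by
          intro h1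
          apply hne
          have h2 := gim_inv_gim (S.line u) h'
          rw [h1] at h2
          exact h2
        have hD' : S.line u ⊓ gim (S.line u) h'⁻¹ ≠ ⊥ := by
          obtain ⟨z, hz, hz0⟩ := (Submodule.ne_bot_iff _).mp hD
          intro hbot
          have h1 : ((h'⁻¹ : GL ι F) : Matrix ι ι F) *ᵥ z ∈
              S.line u ⊓ gim (S.line u) h'⁻¹ :=
            ⟨mem_gim.mp hz.2, mulVec_mem_gim h'⁻¹ hz.1⟩
          rw [hbot, Submodule.mem_bot] at h1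
          exact gl_mulVec_ne_zero h'⁻¹ hz0 h1
        have hh'inv : h'⁻¹ ∈ M := M.inv_mem hh'M
        obtain ⟨y₀', hy₀', hy₀'u⟩ : ∃ y₀' ∈ gim (S.line u) h'⁻¹, S.B y₀' u ≠ 0 := by
          obtain ⟨l, hl⟩ : ∃ l : L, S.β (S.B y₀ u * l) ≠ 0 := by
            by_contra hcon
            push Not at hcon
            exact hy₀u (S.β_nondeg hcon)
          refine ⟨((h'⁻¹ : GL ι F) : Matrix ι ι F) *ᵥ (S.φ l *ᵥ u),
            mulVec_mem_gim h'⁻¹ (S.act_mem_line l u), fun h0 => hl ?_⟩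
          obtain ⟨k, hk⟩ := S.mem_line.mp (mem_gim.mp hy₀)
          have h1 : f y₀ (S.φ l *ᵥ u) = f (((h'⁻¹ : GL ι F) : Matrix ι ι F) *ᵥ y₀)
              (((h'⁻¹ : GL ι F) : Matrix ι ι F) *ᵥ (S.φ l *ᵥ u)) := (hMf _ hh'inv _ _).symm
          rw [← hk, S.f_act, S.B_skew, h0, neg_zero, mul_zero, map_zero, S.f_act_right] at h1
          rw [mul_comm]
          exact h1
        have hline' :=
          Cfsg.Agent.Lib.Helper94.SpJ4.case1_line S hr M hNM hu hne' hD' hmax' hy₀' hy₀'u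
        obtain ⟨τ, hτ, hSP⟩ :=
          Cfsg.Agent.Lib.Helper58.SpKJ.case1_SP S M hNM hMf hu hh'M hy₀ hy₀u hline hy₀' hy₀'u
            hline'
        have hrank := Cfsg.Agent.Lib.Helper34.SpKJ5.case1_finrank S hu hy₀ hy₀u hline hperp1
        exact ⟨u, τ, hu, hτ,
          Cfsg.Agent.Lib.Helper84.SpJ9.SP_all_of_hyperplane S hf hr3 M hNM hu _ inf_le_left
            hrank hSP⟩
  obtain ⟨u', σ, hu', hσ, hSP⟩ := key
  obtain ⟨v, hv, hInS⟩ :=
    Cfsg.Agent.Lib.Helper85.SpJ12.exists_InS_of_SP S hf M hNM hu' hσ hSP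
  exact S.InS_all hf M hNM hv hInS

end KS

end Cfsg.Agent.Lib.Helper71.SpK
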