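import Mathlib
import Cfsg.Prelude.Def_GeometricClasses
import Cfsg.Agent.Lib.Helper97.Transv
import Cfsg.Agent.Lib.Helper97.TransvM
import Cfsg.Agent.Lib.Helper71.TP0
import Cfsg.Agent.Lib.Helper71.TP1
import Cfsg.Agent.Lib.Helper19.TPTMC

/-!
# S5637 pieces FAM1, FAM2: two families of transvections from commutators
-/

set_option autoImplicit false

namespace Cfsg.Agent.Lib.Helper71.TPFAM

open Matrix Cfsg.Agent.Lib.Helper71.TP Cfsg.Agent.Lib.Helper97 Cfsg.Agent.Lib.Helper19.TPTMC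
open scoped Kronecker

variable {a b : ℕ} {F : Type*} [Field F]

/-- `u ↦ φ ⬝ u` as a linear map. -/
def dotL {n : ℕ} (φ : Fin n → F) : (Fin n → F) →ₗ[F] F where
  toFun := fun u => φ ⬝ᵥ u
  map_add' := fun u u' => dotProduct_add φ u u'
  map_smul' := fun c u => by simp [dotProduct_smul]

lemma exists_ker {n : ℕ} (hn : 2 ≤ n) (φ : Fin n → F) : ∃ u : Fin n → F, u ≠ 0 ∧ φ ⬝ᵥ u = 0 := by
  have hdim : Module.finrank F F < Module.finrank F (Fin n → F) := by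
    rw [Module.finrank_self, Module.finrank_fin_fun]; omega
  have hker := LinearMap.ker_ne_bot_of_finrank_lt (f := dotL φ) hdim
  obtain ⟨u, hu, hu0⟩ := Submodule.exists_mem_ne_zero_of_ne_bot hker
  exact ⟨u, hu0, LinearMap.mem_ker.mp hu⟩

lemma exists_ker2 {n : ℕ} (hn : 3 ≤ n) (φ φ' : Fin n → F) :
    ∃ u : Fin n → F, u ≠ 0 ∧ φ ⬝ᵥ u = 0 ∧ φ' ⬝ᵥ u = 0 := by
  have hdim : Module.finrank F (F × F) < Module.finrank F (Fin n → F) := by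
    rw [Module.finrank_prod, Module.finrank_self, Module.finrank_fin_fun]; omega
  have hker := LinearMap.ker_ne_bot_of_finrank_lt (f := LinearMap.prod (dotL φ) (dotL φ')) hdim
  obtain ⟨u, hu, hu0⟩ := Submodule.exists_mem_ne_zero_of_ne_bot hker
  have h := LinearMap.mem_ker.mp hu
  have h1 : φ ⬝ᵥ u = 0 := congrArg Prod.fst h
  have h2 : φ' ⬝ᵥ u = 0 := congrArg Prod.snd h
  exact ⟨u, hu0, h1, h2⟩

lemma exists_dot_one {n : ℕ} (u : Fin n → F) (hu : u ≠ 0) : ∃ φ : Fin n → F, φ ⬝ᵥ u = 1 := by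
  have h : u ∉ (⊥ : Submodule F (Fin n → F)) := fun h => hu ((Submodule.mem_bot F).mp h)
  obtain ⟨φ, -, h1⟩ := exists_dot _ u h
  exact ⟨φ, h1⟩

/-- FAM1 -/
theorem fam1 (ha : 2 ≤ a) (hb : 3 ≤ b) (M : Subgroup (GL (Fin a × Fin b) F))
    (h0 : ∀ (u φ : Fin a → F) (w ψ : Fin b → F), φ ⬝ᵥ u = 0 → ψ ⬝ᵥ w = 0 →
      TM M (pt u w) (pt φ ψ)) :
    ∀ (u φ : Fin a → F) (w ψ : Fin b → F), ψ ⬝ᵥ w = 0 → TM M (pt u w) (pt φ ψ) := by
  intro u φ w ψ hψw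
  by_cases hφu : φ ⬝ᵥ u = 0
  · exact h0 u φ w ψ hφu hψw
  by_cases hw : w = 0
  · subst hw
    have h := h0 (0 : Fin a → F) φ (0 : Fin b → F) ψ (by simp) (by simp)
    simpa using h
  -- main case
  obtain ⟨u₂, hu₂0, hu₂⟩ := exists_ker ha φ
  have hu₂span : u₂ ∉ Submodule.span F {u} := by
    intro hmem
    obtain ⟨c, rfl⟩ := Submodule.mem_span_singleton.mp hmem
    rw [dotProduct_smul, smul_eq_mul] at hu₂
    rcases mul_eq_zero.mp hu₂ with hc | hc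
    · apply hu₂0; rw [hc, zero_smul]
    · exact hφu hc
  obtain ⟨φ₁, hφ₁, hφ₁u₂⟩ := exists_dot _ u₂ hu₂span
  have hφ₁u : φ₁ ⬝ᵥ u = 0 := hφ₁ u (Submodule.mem_span_singleton_self u)
  obtain ⟨ψw, hψw1⟩ := exists_dot_one w hw
  obtain ⟨w₂, hw₂0, hw₂, hw₂'⟩ := exists_ker2 hb ψ ψw
  have hw₂span : w₂ ∉ Submodule.span F {w} := by
    intro hmem
    obtain ⟨c, rfl⟩ := Submodule.mem_span_singleton.mp hmem
    rw [dotProduct_smul, smul_eq_mul, hψw1, mul_one] at hw₂'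
    apply hw₂0; rw [hw₂', zero_smul]
  obtain ⟨ψ₁, hψ₁, hψ₁w₂⟩ := exists_dot _ w₂ hw₂span
  have hψ₁w : ψ₁ ⬝ᵥ w = 0 := hψ₁ w (Submodule.mem_span_singleton_self w)
  have T₁ := h0 u φ₁ w ψ₁ hφ₁u hψ₁w
  have T₂ := h0 u₂ φ w₂ ψ hu₂ hw₂
  have h := TM_comm M T₁ T₂ (by rw [pt_dotProduct_pt, hψw, mul_zero])
  rw [pt_dotProduct_pt, hφ₁u₂, hψ₁w₂, one_mul, one_smul] at h
  exact h

/-- FAM2 -/
theorem fam2 (ha : 2 ≤ a) (hb : 2 ≤ b) (M : Subgroup (GL (Fin a × Fin b) F))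
    (h1 : ∀ (u φ : Fin a → F) (w ψ : Fin b → F), ψ ⬝ᵥ w = 0 → TM M (pt u w) (pt φ ψ)) :
    ∀ (u φ : Fin a → F) (w ψ : Fin b → F), φ ⬝ᵥ u = 0 → TM M (pt u w) (pt φ ψ) := by
  intro u φ w ψ hφu
  by_cases hψw : ψ ⬝ᵥ w = 0
  · exact h1 u φ w ψ hψw
  by_cases hu : u = 0
  · subst hu
    have h := h1 (0 : Fin a → F) φ (0 : Fin b → F) ψ (by simp)
    simpa using h
  -- main case
  obtain ⟨φ₁, hφ₁u⟩ := exists_dot_one u hu
  obtain ⟨w₂, hw₂0, hw₂⟩ := exists_ker hb ψ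
  have hw₂span : w₂ ∉ Submodule.span F {w} := by
    intro hmem
    obtain ⟨c, rfl⟩ := Submodule.mem_span_singleton.mp hmem
    rw [dotProduct_smul, smul_eq_mul] at hw₂
    rcases mul_eq_zero.mp hw₂ with hc | hc
    · apply hw₂0; rw [hc, zero_smul]
    · exact hψw hc
  obtain ⟨ψ₁, hψ₁, hψ₁w₂⟩ := exists_dot _ w₂ hw₂span
  have hψ₁w : ψ₁ ⬝ᵥ w = 0 := hψ₁ w (Submodule.mem_span_singleton_self w)
  have T₁ := h1 u φ₁ w ψ₁ hψ₁w
  have T₂ := h1 u φ w₂ ψ hw₂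
  have h := TM_comm M T₁ T₂ (by rw [pt_dotProduct_pt, hφu, zero_mul])
  rw [pt_dotProduct_pt, hφ₁u, hψ₁w₂, one_mul, one_smul] at h
  exact h

end Cfsg.Agent.Lib.Helper71.TPFAM
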