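import Mathlib
import Cfsg.Prelude.Def_GeometricClasses
import Cfsg.Agent.Lib.Helper97.Transv
import Cfsg.Agent.Lib.Helper97.TransvM
import Cfsg.Agent.Lib.Helper71.TP0
import Cfsg.Agent.Lib.Helper71.TP1

set_option autoImplicit false

namespace Cfsg.Agent.Lib.Helper71.TPG3

open Matrix Cfsg.Agent.Lib.Helper71.TP Cfsg.Agent.Lib.Helper97
open scoped Kronecker

variable {a b : ℕ} {F : Type*} [Field F]

/-- `ψ ↦ ctr ψ v` as a linear map. -/
def ctrR (v : Fin a × Fin b → F) : (Fin b → F) →ₗ[F] (Fin a → F) where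
  toFun := fun ψ => ctr ψ v
  map_add' := fun ψ ψ' => ctr_add_left ψ ψ' v
  map_smul' := fun c ψ => by simp [ctr_smul_left]

/-- `ψ ↦ ψ ⬝ w` as a linear map. -/
def dotR (w : Fin b → F) : (Fin b → F) →ₗ[F] F where
  toFun := fun ψ => ψ ⬝ᵥ w
  map_add' := fun ψ ψ' => add_dotProduct ψ ψ' w
  map_smul' := fun c ψ => by simp [smul_dotProduct]

lemma toLin'_inj (x : GL (Fin a × Fin b) F) : Function.Injective (Matrix.toLin' x.1) := by
  intro v v' h
  apply act_injective x
  simpa [act] using h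

/-- G3, relative to the pieces F1 (`hF1`) and G1 (`hG1`) for the subgroup `M`. -/
theorem descent_step_of (hab : a < b)
    (M : Subgroup (GL (Fin a × Fin b) F)) (hNM : NN a b F ≤ M)
    (hF1 : ∀ x ∈ M, ∀ w : Fin b → F, w ≠ 0 →
      (∀ v ∈ fib (a := a) w, act x v ∈ fib (a := a) w) → x ∈ NN a b F)
    (hG1 : ∀ x ∈ M, x ∉ NN a b F → ∀ (w ψ : Fin b → F), w ≠ 0 → ψ ≠ 0 →
      ∀ h : ψ ⬝ᵥ w = 0, x * rootG w ψ h * x⁻¹ ∉ NN a b F)
    (x : GL (Fin a × Fin b) F) (hx : x ∈ M) (hxN : x ∉ NN a b F) (w : Fin b → F) (hw : w ≠ 0)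
    (hk : 1 ≤ kk x w) :
    ∃ x' ∈ M, x' ∉ NN a b F ∧ kk x w < kk x' w := by
  classical
  have hXinj : Function.Injective (Matrix.toLin' x.1) := toLin'_inj x
  have hXapp : ∀ v, Matrix.toLin' x.1 v = act x v := fun v => by simp [act]
  -- step 0: a vector of the fibre outside its image
  have h0 : ∃ a₀ ∈ fib (a := a) w, a₀ ∉ (fib (a := a) w).map (Matrix.toLin' x.1) := by
    by_contra hcon
    push Not at hcon
    have hle : fib (a := a) w ≤ (fib (a := a) w).map (Matrix.toLin' x.1) := fun v hv => hcon v hv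
    have hfr : Module.finrank F ↥(fib (a := a) w)
        = Module.finrank F ↥((fib (a := a) w).map (Matrix.toLin' x.1)) :=
      LinearEquiv.finrank_eq (Submodule.equivMapOfInjective _ hXinj _)
    have heq : fib (a := a) w = (fib (a := a) w).map (Matrix.toLin' x.1) :=
      Submodule.eq_of_le_of_finrank_eq hle hfr
    apply hxN
    apply hF1 x hx w hw
    intro v hv
    have h1 : Matrix.toLin' x.1 v ∈ (fib (a := a) w).map (Matrix.toLin' x.1) :=
      Submodule.mem_map_of_mem hv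
    rw [← heq, hXapp] at h1
    exact h1
  obtain ⟨a₀, ha₀A, ha₀⟩ := h0
  -- the subspace U₁ of those u with x (u ⊗ w) in the fibre
  let U₁ : Submodule F (Fin a → F) :=
    (fib (a := a) w).comap ((Matrix.toLin' x.1).comp (ptL (a := a) w))
  have hU₁ : ∀ u, u ∈ U₁ ↔ act x (pt u w) ∈ fib (a := a) w := by
    intro u
    simp only [U₁, Submodule.mem_comap, LinearMap.comp_apply, ptL_apply, hXapp]
  have hU₁pos : 1 ≤ Module.finrank F ↥U₁ := by
    have hK : fib (a := a) w ⊓ (fib (a := a) w).map (Matrix.toLin' x.1) ≠ ⊥ := by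
      intro h
      have h1 : kk x w = 0 := by
        unfold kk
        rw [h]
        simp
      omega
    obtain ⟨y, hy, hy0⟩ := Submodule.exists_mem_ne_zero_of_ne_bot hK
    obtain ⟨hyA, hyX⟩ := Submodule.mem_inf.mp hy
    obtain ⟨u, rfl⟩ := mem_map_fib.mp hyX
    have hu : u ∈ U₁ := (hU₁ u).mpr hyA
    have hu0 : u ≠ 0 := by
      rintro rfl
      apply hy0
      simp
    by_contra hlt
    have h0 : Module.finrank F ↥U₁ = 0 := by omega
    have h1 : U₁ = ⊥ := Submodule.finrank_eq_zero.mp h0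
    rw [h1] at hu
    exact hu0 ((Submodule.mem_bot F).mp hu)
  -- dimension count: choose ψ
  let f : (Fin b → F) →ₗ[F] ((Fin a → F) ⧸ U₁) × F :=
    LinearMap.prod (U₁.mkQ.comp (ctrR (act x⁻¹ a₀))) (dotR w)
  have hdim : Module.finrank F (((Fin a → F) ⧸ U₁) × F) < Module.finrank F (Fin b → F) := by
    rw [Module.finrank_prod, Module.finrank_self, Module.finrank_fin_fun]
    have h1 := Submodule.finrank_quotient_add_finrank U₁
    rw [Module.finrank_fin_fun] at h1
    omega
  have hker := LinearMap.ker_ne_bot_of_finrank_lt (f := f) hdim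
  obtain ⟨ψ, hψker, hψ0⟩ := Submodule.exists_mem_ne_zero_of_ne_bot hker
  have hfψ : f ψ = 0 := LinearMap.mem_ker.mp hψker
  have hψ1 : ctr ψ (act x⁻¹ a₀) ∈ U₁ := by
    have h1 : (f ψ).1 = 0 := by rw [hfψ]; rfl
    have h2 : U₁.mkQ (ctr ψ (act x⁻¹ a₀)) = 0 := h1
    exact (Submodule.Quotient.mk_eq_zero U₁).mp h2
  have hψw : ψ ⬝ᵥ w = 0 := by
    have h1 : (f ψ).2 = 0 := by rw [hfψ]; rfl
    exact h1
  have hθ : act x (pt (ctr ψ (act x⁻¹ a₀)) w) ∈ fib (a := a) w := (hU₁ _).mp hψ1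
  -- the new element
  refine ⟨x * rootG w ψ hψw * x⁻¹, ?_, ?_, ?_⟩
  · exact M.mul_mem (M.mul_mem hx (hNM (rootG_mem_NN w ψ hψw))) (M.inv_mem hx)
  · exact hG1 x hx hxN w ψ hw hψ0 hψw
  · -- the subspace K ⊔ span {a₀}
    have hX'inj : Function.Injective (Matrix.toLin' (x * rootG w ψ hψw * x⁻¹).1) := toLin'_inj _
    have hX'app : ∀ v, Matrix.toLin' (x * rootG w ψ hψw * x⁻¹).1 v
        = act (x * rootG w ψ hψw * x⁻¹) v := fun v => by rw [Matrix.toLin'_apply]
    have hact : ∀ v, act (x * rootG w ψ hψw * x⁻¹) v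
        = v + act x (pt (ctr ψ (act x⁻¹ v)) w) := by
      intro v
      rw [act_mul, act_mul, act_rootG, act_add, act_act_inv]
    have hfixK : ∀ y ∈ fib (a := a) w ⊓ (fib (a := a) w).map (Matrix.toLin' x.1),
        act (x * rootG w ψ hψw * x⁻¹) y = y := by
      intro y hy
      obtain ⟨-, hyX⟩ := Submodule.mem_inf.mp hy
      obtain ⟨u, rfl⟩ := mem_map_fib.mp hyX
      rw [hact, act_inv_act, ctr_pt, hψw, zero_smul, pt_zero_left, act_zero, add_zero]
    have ha₀K : a₀ ∉ fib (a := a) w ⊓ (fib (a := a) w).map (Matrix.toLin' x.1) :=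
      fun h => ha₀ (Submodule.mem_inf.mp h).2
    have hlt : fib (a := a) w ⊓ (fib (a := a) w).map (Matrix.toLin' x.1)
        < (fib (a := a) w ⊓ (fib (a := a) w).map (Matrix.toLin' x.1)) ⊔ Submodule.span F {a₀} := by
      refine lt_of_le_of_ne le_sup_left ?_
      intro h
      apply ha₀K
      rw [h]
      exact Submodule.mem_sup_right (Submodule.mem_span_singleton_self a₀)
    have h1 := Submodule.finrank_lt_finrank_of_lt hlt
    have hK₂A : (fib (a := a) w ⊓ (fib (a := a) w).map (Matrix.toLin' x.1)) ⊔ Submodule.span F {a₀}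
        ≤ fib (a := a) w := by
      refine sup_le inf_le_left ?_
      rw [Submodule.span_singleton_le_iff_mem]
      exact ha₀A
    have hK₂ : (fib (a := a) w ⊓ (fib (a := a) w).map (Matrix.toLin' x.1)) ⊔ Submodule.span F {a₀}
        ≤ (fib (a := a) w).comap (Matrix.toLin' (x * rootG w ψ hψw * x⁻¹).1) := by
      refine sup_le ?_ ?_
      · intro y hy
        rw [Submodule.mem_comap, hX'app, hfixK y hy]
        exact (Submodule.mem_inf.mp hy).1
      · rw [Submodule.span_singleton_le_iff_mem, Submodule.mem_comap, hX'app, hact]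
        exact Submodule.add_mem _ ha₀A hθ
    have hmap : ((fib (a := a) w ⊓ (fib (a := a) w).map (Matrix.toLin' x.1))
          ⊔ Submodule.span F {a₀}).map (Matrix.toLin' (x * rootG w ψ hψw * x⁻¹).1)
        ≤ fib (a := a) w ⊓ (fib (a := a) w).map (Matrix.toLin' (x * rootG w ψ hψw * x⁻¹).1) := by
      refine le_inf ?_ (Submodule.map_mono hK₂A)
      rw [Submodule.map_le_iff_le_comap]
      exact hK₂
    have h2 := Submodule.finrank_mono hmap
    have h3 : Module.finrank F ↥(((fib (a := a) w ⊓ (fib (a := a) w).map (Matrix.toLin' x.1))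
          ⊔ Submodule.span F {a₀}).map (Matrix.toLin' (x * rootG w ψ hψw * x⁻¹).1))
        = Module.finrank F ↥((fib (a := a) w ⊓ (fib (a := a) w).map (Matrix.toLin' x.1))
          ⊔ Submodule.span F {a₀}) :=
      (LinearEquiv.finrank_eq (Submodule.equivMapOfInjective _ hX'inj _)).symm
    unfold kk
    omega

end Cfsg.Agent.Lib.Helper71.TPG3
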