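import Mathlib
import Cfsg.Prelude.Def_GeometricClasses
import Cfsg.Agent.Lib.Helper97.Transv
import Cfsg.Agent.Lib.Helper97.TransvM
import Cfsg.Agent.Lib.Helper71.TP0
import Cfsg.Agent.Lib.Helper71.TP1
import Cfsg.Agent.Lib.Helper71.TPFAM
import Cfsg.Agent.Lib.Helper71.TPG3
import Cfsg.Agent.Lib.Helper92.TPA
import Cfsg.Agent.Lib.Helper14.TPB1
import Cfsg.Agent.Lib.Helper68.TPDET
import Cfsg.Agent.Lib.Helper57.TPF1
import Cfsg.Agent.Lib.Helper97.TPG1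
import Cfsg.Agent.Lib.Helper74.TPKK
import Cfsg.Agent.Lib.Helper97.TPP2A
import Cfsg.Agent.Lib.Helper29.TPRMS
import Cfsg.Agent.Lib.Helper66.TPP2C
import Cfsg.Agent.Lib.Helper23.TPNE
import Cfsg.Agent.Lib.Helper26.TPR1I
import Cfsg.Agent.Lib.Helper26.TPR1II
import Cfsg.Agent.Lib.Helper23.TPR1III
import Cfsg.Agent.Lib.Helper65.TPPC
import Cfsg.Agent.Lib.Helper5.TPSLP
import Cfsg.Agent.Lib.Helper5.TPP0
import Cfsg.Agent.Lib.Helper46.TPTR

/-! S5637: assembly of the pieces (helper71).  `NN a b F` (the group of the `A ⊗ B` of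
determinant one) is maximal in `SL (Fin a × Fin b) F` for `2 ≤ a < b`, `(a, q) ≠ (2, 2)`. -/

set_option autoImplicit false

namespace Cfsg.Agent.Lib.Helper71.TPMain

open Matrix Cfsg.Agent.Lib.Helper71.TP Cfsg.Agent.Lib.Helper97
open scoped Kronecker

variable {a b : ℕ} {F : Type*} [Field F]

/-- G2 -/
theorem exists_fix_pt (ha : 1 ≤ a) (hab : a < b) (hb : 3 ≤ b)
    (M : Subgroup (GL (Fin a × Fin b) F)) (hNM : NN a b F ≤ M)
    (hM : M ≤ Cfsg.Geo.specialLinear (Fin a × Fin b) F) (hD : HD M)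
    (g : GL (Fin a × Fin b) F) (hg : g ∈ M) (hgN : g ∉ NN a b F) :
    ∃ x ∈ M, x ∉ NN a b F ∧ ∃ (u : Fin a → F) (w : Fin b → F), u ≠ 0 ∧ w ≠ 0 ∧
      act x (pt u w) = pt u w := by
  classical
  let u : Fin a → F := Pi.single (⟨0, by omega⟩ : Fin a) (1 : F)
  let w : Fin b → F := Pi.single (⟨0, by omega⟩ : Fin b) (1 : F)
  have hu : u ≠ 0 := by
    intro h
    have := congrFun h (⟨0, by omega⟩ : Fin a)
    simp [u] at this
  have hw : w ≠ 0 := by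
    intro h
    have := congrFun h (⟨0, by omega⟩ : Fin b)
    simp [w] at this
  -- ψ₁ ≠ 0 killing g⁻¹ (u ⊗ w)
  have hdim : Module.finrank F (Fin a → F) < Module.finrank F (Fin b → F) := by
    rw [Module.finrank_fin_fun, Module.finrank_fin_fun]; exact hab
  have hker := LinearMap.ker_ne_bot_of_finrank_lt
    (f := Cfsg.Agent.Lib.Helper71.TPG3.ctrR (act g⁻¹ (pt u w))) hdim
  obtain ⟨ψ₁, hψker, hψ0⟩ := Submodule.exists_mem_ne_zero_of_ne_bot hker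
  have hψ1 : ctr ψ₁ (act g⁻¹ (pt u w)) = 0 := LinearMap.mem_ker.mp hψker
  -- w₁ ≠ 0 with ψ₁ ⬝ w₁ = 0
  have hdim2 : Module.finrank F F < Module.finrank F (Fin b → F) := by
    rw [Module.finrank_self, Module.finrank_fin_fun]; omega
  have hker2 := LinearMap.ker_ne_bot_of_finrank_lt
    (f := Cfsg.Agent.Lib.Helper71.TPG3.dotR ψ₁) hdim2
  obtain ⟨w₁, hwker, hw0⟩ := Submodule.exists_mem_ne_zero_of_ne_bot hker2
  have hw1 : w₁ ⬝ᵥ ψ₁ = 0 := LinearMap.mem_ker.mp hwker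
  have hψw : ψ₁ ⬝ᵥ w₁ = 0 := by rw [dotProduct_comm]; exact hw1
  refine ⟨g * rootG w₁ ψ₁ hψw * g⁻¹, ?_, ?_, u, w, hu, hw, ?_⟩
  · exact M.mul_mem (M.mul_mem hg (hNM (rootG_mem_NN w₁ ψ₁ hψw))) (M.inv_mem hg)
  · exact Cfsg.Agent.Lib.Helper97.TPG1.conj_root_not_mem ha hab hb M hNM hM hD g hg hgN w₁ ψ₁
      hw0 hψ0 hψw
  · rw [act_mul, act_mul, act_rootG, act_add, act_act_inv, hψ1, pt_zero_left, act_zero, add_zero]

/-- G3 -/
theorem descent_step (ha : 1 ≤ a) (hab : a < b) (hb : 3 ≤ b)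
    (M : Subgroup (GL (Fin a × Fin b) F)) (hNM : NN a b F ≤ M)
    (hM : M ≤ Cfsg.Geo.specialLinear (Fin a × Fin b) F) (hD : HD M)
    (x : GL (Fin a × Fin b) F) (hx : x ∈ M) (hxN : x ∉ NN a b F) (w : Fin b → F) (hw : w ≠ 0)
    (hk : 1 ≤ kk x w) :
    ∃ x' ∈ M, x' ∉ NN a b F ∧ kk x w < kk x' w :=
  Cfsg.Agent.Lib.Helper71.TPG3.descent_step_of hab M hNM
    (fun x hx w hw hst => Cfsg.Agent.Lib.Helper57.TPF1.stab_le ha M hNM hM hD x hx w hw hst)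
    (fun x hx hxN w ψ hw hψ h =>
      Cfsg.Agent.Lib.Helper97.TPG1.conj_root_not_mem ha hab hb M hNM hM hD x hx hxN w ψ hw hψ h)
    x hx hxN w hw hk

/-- P1: under (D), `M = NN`. -/
theorem le_of_HD (ha : 1 ≤ a) (hab : a < b) (hb : 3 ≤ b)
    (M : Subgroup (GL (Fin a × Fin b) F)) (hNM : NN a b F ≤ M)
    (hM : M ≤ Cfsg.Geo.specialLinear (Fin a × Fin b) F) (hD : HD M) : M ≤ NN a b F := by
  by_contra hcon
  obtain ⟨g, hg, hgN⟩ := SetLike.not_le_iff_exists.mp hcon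
  obtain ⟨x, hx, hxN, u, w, hu, hw, hfix⟩ := exists_fix_pt ha hab hb M hNM hM hD g hg hgN
  have hk := Cfsg.Agent.Lib.Helper74.TPKK.kk_pos_of_fix x u w hu hw hfix
  have key : ∀ n : ℕ, ∀ y : GL (Fin a × Fin b) F, y ∈ M → y ∉ NN a b F → 1 ≤ kk y w →
      a - kk y w = n → False := by
    intro n
    induction n using Nat.strong_induction_on with
    | _ n ih =>
      intro y hy hyN hky hn
      obtain ⟨y', hy', hy'N, hlt⟩ := descent_step ha hab hb M hNM hM hD y hy hyN w hw hky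
      have h1 := Cfsg.Agent.Lib.Helper74.TPKK.kk_le y' w
      exact ih (a - kk y' w) (by omega) y' hy' hy'N (by omega) rfl
  exact key _ x hx hxN hk rfl

/-- R1: an `SL`-invariant subspace of matrices containing a non-scalar matrix contains a
rank one matrix of trace zero. -/
theorem exists_rank_one [Fintype F] (ha : 2 ≤ a) (hq : ¬ (a = 2 ∧ Fintype.card F = 2))
    (S : Submodule F (Matrix (Fin a) (Fin a) F))
    (hconj : ∀ A : GL (Fin a) F, A.1.det = 1 → ∀ α ∈ S, A.1 * α * (A⁻¹ : GL (Fin a) F).1 ∈ S)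
    (α : Matrix (Fin a) (Fin a) F) (hα : α ∈ S)
    (hns : ∀ c : F, α ≠ c • (1 : Matrix (Fin a) (Fin a) F)) :
    ∃ u' φ : Fin a → F, u' ≠ 0 ∧ φ ≠ 0 ∧ φ ⬝ᵥ u' = 0 ∧ vecMulVec u' φ ∈ S := by
  obtain ⟨u, hu⟩ := Cfsg.Agent.Lib.Helper23.TPNE.exists_non_eigen α hns
  by_cases h2 : (2 : F) = 0
  · by_cases ha3 : 3 ≤ a
    · exact Cfsg.Agent.Lib.Helper26.TPR1II.rank_one_of_three_le ha3 S hconj α hα u hu
    · have ha2 : a = 2 := by omega
      subst ha2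
      have hF : Fintype.card F ≠ 2 := fun h => hq ⟨rfl, h⟩
      obtain ⟨l, m, hl, hm, hl1, hm1, hlm⟩ := Cfsg.Agent.Lib.Helper23.TPNE.exists_two_units h2 hF
      exact Cfsg.Agent.Lib.Helper23.TPR1III.rank_one_of_two S hconj α hα hns l m hl hm hl1 hm1 hlm
  · exact Cfsg.Agent.Lib.Helper26.TPR1I.rank_one_of_two_ne h2 S hconj α hα u hu

/-- P2B -/
theorem exists_RM_rank_one [Fintype F] (ha : 2 ≤ a) (hb : 3 ≤ b)
    (hq : ¬ (a = 2 ∧ Fintype.card F = 2))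
    (M : Subgroup (GL (Fin a × Fin b) F)) (hNM : NN a b F ≤ M)
    (α : Matrix (Fin a) (Fin a) F) (w ψ : Fin b → F) (hw : w ≠ 0) (hψ : ψ ≠ 0)
    (h : ψ ⬝ᵥ w = 0) (hns : ∀ c : F, α ≠ c • (1 : Matrix (Fin a) (Fin a) F))
    (hR : RM M α w ψ) :
    ∃ u φ : Fin a → F, u ≠ 0 ∧ φ ≠ 0 ∧ φ ⬝ᵥ u = 0 ∧ RM M (vecMulVec u φ) w ψ := by
  let S : Submodule F (Matrix (Fin a) (Fin a) F) :=
    { carrier := {β | RM M β w ψ}
      add_mem' := fun h1 h2 => RM_add M h h1 h2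
      zero_mem' := RM_zero M w ψ
      smul_mem' := fun c β h1 => Cfsg.Agent.Lib.Helper29.TPRMS.RM_smul hb M hNM hw hψ h c h1 }
  have hconj : ∀ A : GL (Fin a) F, A.1.det = 1 → ∀ β ∈ S,
      A.1 * β * (A⁻¹ : GL (Fin a) F).1 ∈ S := by
    intro A hA β hβ
    have h3 := RM_conj M hNM A (1 : GL (Fin b) F) (by simp [hA]) hβ
    have h4 : RM M (A.1 * β * (A⁻¹ : GL (Fin a) F).1) w ψ := by simpa using h3
    exact h4
  exact exists_rank_one ha hq S hconj α hR hns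

/-- P2: if (D) fails, `SL ≤ M`. -/
theorem sl_le_of_not_HD [Fintype F] (ha : 2 ≤ a) (hb : 3 ≤ b)
    (hq : ¬ (a = 2 ∧ Fintype.card F = 2))
    (M : Subgroup (GL (Fin a × Fin b) F)) (hNM : NN a b F ≤ M) (hD : ¬ HD M) :
    Cfsg.Geo.specialLinear (Fin a × Fin b) F ≤ M := by
  unfold HD at hD
  push Not at hD
  obtain ⟨w, hw, g, hg, hR, hgN⟩ := hD
  obtain ⟨α, ψ, hψ, h, hns, hRM⟩ :=
    Cfsg.Agent.Lib.Helper97.TPP2A.exists_RM_nonscalar (by omega) hb M hNM g hg w hw hR hgN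
  obtain ⟨u, φ, hu, hφ, h', hRM'⟩ := exists_RM_rank_one ha hb hq M hNM α w ψ hw hψ h hns hRM
  have hall := Cfsg.Agent.Lib.Helper66.TPP2C.RM_all ha hb M hNM u φ w ψ hu hφ hw hψ h' h hRM'
  have h0 : ∀ (u φ : Fin a → F) (w ψ : Fin b → F), φ ⬝ᵥ u = 0 → ψ ⬝ᵥ w = 0 →
      TM M (pt u w) (pt φ ψ) := by
    intro u φ w ψ h1 h2
    exact TM_of_RM M (by rw [h1, zero_mul]) (hall u φ w ψ h1 h2)
  have h1 := Cfsg.Agent.Lib.Helper71.TPFAM.fam1 ha hb M h0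
  have h2 := Cfsg.Agent.Lib.Helper71.TPFAM.fam2 ha (by omega) M h1
  exact Cfsg.Agent.Lib.Helper5.TPSLP.sl_le_of_pure (by omega) (by omega) M
    (Cfsg.Agent.Lib.Helper65.TPPC.pure_centres M h1 h2)

/-- MAIN: the Kronecker subgroup is maximal in `SL`. -/
theorem kron_isMaximalIn [Fintype F] (ha : 2 ≤ a) (hab : a < b)
    (hq : ¬ (a = 2 ∧ Fintype.card F = 2)) :
    Cfsg.Geo.IsMaximalIn (Cfsg.Geo.specialLinear (Fin a × Fin b) F) (NN a b F) := by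
  refine ⟨Cfsg.Agent.Lib.Helper5.TPP0.NN_lt_SL ha (by omega), fun M hNM hM => ?_⟩
  by_cases hD : HD M
  · left
    exact le_antisymm (le_of_HD (by omega) hab (by omega) M hNM hM hD) hNM
  · right
    exact le_antisymm hM (sl_le_of_not_HD ha (by omega) hq M hNM hD)

/-- The statement for the tensor product subgroup of `Cfsg.Geo`. -/
theorem tensor_isMaximalIn [Fintype F] {n : ℕ} (ha : 2 ≤ a) (hab : a < b)
    (hq : ¬ (a = 2 ∧ Fintype.card F = 2)) (e : Fin n ≃ Fin a × Fin b) (P : GL (Fin n) F) :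
    Cfsg.Geo.IsMaximalIn (Cfsg.Geo.specialLinear (Fin n) F)
      (Cfsg.Geo.tensorProductSubgroup a b e P ⊓ Cfsg.Geo.specialLinear (Fin n) F) :=
  Cfsg.Agent.Lib.Helper46.TPTR.transport e P (kron_isMaximalIn ha hab hq)

end Cfsg.Agent.Lib.Helper71.TPMain
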